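import Cfsg.Agent.H58.BG10Defs2
import Cfsg.Agent.S0118
import Cfsg.Agent.S1461
import Cfsg.Agent.H31.BG9b

/-!
# BG10 piece I0: `N_G(P)` controls strong fusion in a Sylow `p`-subgroup (helper28)
-/

set_option autoImplicit false

namespace Cfsg.Agent.H28.BG10

open Cfsg Subgroup Cfsg.Agent.H58.BG10

universe u

variable {G : Type u} [Group G]

/-- A group of odd order has no section isomorphic to `SL(2, p)`, `p` odd. -/
theorem odd_hfree [Finite G] (hodd : Odd (Nat.card G)) {p : ℕ} [Fact p.Prime] (hp2 : p ≠ 2) :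
    ¬ ∃ (H K : Subgroup G) (hK : (K.subgroupOf H).Normal),
      Nonempty ((H ⧸ K.subgroupOf H) ≃* Matrix.SpecialLinearGroup (Fin 2) (ZMod p)) := by
  rintro ⟨H, K, hK, ⟨e⟩⟩
  have hp : p.Prime := Fact.out
  have h2 : 2 ∣ Nat.card (Matrix.SpecialLinearGroup (Fin 2) (ZMod p)) := by
    have hne : (-1 : Matrix.SpecialLinearGroup (Fin 2) (ZMod p)) ≠ 1 := by
      intro h
      have h1 := congrArg (fun M : Matrix.SpecialLinearGroup (Fin 2) (ZMod p) => M.1 0 0) h
      simp only [Matrix.SpecialLinearGroup.coe_neg, Matrix.SpecialLinearGroup.coe_one,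
        Matrix.neg_apply, Matrix.one_apply_eq] at h1
      have h3 : ((2 : ℕ) : ZMod p) = 0 := by
        push_cast
        linear_combination (-1 : ZMod p) * h1
      have h4 := (ZMod.natCast_eq_zero_iff 2 p).1 h3
      have h5 := Nat.le_of_dvd (by norm_num) h4
      have h6 := hp.two_le
      omega
    have hord : orderOf (-1 : Matrix.SpecialLinearGroup (Fin 2) (ZMod p)) = 2 :=
      orderOf_eq_prime neg_one_sq hne
    have h7 := orderOf_dvd_natCard (-1 : Matrix.SpecialLinearGroup (Fin 2) (ZMod p))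
    rw [hord] at h7
    exact h7
  have h3 : Nat.card (↥H ⧸ K.subgroupOf H) =
      Nat.card (Matrix.SpecialLinearGroup (Fin 2) (ZMod p)) := Nat.card_congr e.toEquiv
  have h4 : Nat.card (↥H ⧸ K.subgroupOf H) ∣ Nat.card H := Subgroup.card_quotient_dvd_card _
  have h5 : Nat.card H ∣ Nat.card G := Subgroup.card_subgroup_dvd_card H
  rw [← h3] at h2
  have h6 : 2 ∣ Nat.card G := h2.trans (h4.trans h5)
  exact (Nat.not_even_iff_odd.mpr hodd) (even_iff_two_dvd.mpr h6)

/-- **BG10 piece I0.** -/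
theorem fusion [Finite G] (hG : IsMinSimpleOddOrder G) (h107a : St1410 G) : StFusion G := by
  intro p _ P Y x hYP hxY
  by_cases hPbot : (P : Subgroup G) = ⊥
  · refine ⟨1, one_mem _, fun a ha => ?_⟩
    have ha1 : a = 1 := by
      have h1 : a ∈ (P : Subgroup G) := hYP ha
      rw [hPbot] at h1
      exact Subgroup.mem_bot.1 h1
    rw [ha1]
    group
  have hPp : IsPGroup p (P : Subgroup G) := P.isPGroup'
  have hpG : p ∣ Nat.card G := by
    have h1 : Nat.card (P : Subgroup G) ≠ 1 := fun h => hPbot (Subgroup.card_eq_one.1 h)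
    obtain ⟨k, hk⟩ := IsPGroup.iff_card.1 hPp
    have hk0 : k ≠ 0 := by
      rintro rfl
      exact h1 (by rw [hk, pow_zero])
    have h2 : p ∣ Nat.card (P : Subgroup G) := by
      rw [hk]
      exact dvd_pow_self p hk0
    exact h2.trans (Subgroup.card_subgroup_dvd_card _)
  have hp2 : p ≠ 2 := Cfsg.Agent.H31.BG9.ne_two_of_dvd hG hpG
  have hfree := odd_hfree hG.1 hp2
  have himg : (fun a => x⁻¹⁻¹ * a * x⁻¹) '' Y ⊆ ((P : Subgroup G) : Set G) := by
    rintro _ ⟨a, ha, rfl⟩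
    rw [inv_inv]
    exact hxY a ha
  obtain ⟨n, hn, hna⟩ := Cfsg.Agent.S0118.result hp2 hfree P Y hYP x⁻¹ himg
  -- the normalizer of `ZJ(P)` is a proper subgroup
  have hZeq : centerThompsonOf p (P : Subgroup G) = Cfsg.Agent.H58.cJ p (P : Subgroup G) :=
    Cfsg.Agent.H58.centerThompsonOf_eq_cJ p _
  have hZ0 : centerThompsonOf p (P : Subgroup G) ≠ ⊥ := by
    rw [hZeq]
    exact Cfsg.Agent.H58.cJ_ne_bot (n := p) (Or.inr rfl) hPp hPbot
  have hNtop : normalizer (centerThompsonOf p (P : Subgroup G) : Set G) ≠ ⊤ := by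
    intro htop
    have hnorm : (centerThompsonOf p (P : Subgroup G)).Normal :=
      Subgroup.normalizer_eq_top_iff.1 htop
    have hsimple : IsSimpleGroup G := hG.2.1
    rcases hnorm.eq_bot_or_eq_top with h | h
    · exact hZ0 h
    · apply hG.2.2.1
      have hc : IsMulCommutative ↥(centerThompsonOf p (P : Subgroup G)) := by
        rw [hZeq]
        exact Cfsg.Agent.H58.cJ_comm p _
      refine ⟨⟨fun a b => ?_⟩⟩
      have ha : a ∈ centerThompsonOf p (P : Subgroup G) := h ▸ Subgroup.mem_top a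
      have hb : b ∈ centerThompsonOf p (P : Subgroup G) := h ▸ Subgroup.mem_top b
      exact congrArg Subtype.val (hc.is_comm.comm ⟨a, ha⟩ ⟨b, hb⟩)
  obtain ⟨N, hN⟩ : ∃ N : Subgroup G,
      N = normalizer (centerThompsonOf p (P : Subgroup G) : Set G) := ⟨_, rfl⟩
  rw [← hN] at hn hNtop
  have hsolv : Group.IsSolvable N := hG.2.2.2 N hNtop
  have hpl : PLengthLE p 1 N := h107a p N hNtop
  have hPN : (P : Subgroup G) ≤ N := by
    rw [hN, hZeq]
    exact Subgroup.le_normalizer.trans (Cfsg.Agent.H58.normalizer_le_normalizer_cJ p _)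
  obtain ⟨P', hP'⟩ : ∃ P' : Sylow p N, (P' : Subgroup N) = (P : Subgroup G).subgroupOf N :=
    ⟨P.subtype hPN, Sylow.coe_subtype P hPN⟩
  have hνN : n⁻¹ ∈ N := N.inv_mem hn
  have hY' : (Subtype.val ⁻¹' Y : Set N) ⊆ ((P' : Subgroup N) : Set N) := by
    intro y hy
    rw [hP']
    exact Subgroup.mem_subgroupOf.2 (hYP hy)
  have hxY' : (fun y : N => (⟨n⁻¹, hνN⟩ : N) * y * (⟨n⁻¹, hνN⟩ : N)⁻¹) '' (Subtype.val ⁻¹' Y) ⊆
      ((P' : Subgroup N) : Set N) := by
    rintro _ ⟨y, hy, rfl⟩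
    rw [hP']
    apply Subgroup.mem_subgroupOf.2
    have h1 := hna (y : G) hy
    rw [inv_inv] at h1
    have h2 : (((⟨n⁻¹, hνN⟩ : N) * y * (⟨n⁻¹, hνN⟩ : N)⁻¹ : N) : G) = n⁻¹ * (y : G) * n := by
      simp
    rw [h2, h1]
    exact hxY _ hy
  obtain ⟨g, hg, c, hc, hgc⟩ :=
    (Cfsg.Agent.S1461.result p hpl P').2.1 (Subtype.val ⁻¹' Y) ⟨n⁻¹, hνN⟩ hY' hxY'
  have hgc' : (g : G) * (c : G) = n⁻¹ := congrArg Subtype.val hgc
  refine ⟨(g : G), ?_, fun a ha => ?_⟩
  · apply Cfsg.Agent.H14.mem_normalizer_of_conj_mem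
    intro h hh
    have h1 : (⟨h, hPN hh⟩ : N) ∈ (P' : Subgroup N) := by
      rw [hP']
      exact Subgroup.mem_subgroupOf.2 hh
    have h2 := (Subgroup.mem_normalizer_iff.1 hg ⟨h, hPN hh⟩).1 h1
    rw [hP'] at h2
    exact Subgroup.mem_subgroupOf.1 h2
  · have haN : a ∈ N := hPN (hYP ha)
    have hca : (⟨a, haN⟩ : N) * c = c * ⟨a, haN⟩ :=
      Subgroup.mem_centralizer_iff.1 hc ⟨a, haN⟩ ha
    have hca' : a * (c : G) = (c : G) * a := congrArg Subtype.val hca
    have h1 := hna a ha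
    rw [inv_inv] at h1
    have hn' : n = ((g : G) * (c : G))⁻¹ := by rw [hgc', inv_inv]
    rw [← h1, hn']
    calc (g : G) * a * (g : G)⁻¹ = (g : G) * (a * (c : G)) * (c : G)⁻¹ * (g : G)⁻¹ := by group
      _ = (g : G) * ((c : G) * a) * (c : G)⁻¹ * (g : G)⁻¹ := by rw [hca']
      _ = ((g : G) * (c : G))⁻¹⁻¹ * a * ((g : G) * (c : G))⁻¹ := by group

end Cfsg.Agent.H28.BG10
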