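import Mathlib
import Cfsg.Agent.H77.TqDefs
import Cfsg.Agent.H53.TenFIN
import Cfsg.Agent.H99.ElSTR
import Cfsg.Agent.H49.MinusForm
import Cfsg.Agent.H49.Basic
import Cfsg.Agent.H48.JordanSp

/-!
# S5978-MINELODD (helper28, for helper77): for `i = ord_r(q)` odd, `i ≤ m`, an element of
`Ω⁻_{2m+2}(q)` of order `r` with `rank (x - 1) = 2 i`.

`x = diag(A, A⁻ᵀ, 1)` with `A = A₀ ⊕ 1`, `A₀ ∈ GL_i(F)` of order `r` (Cauchy).
-/

set_option autoImplicit false
open scoped MatrixGroups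
open scoped Matrix

namespace Cfsg.Agent.H28.Tq

open Cfsg.Agent.H77.Tq Module Matrix

universe u

section blocks

variable {F : Type*} [Field F] {ι₁ ι₂ : Type*} [Fintype ι₁] [DecidableEq ι₁] [Fintype ι₂]
  [DecidableEq ι₂]

omit [DecidableEq ι₁] [DecidableEq ι₂] in
theorem bd_mul (A A' : Matrix ι₁ ι₁ F) (D D' : Matrix ι₂ ι₂ F) :
    fromBlocks A 0 0 D * fromBlocks A' 0 0 D' = fromBlocks (A * A') 0 0 (D * D') := by
  rw [Matrix.fromBlocks_multiply]; simp

theorem bd_pow (A : Matrix ι₁ ι₁ F) (D : Matrix ι₂ ι₂ F) (k : ℕ) :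
    (fromBlocks A 0 0 D) ^ k = fromBlocks (A ^ k) 0 0 (D ^ k) := by
  induction k with
  | zero => simp [Matrix.fromBlocks_one]
  | succ k ih => rw [pow_succ, ih, bd_mul, ← pow_succ, ← pow_succ]

omit [Fintype ι₁] [Fintype ι₂] in
theorem bd_sub_one (A : Matrix ι₁ ι₁ F) (D : Matrix ι₂ ι₂ F) :
    fromBlocks A 0 0 D - 1 = fromBlocks (A - 1) 0 0 (D - 1) := by
  ext (i | i) (j | j) <;> simp [Matrix.one_apply]

theorem rank_add_ker {n : Type*} [Fintype n] [DecidableEq n] (M : Matrix n n F) :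
    M.rank + finrank F (LinearMap.ker (Matrix.toLin' M)) = Fintype.card n := by
  have h1 := LinearMap.finrank_range_add_finrank_ker (Matrix.toLin' M)
  rw [Module.finrank_fintype_fun_eq_card] at h1
  exact h1

/-- The rank of a block diagonal matrix. -/
theorem rank_bd (P : Matrix ι₁ ι₁ F) (Q : Matrix ι₂ ι₂ F) :
    (fromBlocks P 0 0 Q).rank = P.rank + Q.rank := by
  have h := Cfsg.Agent.H48.finrank_ker_fromBlocks_diag_pow P Q 1
  rw [pow_one, pow_one, pow_one] at h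
  have h1 := rank_add_ker (fromBlocks P 0 0 Q)
  have h2 := rank_add_ker P
  have h3 := rank_add_ker Q
  rw [Fintype.card_sum] at h1
  omega

theorem eq_zero_of_rank_eq_zero {n : Type*} [Fintype n] [DecidableEq n] (M : Matrix n n F)
    (h : M.rank = 0) : M = 0 := by
  unfold Matrix.rank at h
  have h1 : LinearMap.range M.mulVecLin = ⊥ := Submodule.finrank_eq_zero.mp h
  have h2 : M.mulVecLin = 0 := LinearMap.range_eq_bot.mp h1
  ext i j
  have h3 := congrFun (congrArg (fun f => f (Pi.single j 1)) h2) i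
  simpa using h3

theorem submatrix_pow_equiv {n n' : Type*} [Fintype n] [DecidableEq n] [Fintype n']
    [DecidableEq n'] (M : Matrix n n F) (e : n' ≃ n) (k : ℕ) :
    (M.submatrix e e) ^ k = (M ^ k).submatrix e e := by
  induction k with
  | zero => rw [pow_zero, pow_zero, Matrix.submatrix_one_equiv]
  | succ k ih => rw [pow_succ, ih, Matrix.submatrix_mul_equiv, ← pow_succ]

/-- `diag(A, A⁻ᵀ, 1)` is an isometry of the minus-type form. -/
theorem minus_isom (m : ℕ) (a b : F) (A A' : Matrix (Fin m) (Fin m) F) (h : A' * A = 1)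
    (v : MI m → F) :
    Cfsg.quadFormMinus m F a b
      ((fromBlocks (fromBlocks A 0 0 A'ᵀ) 0 0 (1 : Matrix (Fin 2) (Fin 2) F)) *ᵥ v) =
      Cfsg.quadFormMinus m F a b v := by
  obtain ⟨X, hX⟩ : ∃ X : Matrix (MI m) (MI m) F,
      X = fromBlocks (fromBlocks A 0 0 A'ᵀ) 0 0 (1 : Matrix (Fin 2) (Fin 2) F) := ⟨_, rfl⟩
  rw [← hX]
  have e1 : ∀ i : Fin m, (X *ᵥ v) (Sum.inl (Sum.inl i)) =
      (A *ᵥ (fun j => v (Sum.inl (Sum.inl j)))) i := by
    intro i; rw [hX]; simp [Matrix.mulVec, dotProduct, Fintype.sum_sum_type]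
  have e2 : ∀ i : Fin m, (X *ᵥ v) (Sum.inl (Sum.inr i)) =
      (A'ᵀ *ᵥ (fun j => v (Sum.inl (Sum.inr j)))) i := by
    intro i; rw [hX]; simp [Matrix.mulVec, dotProduct, Fintype.sum_sum_type]
  have e3 : ∀ k : Fin 2, (X *ᵥ v) (Sum.inr k) = v (Sum.inr k) := by
    intro k; rw [hX]; simp [Matrix.mulVec, dotProduct, Fintype.sum_sum_type, Matrix.one_apply]
  unfold Cfsg.quadFormMinus
  rw [e3 0, e3 1]
  congr 1
  simp only [e1, e2]
  show (A *ᵥ fun j => v (Sum.inl (Sum.inl j))) ⬝ᵥ (A'ᵀ *ᵥ fun j => v (Sum.inl (Sum.inr j))) =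
    (fun j => v (Sum.inl (Sum.inl j))) ⬝ᵥ (fun j => v (Sum.inl (Sum.inr j)))
  rw [dotProduct_mulVec, Matrix.vecMul_transpose, Matrix.mulVec_mulVec, h, Matrix.one_mulVec]

end blocks

theorem minElOdd (hOdd : StOddMem.{u}) : StMinElOdd.{u} := by
  intro F _ _ p _ _ m a b h2 hab r hr hr2 hrp hodd hle
  classical
  have hp : p.Prime := Fact.out
  have : Fact r.Prime := ⟨hr⟩
  have hrF : (r : F) ≠ 0 := by
    intro h0
    have h1 := (CharP.cast_eq_zero_iff F p r).mp h0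
    exact hrp ((Nat.prime_dvd_prime_iff_eq hp hr).mp h1).symm
  obtain ⟨i, hi⟩ : ∃ i : ℕ, i = orderOf (Fintype.card F : ZMod r) := ⟨_, rfl⟩
  have hipos : 0 < i := by rw [hi]; exact Cfsg.Agent.H99.El.orderOf_card_pos r hr hrF
  rw [← hi] at hodd hle
  have hcc : Cfsg.Agent.H42.Spd.cc F r = 2 * i := by
    unfold Cfsg.Agent.H42.Spd.cc
    rw [← hi, if_neg (Nat.not_even_iff_odd.mpr hodd)]
  rw [hcc]
  -- Cauchy in `GL_i(F)`
  have hdvd1 : r ∣ Fintype.card F ^ i - 1 := by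
    have h1 : ((Fintype.card F : ZMod r)) ^ i = 1 := by rw [hi]; exact pow_orderOf_eq_one _
    have h3 : 1 ≤ Fintype.card F ^ i := Nat.one_le_pow _ _ Fintype.card_pos
    rw [← ZMod.natCast_eq_zero_iff, Nat.cast_sub h3, Nat.cast_pow, h1]
    simp
  have hdvd : r ∣ Nat.card (GL (Fin i) F) := by
    rw [Matrix.card_GL_field]
    have h4 : Fintype.card F ^ i - Fintype.card F ^ ((⟨0, hipos⟩ : Fin i) : ℕ) ∣
        ∏ j : Fin i, (Fintype.card F ^ i - Fintype.card F ^ (j : ℕ)) :=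
      Finset.dvd_prod_of_mem (fun j : Fin i => Fintype.card F ^ i - Fintype.card F ^ (j : ℕ))
        (Finset.mem_univ _)
    have h5 : Fintype.card F ^ ((⟨0, hipos⟩ : Fin i) : ℕ) = 1 := by simp
    rw [h5] at h4
    exact hdvd1.trans h4
  obtain ⟨g, hg⟩ := exists_prime_orderOf_dvd_card' r hdvd
  have hgr : g ^ r = 1 := by rw [← hg]; exact pow_orderOf_eq_one g
  obtain ⟨A₀, hA₀⟩ : ∃ A₀ : Matrix (Fin i) (Fin i) F, A₀ = (g : Matrix (Fin i) (Fin i) F) :=
    ⟨_, rfl⟩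
  obtain ⟨A₀', hA₀'⟩ : ∃ A₀' : Matrix (Fin i) (Fin i) F,
      A₀' = ((g⁻¹ : GL (Fin i) F) : Matrix (Fin i) (Fin i) F) := ⟨_, rfl⟩
  have h01 : A₀' * A₀ = 1 := by
    rw [hA₀, hA₀', ← Units.val_mul, inv_mul_cancel, Units.val_one]
  have h10 : A₀ * A₀' = 1 := by
    rw [hA₀, hA₀', ← Units.val_mul, mul_inv_cancel, Units.val_one]
  have hA₀r : A₀ ^ r = 1 := by
    rw [hA₀, ← Units.val_pow_eq_pow_val, hgr, Units.val_one]
  have hA₀'r : A₀' ^ r = 1 := by
    rw [hA₀', ← Units.val_pow_eq_pow_val, inv_pow, hgr, inv_one, Units.val_one]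
  have hA₀ne : A₀ ≠ 1 := by
    intro h
    have h1 : g = 1 := Units.ext (by rw [← hA₀, h, Units.val_one])
    rw [h1, orderOf_one] at hg
    exact hr.one_lt.ne hg
  have hrank₀ : (A₀ - 1).rank = i := by
    have hdiv := Cfsg.Agent.H53.Ten.order_dvd_rank_sub_one r hr hrF A₀ hA₀r
    rw [← hi] at hdiv
    have hle' : (A₀ - 1).rank ≤ i := by
      have := Matrix.rank_le_card_width (A₀ - 1)
      simpa using this
    have hne : (A₀ - 1).rank ≠ 0 := by
      intro h0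
      exact hA₀ne (sub_eq_zero.mp (eq_zero_of_rank_eq_zero _ h0))
    have := Nat.le_of_dvd (Nat.pos_of_ne_zero hne) hdiv
    omega
  -- embedding into `GL_m(F)`
  have hmi : i + (m - i) = m := by omega
  obtain ⟨e, -⟩ : ∃ e : Fin i ⊕ Fin (m - i) ≃ Fin m, e = e :=
    ⟨finSumFinEquiv.trans (finCongr hmi), rfl⟩
  obtain ⟨B, hB⟩ : ∃ B : Matrix (Fin i ⊕ Fin (m - i)) (Fin i ⊕ Fin (m - i)) F,
      B = fromBlocks A₀ 0 0 1 := ⟨_, rfl⟩
  obtain ⟨B', hB'⟩ : ∃ B' : Matrix (Fin i ⊕ Fin (m - i)) (Fin i ⊕ Fin (m - i)) F,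
      B' = fromBlocks A₀' 0 0 1 := ⟨_, rfl⟩
  have hB'B : B' * B = 1 := by
    rw [hB, hB', bd_mul, h01, Matrix.mul_one, Matrix.fromBlocks_one]
  have hBB' : B * B' = 1 := by
    rw [hB, hB', bd_mul, h10, Matrix.mul_one, Matrix.fromBlocks_one]
  have hBr : B ^ r = 1 := by
    rw [hB, bd_pow, hA₀r, one_pow, Matrix.fromBlocks_one]
  have hB'r : B' ^ r = 1 := by
    rw [hB', bd_pow, hA₀'r, one_pow, Matrix.fromBlocks_one]
  have hrankB : (B - 1).rank = i := by
    rw [hB, bd_sub_one, rank_bd, hrank₀, sub_self, Matrix.rank_zero, add_zero]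
  obtain ⟨A, hA⟩ : ∃ A : Matrix (Fin m) (Fin m) F, A = B.submatrix e.symm e.symm := ⟨_, rfl⟩
  obtain ⟨A', hA'⟩ : ∃ A' : Matrix (Fin m) (Fin m) F, A' = B'.submatrix e.symm e.symm :=
    ⟨_, rfl⟩
  have hA'A : A' * A = 1 := by
    rw [hA, hA', Matrix.submatrix_mul_equiv, hB'B, Matrix.submatrix_one_equiv]
  have hAA' : A * A' = 1 := by
    rw [hA, hA', Matrix.submatrix_mul_equiv, hBB', Matrix.submatrix_one_equiv]
  have hAr : A ^ r = 1 := by
    rw [hA, submatrix_pow_equiv, hBr, Matrix.submatrix_one_equiv]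
  have hA'r : A' ^ r = 1 := by
    rw [hA', submatrix_pow_equiv, hB'r, Matrix.submatrix_one_equiv]
  have hrankA : (A - 1).rank = i := by
    have h1 : A - 1 = (B - 1).submatrix e.symm e.symm := by
      rw [hA]
      ext a b
      simp [Matrix.one_apply]
    rw [h1, Matrix.rank_submatrix, hrankB]
  have hrankA' : (A'ᵀ - 1).rank = i := by
    have h1 : A'ᵀ - 1 = (A' - 1)ᵀ := by rw [Matrix.transpose_sub, Matrix.transpose_one]
    have h3 : A' - 1 = (-A') * (A - 1) := by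
      rw [Matrix.mul_sub, Matrix.neg_mul, hA'A, Matrix.mul_one]
      abel
    have h4 : IsUnit (-A').det := by
      apply Matrix.isUnit_det_of_right_inverse (B := -A)
      rw [neg_mul_neg, hA'A]
    rw [h1, Matrix.rank_transpose, h3, Matrix.rank_mul_eq_right_of_isUnit_det _ _ h4, hrankA]
  -- the element
  obtain ⟨X, hX⟩ : ∃ X : Matrix (MI m) (MI m) F,
      X = fromBlocks (fromBlocks A 0 0 A'ᵀ) 0 0 (1 : Matrix (Fin 2) (Fin 2) F) := ⟨_, rfl⟩
  obtain ⟨X', hX'⟩ : ∃ X' : Matrix (MI m) (MI m) F,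
      X' = fromBlocks (fromBlocks A' 0 0 Aᵀ) 0 0 (1 : Matrix (Fin 2) (Fin 2) F) := ⟨_, rfl⟩
  have hXX' : X * X' = 1 := by
    rw [hX, hX', bd_mul, bd_mul, hAA', ← Matrix.transpose_mul, hAA', Matrix.transpose_one,
      Matrix.mul_one, Matrix.fromBlocks_one, Matrix.fromBlocks_one]
  have hX'X : X' * X = 1 := by
    rw [hX, hX', bd_mul, bd_mul, hA'A, ← Matrix.transpose_mul, hA'A, Matrix.transpose_one,
      Matrix.mul_one, Matrix.fromBlocks_one, Matrix.fromBlocks_one]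
  have hXr : X ^ r = 1 := by
    rw [hX, bd_pow, bd_pow, hAr, ← Matrix.transpose_pow, hA'r, Matrix.transpose_one, one_pow,
      Matrix.fromBlocks_one, Matrix.fromBlocks_one]
  have hrankX : (X - 1).rank = 2 * i := by
    rw [hX, bd_sub_one, bd_sub_one, rank_bd, rank_bd, hrankA, hrankA', sub_self,
      Matrix.rank_zero]
    ring
  obtain ⟨x, hx⟩ : ∃ x : GL (MI m) F, (x : Matrix (MI m) (MI m) F) = X :=
    ⟨⟨X, X', hXX', hX'X⟩, rfl⟩
  have hxr : x ^ r = 1 := by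
    apply Units.ext
    rw [Units.val_pow_eq_pow_val, hx, hXr, Units.val_one]
  have hxiso : x ∈ Cfsg.isometryGroup F (Cfsg.quadFormMinus m F a b) := by
    rw [Cfsg.Agent.H49.mem_isometryGroup_iff]
    intro v
    rw [hx, hX]
    exact minus_isom m a b A A' hA'A v
  have hdisc : a ^ 2 - 4 * b ≠ 0 := by
    intro h
    have h1 := hab a (-2) (by linear_combination -h)
    have h3 : (2 : F) = 0 := by linear_combination -h1.2
    exact h2 h3
  refine ⟨x, ?_, hxr, ?_, ?_⟩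
  · exact hOdd F (MI m) (Cfsg.Agent.H49.QMin m F a b) h2
      (Cfsg.Agent.H49.QMin_nondeg m a b hdisc) x r hxiso (hr.odd_of_ne_two hr2) hxr
  · intro z hz
    rw [hx] at hz
    have h1 := congrFun (congrFun hz (Sum.inr 0)) (Sum.inr 0)
    rw [hX] at h1
    have hz1 : z = 1 := by simpa using h1.symm
    rw [hz1, one_smul] at hz
    rw [hz, sub_self, Matrix.rank_zero] at hrankX
    omega
  · rw [hx]
    exact hrankX

example (hOdd : StOddMem.{u}) : StMinElOdd.{u} := minElOdd hOdd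

end Cfsg.Agent.H28.Tq
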