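import Mathlib
import Cfsg.Agent.Lib.Helper96.TqPlusDefs
import Cfsg.Agent.H28.TqMinElOdd
import Cfsg.Agent.H53.TenFIN
import Cfsg.Agent.H99.ElSTR
import Cfsg.Agent.H49.Plus
import Cfsg.Agent.H49.Basic

/-!
# S5977-MINELODD (helper28, for helper96): for `i = ord_r(q)` odd, `i ≤ d`, an element of
`Ω⁺_{2d}(q)` of order `r` with `rank (x - 1) = 2 i`.

`x = diag(A, A⁻ᵀ)` with `A = A₀ ⊕ 1`, `A₀ ∈ GL_i(F)` of order `r` (Cauchy).
-/

set_option autoImplicit false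
open scoped MatrixGroups
open scoped Matrix

namespace Cfsg.Agent.H28.Tqp

open Cfsg.Agent.H77.Tq Cfsg.Agent.Lib.Helper96.TqP Cfsg.Agent.H28.Tq Module Matrix

universe u

/-- `diag(A, A⁻ᵀ)` is an isometry of the plus-type form. -/
theorem plus_isom {F : Type*} [Field F] (m : ℕ) (A A' : Matrix (Fin m) (Fin m) F)
    (h : A' * A = 1) (v : Fin m ⊕ Fin m → F) :
    Cfsg.quadFormPlus m F ((fromBlocks A 0 0 A'ᵀ) *ᵥ v) = Cfsg.quadFormPlus m F v := by
  obtain ⟨X, hX⟩ : ∃ X : Matrix (Fin m ⊕ Fin m) (Fin m ⊕ Fin m) F,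
      X = fromBlocks A 0 0 A'ᵀ := ⟨_, rfl⟩
  rw [← hX]
  have e1 : ∀ i : Fin m, (X *ᵥ v) (Sum.inl i) =
      (A *ᵥ (fun j => v (Sum.inl j))) i := by
    intro i; rw [hX]; simp [Matrix.mulVec, dotProduct, Fintype.sum_sum_type]
  have e2 : ∀ i : Fin m, (X *ᵥ v) (Sum.inr i) =
      (A'ᵀ *ᵥ (fun j => v (Sum.inr j))) i := by
    intro i; rw [hX]; simp [Matrix.mulVec, dotProduct, Fintype.sum_sum_type]
  unfold Cfsg.quadFormPlus
  simp only [e1, e2]
  show (A *ᵥ fun j => v (Sum.inl j)) ⬝ᵥ (A'ᵀ *ᵥ fun j => v (Sum.inr j)) =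
    (fun j => v (Sum.inl j)) ⬝ᵥ (fun j => v (Sum.inr j))
  rw [dotProduct_mulVec, Matrix.vecMul_transpose, Matrix.mulVec_mulVec, h, Matrix.one_mulVec]

theorem minElOddP (hOdd : StOddMem.{u}) : StMinElOddP.{u} := by
  intro F _ _ p _ _ m h2 r hr hr2 hrp hodd hle
  classical
  have hp : p.Prime := Fact.out
  have : Fact r.Prime := ⟨hr⟩
  have hrF : (r : F) ≠ 0 := by
    intro h0
    have h1 := (CharP.cast_eq_zero_iff F p r).mp h0
    exact hrp ((Nat.prime_dvd_prime_iff_eq hp hr).mp h1).symm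
  obtain ⟨i, hi⟩ : ∃ i : ℕ, i = orderOf (Fintype.card F : ZMod r) := ⟨_, rfl⟩
  have hipos : 0 < i := by rw [hi]; exact Cfsg.Agent.H99.El.orderOf_card_pos r hr hrF
  rw [← hi] at hodd hle
  have hcc : Cfsg.Agent.H42.Spd.cc F r = 2 * i := by
    unfold Cfsg.Agent.H42.Spd.cc
    rw [← hi, if_neg (Nat.not_even_iff_odd.mpr hodd)]
  rw [hcc]
  -- Cauchy in `GL_i(F)`
  have hdvd1 : r ∣ Fintype.card F ^ i - 1 := by
    have h1 : ((Fintype.card F : ZMod r)) ^ i = 1 := by rw [hi]; exact pow_orderOf_eq_one _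
    have h3 : 1 ≤ Fintype.card F ^ i := Nat.one_le_pow _ _ Fintype.card_pos
    rw [← ZMod.natCast_eq_zero_iff, Nat.cast_sub h3, Nat.cast_pow, h1]
    simp
  have hdvd : r ∣ Nat.card (GL (Fin i) F) := by
    rw [Matrix.card_GL_field]
    have h4 : Fintype.card F ^ i - Fintype.card F ^ ((⟨0, hipos⟩ : Fin i) : ℕ) ∣
        ∏ j : Fin i, (Fintype.card F ^ i - Fintype.card F ^ (j : ℕ)) :=
      Finset.dvd_prod_of_mem (fun j : Fin i => Fintype.card F ^ i - Fintype.card F ^ (j : ℕ))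
        (Finset.mem_univ _)
    have h5 : Fintype.card F ^ ((⟨0, hipos⟩ : Fin i) : ℕ) = 1 := by simp
    rw [h5] at h4
    exact hdvd1.trans h4
  obtain ⟨g, hg⟩ := exists_prime_orderOf_dvd_card' r hdvd
  have hgr : g ^ r = 1 := by rw [← hg]; exact pow_orderOf_eq_one g
  obtain ⟨A₀, hA₀⟩ : ∃ A₀ : Matrix (Fin i) (Fin i) F, A₀ = (g : Matrix (Fin i) (Fin i) F) :=
    ⟨_, rfl⟩
  obtain ⟨A₀', hA₀'⟩ : ∃ A₀' : Matrix (Fin i) (Fin i) F,
      A₀' = ((g⁻¹ : GL (Fin i) F) : Matrix (Fin i) (Fin i) F) := ⟨_, rfl⟩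
  have h01 : A₀' * A₀ = 1 := by
    rw [hA₀, hA₀', ← Units.val_mul, inv_mul_cancel, Units.val_one]
  have h10 : A₀ * A₀' = 1 := by
    rw [hA₀, hA₀', ← Units.val_mul, mul_inv_cancel, Units.val_one]
  have hA₀r : A₀ ^ r = 1 := by
    rw [hA₀, ← Units.val_pow_eq_pow_val, hgr, Units.val_one]
  have hA₀'r : A₀' ^ r = 1 := by
    rw [hA₀', ← Units.val_pow_eq_pow_val, inv_pow, hgr, inv_one, Units.val_one]
  have hA₀ne : A₀ ≠ 1 := by
    intro h
    have h1 : g = 1 := Units.ext (by rw [← hA₀, h, Units.val_one])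
    rw [h1, orderOf_one] at hg
    exact hr.one_lt.ne hg
  have hrank₀ : (A₀ - 1).rank = i := by
    have hdiv := Cfsg.Agent.H53.Ten.order_dvd_rank_sub_one r hr hrF A₀ hA₀r
    rw [← hi] at hdiv
    have hle' : (A₀ - 1).rank ≤ i := by
      have := Matrix.rank_le_card_width (A₀ - 1)
      simpa using this
    have hne : (A₀ - 1).rank ≠ 0 := by
      intro h0
      exact hA₀ne (sub_eq_zero.mp (eq_zero_of_rank_eq_zero _ h0))
    have := Nat.le_of_dvd (Nat.pos_of_ne_zero hne) hdiv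
    omega
  -- embedding into `GL_m(F)`
  have hmi : i + (m - i) = m := by omega
  obtain ⟨e, -⟩ : ∃ e : Fin i ⊕ Fin (m - i) ≃ Fin m, e = e :=
    ⟨finSumFinEquiv.trans (finCongr hmi), rfl⟩
  obtain ⟨B, hB⟩ : ∃ B : Matrix (Fin i ⊕ Fin (m - i)) (Fin i ⊕ Fin (m - i)) F,
      B = fromBlocks A₀ 0 0 1 := ⟨_, rfl⟩
  obtain ⟨B', hB'⟩ : ∃ B' : Matrix (Fin i ⊕ Fin (m - i)) (Fin i ⊕ Fin (m - i)) F,
      B' = fromBlocks A₀' 0 0 1 := ⟨_, rfl⟩
  have hB'B : B' * B = 1 := by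
    rw [hB, hB', bd_mul, h01, Matrix.mul_one, Matrix.fromBlocks_one]
  have hBB' : B * B' = 1 := by
    rw [hB, hB', bd_mul, h10, Matrix.mul_one, Matrix.fromBlocks_one]
  have hBr : B ^ r = 1 := by
    rw [hB, bd_pow, hA₀r, one_pow, Matrix.fromBlocks_one]
  have hB'r : B' ^ r = 1 := by
    rw [hB', bd_pow, hA₀'r, one_pow, Matrix.fromBlocks_one]
  have hrankB : (B - 1).rank = i := by
    rw [hB, bd_sub_one, rank_bd, hrank₀, sub_self, Matrix.rank_zero, add_zero]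
  obtain ⟨A, hA⟩ : ∃ A : Matrix (Fin m) (Fin m) F, A = B.submatrix e.symm e.symm := ⟨_, rfl⟩
  obtain ⟨A', hA'⟩ : ∃ A' : Matrix (Fin m) (Fin m) F, A' = B'.submatrix e.symm e.symm :=
    ⟨_, rfl⟩
  have hA'A : A' * A = 1 := by
    rw [hA, hA', Matrix.submatrix_mul_equiv, hB'B, Matrix.submatrix_one_equiv]
  have hAA' : A * A' = 1 := by
    rw [hA, hA', Matrix.submatrix_mul_equiv, hBB', Matrix.submatrix_one_equiv]
  have hAr : A ^ r = 1 := by
    rw [hA, submatrix_pow_equiv, hBr, Matrix.submatrix_one_equiv]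
  have hA'r : A' ^ r = 1 := by
    rw [hA', submatrix_pow_equiv, hB'r, Matrix.submatrix_one_equiv]
  have hrankA : (A - 1).rank = i := by
    have h1 : A - 1 = (B - 1).submatrix e.symm e.symm := by
      rw [hA]
      ext a b
      simp [Matrix.one_apply]
    rw [h1, Matrix.rank_submatrix, hrankB]
  have hrankA' : (A'ᵀ - 1).rank = i := by
    have h1 : A'ᵀ - 1 = (A' - 1)ᵀ := by rw [Matrix.transpose_sub, Matrix.transpose_one]
    have h3 : A' - 1 = (-A') * (A - 1) := by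
      rw [Matrix.mul_sub, Matrix.neg_mul, hA'A, Matrix.mul_one]
      abel
    have h4 : IsUnit (-A').det := by
      apply Matrix.isUnit_det_of_right_inverse (B := -A)
      rw [neg_mul_neg, hA'A]
    rw [h1, Matrix.rank_transpose, h3, Matrix.rank_mul_eq_right_of_isUnit_det _ _ h4, hrankA]
  -- the element
  obtain ⟨X, hX⟩ : ∃ X : Matrix (Fin m ⊕ Fin m) (Fin m ⊕ Fin m) F,
      X = fromBlocks A 0 0 A'ᵀ := ⟨_, rfl⟩
  obtain ⟨X', hX'⟩ : ∃ X' : Matrix (Fin m ⊕ Fin m) (Fin m ⊕ Fin m) F,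
      X' = fromBlocks A' 0 0 Aᵀ := ⟨_, rfl⟩
  have hXX' : X * X' = 1 := by
    rw [hX, hX', bd_mul, hAA', ← Matrix.transpose_mul, hAA', Matrix.transpose_one,
      Matrix.fromBlocks_one]
  have hX'X : X' * X = 1 := by
    rw [hX, hX', bd_mul, hA'A, ← Matrix.transpose_mul, hA'A, Matrix.transpose_one,
      Matrix.fromBlocks_one]
  have hXr : X ^ r = 1 := by
    rw [hX, bd_pow, hAr, ← Matrix.transpose_pow, hA'r, Matrix.transpose_one,
      Matrix.fromBlocks_one]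
  have hrankX : (X - 1).rank = 2 * i := by
    rw [hX, bd_sub_one, rank_bd, hrankA, hrankA']
    ring
  obtain ⟨x, hx⟩ : ∃ x : GL (Fin m ⊕ Fin m) F,
      (x : Matrix (Fin m ⊕ Fin m) (Fin m ⊕ Fin m) F) = X :=
    ⟨⟨X, X', hXX', hX'X⟩, rfl⟩
  have hxr : x ^ r = 1 := by
    apply Units.ext
    rw [Units.val_pow_eq_pow_val, hx, hXr, Units.val_one]
  have hxiso : x ∈ Cfsg.isometryGroup F (Cfsg.quadFormPlus m F) := by
    rw [Cfsg.Agent.H49.mem_isometryGroup_iff]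
    intro v
    rw [hx, hX]
    exact plus_isom m A A' hA'A v
  have hmpos : 0 < m := lt_of_lt_of_le hipos hle
  refine ⟨x, ?_, hxr, ?_, ?_⟩
  · exact hOdd F (Fin m ⊕ Fin m) (Cfsg.Agent.H49.QP m F) h2
      (Cfsg.Agent.H49.QP_nondeg m F) x r hxiso (hr.odd_of_ne_two hr2) hxr
  · intro z hz
    rw [hx] at hz
    -- `A = z • 1` and `A'ᵀ = z • 1`
    have hAz : A = z • (1 : Matrix (Fin m) (Fin m) F) := by
      ext a b
      have h1 := congrFun (congrFun hz (Sum.inl a)) (Sum.inl b)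
      rw [hX] at h1
      simpa [Matrix.one_apply] using h1
    have hA'z : A'ᵀ = z • (1 : Matrix (Fin m) (Fin m) F) := by
      ext a b
      have h1 := congrFun (congrFun hz (Sum.inr a)) (Sum.inr b)
      rw [hX] at h1
      simpa [Matrix.one_apply] using h1
    have hA'z' : A' = z • (1 : Matrix (Fin m) (Fin m) F) := by
      have h1 := congrArg Matrix.transpose hA'z
      rw [Matrix.transpose_transpose, Matrix.transpose_smul, Matrix.transpose_one] at h1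
      exact h1
    have hzz : z * z = 1 := by
      have h1 := congrFun (congrFun hA'A (⟨0, hmpos⟩ : Fin m)) (⟨0, hmpos⟩ : Fin m)
      rw [hAz, hA'z'] at h1
      simpa [Matrix.mul_apply, Matrix.one_apply] using h1
    have hzr : z ^ r = 1 := by
      have h1 := congrFun (congrFun hAr (⟨0, hmpos⟩ : Fin m)) (⟨0, hmpos⟩ : Fin m)
      rw [hAz, smul_pow, one_pow] at h1
      simpa [Matrix.one_apply] using h1
    have hz1 : z = 1 := by
      obtain ⟨k, hk⟩ := hr.odd_of_ne_two hr2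
      have h3 : z ^ (2 * k) = 1 := by rw [pow_mul, pow_two, hzz, one_pow]
      rw [hk, pow_succ, h3, one_mul] at hzr
      exact hzr
    rw [hz1, one_smul] at hz
    rw [hz, sub_self, Matrix.rank_zero] at hrankX
    omega
  · rw [hx]
    exact hrankX

example (hOdd : StOddMem.{u}) : StMinElOddP.{u} := minElOddP hOdd

end Cfsg.Agent.H28.Tqp
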