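import Mathlib
import Cfsg.Agent.H58.BG127Defs

set_option autoImplicit false

/-!
# S1419-LINES (helper28, for helper58): the action of a `p`-element on the lines of an
elementary abelian group of order `p²`.
-/

namespace Cfsg.Agent.H28.BG127

open Cfsg Subgroup Cfsg.Agent.H58.BG10 Cfsg.Agent.H58.BG12

universe u

/-- A `p`-element normalizing a finite subgroup of order divisible by `p` centralizes a
nontrivial element of it. -/
theorem exists_fixed_of_pelt {G : Type u} [Group G] {p : ℕ} [Fact p.Prime] (B : Subgroup G)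
    [Finite B] (x : G) (n : ℕ) (hx : x ^ p ^ n = 1) (hB : ∀ g ∈ B, x * g * x⁻¹ ∈ B)
    (hp : p ∣ Nat.card B) : ∃ g ∈ B, g ≠ 1 ∧ x * g * x⁻¹ = g := by
  classical
  have : Fintype B := Fintype.ofFinite B
  let f : Function.End B := fun g => ⟨x * g * x⁻¹, hB g g.2⟩
  have hpow : ∀ m : ℕ, ∀ g : B, (((f ^ m) g : B) : G) = x ^ m * g * (x ^ m)⁻¹ := by
    intro m
    induction m with
    | zero =>
      intro g
      show (g : G) = x ^ 0 * g * (x ^ 0)⁻¹
      simp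
    | succ m ih =>
      intro g
      rw [pow_succ']
      show x * ((f ^ m) g : G) * x⁻¹ = _
      rw [ih g, pow_succ']; group
  have hf : f ^ p ^ n = 1 := by
    funext g
    apply Subtype.ext
    show ((f ^ p ^ n) g : G) = g
    rw [hpow, hx]; simp
  have h1 := Equiv.Perm.card_fixedPoints_modEq (p := p) hf
  have h2 : p ∣ Fintype.card (Function.fixedPoints f) := by
    rw [Nat.card_eq_fintype_card] at hp
    exact (h1.dvd_iff (dvd_refl p)).1 hp
  have h3 : (1 : B) ∈ Function.fixedPoints f := by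
    show f 1 = 1
    apply Subtype.ext; simp [f]
  have hp2 : 1 < Fintype.card (Function.fixedPoints f) := by
    have h4 : 0 < Fintype.card (Function.fixedPoints f) := Fintype.card_pos_iff.2 ⟨⟨1, h3⟩⟩
    have h5 := Nat.le_of_dvd h4 h2
    have h6 := (Fact.out : p.Prime).two_le
    omega
  obtain ⟨⟨b, hb⟩, hne⟩ := Fintype.exists_ne_of_one_lt_card hp2 ⟨1, h3⟩
  refine ⟨b, b.2, ?_, ?_⟩
  · intro h; apply hne; apply Subtype.ext; apply Subtype.ext; simpa using h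
  · exact congrArg Subtype.val (hb : f b = b)

/-- In a subgroup of prime order every element is a power of any nontrivial element. -/
theorem exists_zpow_of_card_prime {G : Type u} [Group G] {p : ℕ} [Fact p.Prime] (K : Subgroup G)
    (hK : Nat.card K = p) {g : G} (hg : g ∈ K) (hg1 : g ≠ 1) {w : G} (hw : w ∈ K) :
    ∃ k : ℤ, g ^ k = w := by
  have h := zpowers_eq_top_of_prime_card (G := K) hK (g := ⟨g, hg⟩)
    (by simpa [Subtype.ext_iff] using hg1)
  have hw' : (⟨w, hw⟩ : K) ∈ Subgroup.zpowers (⟨g, hg⟩ : K) := by rw [h]; trivial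
  obtain ⟨k, hk⟩ := Subgroup.mem_zpowers_iff.1 hw'
  exact ⟨k, by simpa using congrArg Subtype.val hk⟩

theorem zpow_eq_pow_lt {G : Type u} [Group G] {p : ℕ} (hp : p.Prime) (g : G) (hg : g ^ p = 1)
    (k : ℤ) : ∃ i : ℕ, i < p ∧ g ^ k = g ^ i := by
  have hp0 : (0 : ℤ) < p := by exact_mod_cast hp.pos
  refine ⟨(k % p).toNat, ?_, ?_⟩
  · have := Int.emod_lt_of_pos k hp0
    have h0 : 0 ≤ k % p := Int.emod_nonneg _ hp0.ne'
    omega
  · have h0 : 0 ≤ k % p := Int.emod_nonneg _ hp0.ne'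
    rw [← zpow_natCast, Int.toNat_of_nonneg h0]
    conv_lhs => rw [← Int.emod_add_mul_ediv k p]
    rw [zpow_add, zpow_mul, zpow_natCast, hg, one_zpow, mul_one]

/-- S1419-LINES. -/
theorem lines {G : Type u} [Group G] : StLines G := by
  intro p _ S A x hS hAS hxS hA hcard hxN hxC
  have hp : p.Prime := Fact.out
  obtain ⟨hA1, hexp⟩ := hA
  have hcomm : ∀ a ∈ A, ∀ b ∈ A, a * b = b * a := fun a ha b hb =>
    congrArg Subtype.val (hA1.is_comm.comm ⟨a, ha⟩ ⟨b, hb⟩)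
  have : Finite A := Nat.finite_of_card_ne_zero (by rw [hcard]; exact pow_ne_zero _ hp.ne_zero)
  obtain ⟨n, hn⟩ := hS ⟨x, hxS⟩
  have hxn : x ^ p ^ n = 1 := by simpa using congrArg Subtype.val hn
  have hxA : ∀ a ∈ A, x * a * x⁻¹ ∈ A := fun a ha => (mem_normalizer_iff.1 hxN a).1 ha
  obtain ⟨Z, hZdef⟩ : ∃ Z : Subgroup G, ∀ u, u ∈ Z ↔ (u ∈ A ∧ x * u = u * x) :=
    ⟨A ⊓ centralizer {x}, fun u => by simp [mem_centralizer_iff]⟩
  have hZA : Z ≤ A := fun u hu => ((hZdef u).1 hu).1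
  have hfix : ∀ u, u ∈ A → x * u * x⁻¹ = u → u ∈ Z := fun u hu h =>
    (hZdef u).2 ⟨hu, mul_inv_eq_iff_eq_mul.1 h⟩
  have hZne : Z ≠ A := by
    intro h
    apply hxC
    rw [mem_centralizer_iff]
    intro a ha
    have ha' : a ∈ Z := by rw [h]; exact ha
    exact (((hZdef a).1 ha').2).symm
  have : Finite Z := Finite.of_injective _ (Subgroup.inclusion_injective hZA)
  have hZcard : Nat.card Z = p := by
    obtain ⟨g, hgA, hg1, hgx⟩ := exists_fixed_of_pelt A x n hxn hxA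
      (by rw [hcard]; exact dvd_pow_self p two_ne_zero)
    have hgZ : g ∈ Z := hfix g hgA hgx
    have hdvd : Nat.card Z ∣ p ^ 2 := hcard ▸ Subgroup.card_dvd_of_le hZA
    obtain ⟨m, hm, hmc⟩ := (Nat.dvd_prime_pow hp).1 hdvd
    interval_cases m
    · exfalso
      rw [pow_zero, Subgroup.card_eq_one] at hmc
      rw [hmc, Subgroup.mem_bot] at hgZ
      exact hg1 hgZ
    · simpa using hmc
    · exfalso
      exact hZne (Subgroup.eq_of_le_of_card_ge hZA (by rw [hcard, hmc]))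
  obtain ⟨cHom, hc⟩ : ∃ cHom : A →* G, ∀ a : A, cHom a = x * a * x⁻¹ * (a : G)⁻¹ :=
    ⟨MonoidHom.mk' (fun a => x * a * x⁻¹ * (a : G)⁻¹) (by
      intro a b
      have h := hcomm (x * b * x⁻¹ * (b : G)⁻¹) (mul_mem (hxA b b.2) (inv_mem b.2)) (a : G)⁻¹
        (inv_mem a.2)
      calc x * ((a * b : A) : G) * x⁻¹ * ((a * b : A) : G)⁻¹
          = x * a * x⁻¹ * ((x * b * x⁻¹ * (b : G)⁻¹) * (a : G)⁻¹) := by
            simp only [Subgroup.coe_mul]; group
        _ = x * a * x⁻¹ * ((a : G)⁻¹ * (x * b * x⁻¹ * (b : G)⁻¹)) := by rw [h]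
        _ = x * a * x⁻¹ * (a : G)⁻¹ * (x * b * x⁻¹ * (b : G)⁻¹) := by group), fun a => rfl⟩
  have hcA : ∀ a : A, cHom a ∈ A := fun a => by
    rw [hc]; exact mul_mem (hxA a a.2) (inv_mem a.2)
  have hc1 : ∀ a : A, cHom a = 1 ↔ (a : G) ∈ Z := by
    intro a
    rw [hc, hZdef, mul_inv_eq_one, mul_inv_eq_iff_eq_mul]
    exact ⟨fun h => ⟨a.2, h⟩, fun h => h.2⟩
  have hcx : ∀ a : A, x * cHom a * x⁻¹ = cHom ⟨x * a * x⁻¹, hxA a a.2⟩ := by
    intro a; rw [hc, hc]; simp only; group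
  have hker : cHom.ker = Z.subgroupOf A := by
    ext a
    rw [MonoidHom.mem_ker, Subgroup.mem_subgroupOf, hc1]
  have hIcard : Nat.card cHom.range = p := by
    have h1 := Subgroup.card_mul_index cHom.ker
    rw [Subgroup.index_ker, hker, Nat.card_congr (Subgroup.subgroupOfEquivOfLe hZA).toEquiv,
      hZcard, hcard] at h1
    exact Nat.eq_of_mul_eq_mul_left hp.pos (by rw [h1]; ring)
  have hIA : cHom.range ≤ A := by
    rintro _ ⟨a, rfl⟩; exact hcA a
  have : Finite cHom.range := Finite.of_injective _ (Subgroup.inclusion_injective hIA)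
  have hIZ : ∀ a : A, cHom a ∈ Z := by
    obtain ⟨g, hgI, hg1, hgx⟩ := exists_fixed_of_pelt cHom.range x n hxn (by
      rintro _ ⟨a, rfl⟩; rw [hcx]; exact ⟨_, rfl⟩) (by rw [hIcard])
    have hgZ : g ∈ Z := hfix g (hIA hgI) hgx
    intro a
    obtain ⟨k, hk⟩ := exists_zpow_of_card_prime cHom.range hIcard hgI hg1 ⟨a, rfl⟩
    rw [← hk]; exact zpow_mem hgZ k
  refine ⟨Z, hZA, hZcard, fun u hu => ((hZdef u).1 hu).2, ?_⟩
  intro X Y hXA hYA hXc hYc hXZ hYZ
  have gen : ∀ W : Subgroup G, W ≤ A → Nat.card W = p → W ≠ Z → ∃ b ∈ W, b ∉ Z := by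
    intro W hWA hWc hWZ
    by_contra hcon
    push Not at hcon
    exact hWZ (Subgroup.eq_of_le_of_card_ge hcon (by rw [hWc, hZcard]))
  have zp : ∀ W : Subgroup G, W ≤ A → Nat.card W = p → ∀ b ∈ W, b ≠ 1 → W = zpowers b := by
    intro W hWA hWc b hb hb1
    have : Finite W := Nat.finite_of_card_ne_zero (by rw [hWc]; exact hp.ne_zero)
    symm
    apply Subgroup.eq_of_le_of_card_ge ((Subgroup.zpowers_le).2 hb)
    rw [Nat.card_zpowers, orderOf_eq_prime (hexp b (hWA hb)) hb1, hWc]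
  obtain ⟨b, hbX, hbZ⟩ := gen X hXA hXc hXZ
  obtain ⟨y₀, hyY, hyZ⟩ := gen Y hYA hYc hYZ
  have hbA := hXA hbX
  have hyA := hYA hyY
  have hb1 : b ≠ 1 := fun h => hbZ (h ▸ one_mem Z)
  obtain ⟨z, hzdef⟩ : ∃ z, z = cHom ⟨b, hbA⟩ := ⟨_, rfl⟩
  have hzZ : z ∈ Z := hzdef ▸ hIZ ⟨b, hbA⟩
  have hz1 : z ≠ 1 := fun h => hbZ ((hc1 ⟨b, hbA⟩).1 (hzdef ▸ h))
  have hzy1 : cHom ⟨y₀, hyA⟩ ≠ 1 := fun h => hyZ ((hc1 ⟨y₀, hyA⟩).1 h)
  have hzp : z ^ p = 1 := hexp z (hZA hzZ)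
  have hxz : x * z = z * x := ((hZdef z).1 hzZ).2
  have hzb : x * b * x⁻¹ = z * b := by rw [hzdef, hc]; group
  have hconj : ∀ j : ℕ, x ^ j * b * (x ^ j)⁻¹ = z ^ j * b := by
    intro j
    induction j with
    | zero => simp
    | succ j ih =>
      have hcm : x * z ^ j = z ^ j * x := Commute.pow_right hxz j
      calc x ^ (j + 1) * b * (x ^ (j + 1))⁻¹ = x * (x ^ j * b * (x ^ j)⁻¹) * x⁻¹ := by
            rw [pow_succ']; group
        _ = x * (z ^ j * b) * x⁻¹ := by rw [ih]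
        _ = (x * z ^ j) * x⁻¹ * (x * b * x⁻¹) := by group
        _ = z ^ j * (z * b) := by rw [hcm, hzb]; group
        _ = z ^ (j + 1) * b := by rw [pow_succ]; group
  obtain ⟨k, hk⟩ := exists_zpow_of_card_prime Z hZcard (hIZ ⟨y₀, hyA⟩) hzy1 hzZ
  have hw : ((⟨y₀, hyA⟩ : A) ^ k)⁻¹ * ⟨b, hbA⟩ ∈ cHom.ker := by
    rw [MonoidHom.mem_ker, map_mul, map_inv, map_zpow, hk, hzdef, inv_mul_cancel]
  rw [hker, Subgroup.mem_subgroupOf] at hw
  have hw' : (y₀ ^ k)⁻¹ * b ∈ Z := by simpa using hw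
  obtain ⟨l, hl⟩ := exists_zpow_of_card_prime Z hZcard hzZ hz1 (inv_mem hw')
  obtain ⟨i, hi, hli⟩ := zpow_eq_pow_lt hp z hzp l
  have hy : y₀ ^ k = x ^ i * b * (x ^ i)⁻¹ := by
    have hcm := hcomm (y₀ ^ k) (zpow_mem hyA k) b hbA
    rw [hconj, ← hli, hl]
    simp only [mul_inv_rev, inv_inv]
    rw [mul_assoc, hcm, inv_mul_cancel_left]
  have hy1 : y₀ ^ k ≠ 1 := by
    intro h
    rw [h] at hw'
    exact hbZ (by simpa using hw')
  refine ⟨i, hi, ?_⟩
  rw [zp X hXA hXc b hbX hb1, MonoidHom.map_zpowers, zp Y hYA hYc (y₀ ^ k) (zpow_mem hyY k) hy1, hy]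
  rfl

end Cfsg.Agent.H28.BG127
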