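import Mathlib
import Cfsg.Agent.H79.BrDefs
import Cfsg.Agent.H4.Chars
import Cfsg.Agent.H4.RealClasses
import Cfsg.Agent.H82.Irr
import Cfsg.Agent.H82.Extra
import Cfsg.Agent.H82.P1J

set_option autoImplicit false

/-!
# S4504 (helper79's Brauer project): shared tools for the pieces of helper28
(EXC1, PROD1A, PROD1B).
-/

namespace Cfsg.Agent.H28.Br

open Cfsg Cfsg.Agent.H79.Br
open scoped ComplexConjugate

universe u

variable {G : Type u} [Group G]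

/-- The trivial character as an irreducible character. -/
noncomputable def trivIrr (G : Type u) [Group G] : IrrCharacter G :=
  ⟨1, Cfsg.Agent.H82.P1.isIrr_one_fun G⟩

theorem trivIrr_val : (trivIrr G).1 = 1 := rfl

/-- Evaluation of a decomposition into irreducible characters. -/
theorem decomp_apply [Finite G] [Fintype (IrrCharacter G)] (m : IrrCharacter G → ℕ) (Ξ : G → ℂ)
    (hΞ : Ξ = ∑ᶠ ψ : IrrCharacter G, (m ψ : ℂ) • ψ.1) (g : G) :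
    Ξ g = ∑ ψ : IrrCharacter G, (m ψ : ℂ) * ψ.1 g := by
  rw [hΞ, finsum_eq_sum_of_fintype, Finset.sum_apply]
  simp

/-- The central scalar of an irreducible character has absolute value `1`. -/
theorem central_scalar [Finite G] (ψ : IrrCharacter G) (z : G) (hz : z ∈ Subgroup.center G) :
    ∃ c : ℂ, (∀ g : G, ψ.1 (z * g) = c * ψ.1 g) ∧ c * conj c = 1 := by
  obtain ⟨c, h1, h2, -⟩ := Cfsg.Agent.H82.irr_central_scalar ψ z
    (fun g => (Subgroup.mem_center_iff.mp hz g))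
  refine ⟨c, h1, ?_⟩
  have h3 : c ^ orderOf z = 1 := h2 _ (pow_orderOf_eq_one z)
  have h4 : ‖c‖ = 1 := by
    have h5 : ‖c‖ ^ orderOf z = 1 := by rw [← norm_pow, h3, norm_one]
    exact (pow_eq_one_iff_of_nonneg (norm_nonneg c) (orderOf_pos z).ne').mp h5
  rw [Complex.mul_conj, Complex.normSq_eq_norm_sq, h4]
  simp

theorem irr_one_ne_zero (ψ : IrrCharacter G) : ψ.1 1 ≠ 0 := by
  rw [Cfsg.Agent.H82.irr_one_eq_charDegree ψ]
  have := Cfsg.Agent.H82.charDegree_pos ψ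
  exact_mod_cast this.ne'

/-- For `ψ₂` over the central character of `ψ₁`, the product `ψ₁ · conj ψ₂` is constant on the
cosets of the centre. -/
theorem mul_conj_central [Finite G] (ψ₁ ψ₂ : IrrCharacter G) (h : ψ₂ ∈ Ov ψ₁.1) (z : G)
    (hz : z ∈ Subgroup.center G) (g : G) :
    ψ₁.1 (z * g) * conj (ψ₂.1 (z * g)) = ψ₁.1 g * conj (ψ₂.1 g) := by
  obtain ⟨c₁, h1, hc₁⟩ := central_scalar ψ₁ z hz
  obtain ⟨c₂, h2, -⟩ := central_scalar ψ₂ z hz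
  have h3 := h z hz
  have e1 := h1 1
  have e2 := h2 1
  rw [mul_one] at e1 e2
  rw [e1, e2] at h3
  have h4 : c₂ = c₁ := by
    have h5 : (c₂ - c₁) * (ψ₂.1 1 * ψ₁.1 1) = 0 := by linear_combination h3
    rcases mul_eq_zero.mp h5 with h6 | h6
    · exact sub_eq_zero.mp h6
    · exact absurd h6 (mul_ne_zero (irr_one_ne_zero ψ₂) (irr_one_ne_zero ψ₁))
  rw [h1 g, h2 g, h4, map_mul]
  linear_combination (ψ₁.1 g * conj (ψ₂.1 g)) * hc₁

theorem self_mem_ov (ψ : IrrCharacter G) : ψ ∈ Ov ψ.1 := fun _ _ => rfl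

/-- The multiplicity of the trivial character in `χ · conj χ` is `1`. -/
theorem mult_triv [Finite G] (χ : G → ℂ) (hχ : IsIrrCharacter G χ) (m : IrrCharacter G → ℕ)
    (hΞ : (fun g => χ g * conj (χ g)) = ∑ᶠ ψ : IrrCharacter G, (m ψ : ℂ) • ψ.1)
    (t : IrrCharacter G) (ht : t.1 = 1) : m t = 1 := by
  letI := Fintype.ofFinite G
  have h1 := Cfsg.Agent.H4.classInner_finsum_irr (fun ψ => (m ψ : ℂ)) t
  rw [← hΞ] at h1
  have h2 := Cfsg.Agent.H4.irr_inner_self (⟨χ, hχ⟩ : IrrCharacter G)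
  have h3 : classInner (fun g => χ g * conj (χ g)) t.1 = classInner χ χ := by
    unfold classInner
    rw [ht]
    simp
  rw [h3, h2] at h1
  exact_mod_cast h1.symm

section loc

variable {p : ℕ} {P : Subgroup G} {χ : G → ℂ} {x₁ x₂ : G}

theorem loc_two_le (L : Loc p P χ x₁ x₂) : 2 ≤ charDegree χ := by
  have h1 := L.deg
  have h2 := L.five
  omega

theorem loc_p_cast (L : Loc p P χ x₁ x₂) : (p : ℂ) = 2 * (charDegree χ : ℂ) + 1 := by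
  rw [← L.deg]
  push_cast
  ring

theorem loc_ne (L : Loc p P χ x₁ x₂) : χ x₁ ≠ χ x₂ := by
  intro h
  have hs := L.sum
  have hq := L.sq
  rw [← h] at hs hq
  have h1 : χ x₁ = -1 / 2 := by linear_combination (1 / 2 : ℂ) * hs
  rw [h1] at hq
  have h2 : conj (-1 / 2 : ℂ) = -1 / 2 := by
    rw [map_div₀, map_neg, map_one]
    congr 1
    exact Complex.conj_ofNat 2
  rw [h2] at hq
  have h3 : ((2 * charDegree χ + 1 : ℕ) : ℂ) = 0 := by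
    push_cast
    linear_combination (-2 : ℂ) * hq
  have h4 : 2 * charDegree χ + 1 = 0 := by exact_mod_cast h3
  omega

theorem loc_real [Finite G] (L : Loc p P χ x₁ x₂) (h1 : p % 4 = 1) :
    conj (χ x₁) = χ x₁ ∧ conj (χ x₂) = χ x₂ := by
  obtain ⟨c1, c2⟩ := L.grp.par1 h1
  constructor
  · rw [← Cfsg.Agent.H82.irr_inv (⟨χ, L.irr⟩ : IrrCharacter G) x₁]
    exact Cfsg.Agent.H82.irr_isConj (⟨χ, L.irr⟩ : IrrCharacter G) c1
  · rw [← Cfsg.Agent.H82.irr_inv (⟨χ, L.irr⟩ : IrrCharacter G) x₂]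
    exact Cfsg.Agent.H82.irr_isConj (⟨χ, L.irr⟩ : IrrCharacter G) c2

theorem loc_prod [Finite G] (L : Loc p P χ x₁ x₂) (h1 : p % 4 = 1) :
    χ x₁ * χ x₂ = -((charDegree χ : ℂ) / 2) := by
  obtain ⟨hr1, hr2⟩ := loc_real L h1
  have hs := L.sum
  have hq := L.sq
  rw [hr1, hr2] at hq
  linear_combination (1 / 2 : ℂ) * (χ x₁ + χ x₂ - 1) * hs - (1 / 2 : ℂ) * hq

theorem loc_one (L : Loc p P χ x₁ x₂) : χ 1 = (charDegree χ : ℂ) :=
  Cfsg.Agent.H82.irr_one_eq_charDegree (⟨χ, L.irr⟩ : IrrCharacter G)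

/-- A member of `Ov χ₀` whose values at `x₁, x₂` add up to `±1` is one of the two exceptional
characters of `StPair`, and the sum is `-ε`. -/
theorem pair_sum (L : Loc p P χ x₁ x₂) {χ₀ : G → ℂ} {ε : ℂ} {θ θ' : IrrCharacter G}
    (v1 : θ.1 x₁ = ε * χ x₁) (v2 : θ.1 x₂ = ε * χ x₂) (v1' : θ'.1 x₁ = ε * χ x₂)
    (v2' : θ'.1 x₂ = ε * χ x₁)
    (hrest : ∀ ψ ∈ Ov χ₀, ψ ≠ θ → ψ ≠ θ' →
      (ψ.1 x₁ = 0 ∧ ψ.1 x₂ = 0) ∨ (ψ.1 x₁ = 1 ∧ ψ.1 x₂ = 1) ∨ (ψ.1 x₁ = -1 ∧ ψ.1 x₂ = -1))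
    (ψ : IrrCharacter G) (hψ : ψ ∈ Ov χ₀)
    (hs : ψ.1 x₁ + ψ.1 x₂ = 1 ∨ ψ.1 x₁ + ψ.1 x₂ = -1) :
    (ψ = θ ∨ ψ = θ') ∧ ψ.1 x₁ + ψ.1 x₂ = -ε := by
  have hm : ψ = θ ∨ ψ = θ' := by
    by_contra hcon
    push Not at hcon
    rcases hrest ψ hψ hcon.1 hcon.2 with ⟨a, b⟩ | ⟨a, b⟩ | ⟨a, b⟩ <;> rw [a, b] at hs <;>
      norm_num at hs
  refine ⟨hm, ?_⟩
  have hsum := L.sum
  rcases hm with h | h
  · rw [h, v1, v2]; linear_combination ε * hsum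
  · rw [h, v1', v2']; linear_combination ε * hsum

/-- The decomposition of `χ · conj χ`. -/
theorem chi_bar_decomp [Finite G] [Fact p.Prime] (hL : StDecL.{u}) (hZ : StCentConst.{u})
    (L : Loc p P χ x₁ x₂) :
    ∃ m : IrrCharacter G → ℕ,
      (fun g => χ g * conj (χ g)) = ∑ᶠ ψ : IrrCharacter G, (m ψ : ℂ) • ψ.1 ∧
      (∀ ψ : IrrCharacter G, ψ.1 = 1 → m ψ = 1) ∧
      (∀ ψ : IrrCharacter G, m ψ ≠ 0 → ψ ∈ Ov (1 : G → ℂ)) ∧
      ∀ ψ : IrrCharacter G, m ψ ≠ 0 → ψ.1 ≠ 1 →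
        (ψ.1 x₁ = 1 ∧ ψ.1 x₂ = 1 ∧ charDegree ψ.1 = p + 1) ∨
        (((ψ.1 x₁ = -χ x₁ ∧ ψ.1 x₂ = -χ x₂) ∨ (ψ.1 x₁ = -χ x₂ ∧ ψ.1 x₂ = -χ x₁)) ∧
          charDegree ψ.1 = charDegree χ + 1) := by
  have hχc : IsCharacter G χ := Cfsg.Agent.H4.isCharacter_of_isIrrCharacter L.irr
  have hΞc : IsCharacter G (fun g => χ g * conj (χ g)) :=
    Cfsg.Agent.H4.isCharacter_mul hχc (Cfsg.Agent.H4.isCharacter_conj hχc)
  obtain ⟨m, hm⟩ := Cfsg.Agent.H4.isCharacter_iff.mp hΞc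
  have hmt : ∀ ψ : IrrCharacter G, ψ.1 = 1 → m ψ = 1 :=
    fun ψ hψ => mult_triv χ L.irr m hm ψ hψ
  have hov : ∀ ψ : IrrCharacter G, m ψ ≠ 0 → ψ ∈ Ov (1 : G → ℂ) := by
    intro ψ hψ
    refine hZ (trivIrr G) m _ hm ?_ ψ hψ
    intro z hz g
    have h1 := mul_conj_central (⟨χ, L.irr⟩ : IrrCharacter G) ⟨χ, L.irr⟩ (self_mem_ov _) z hz g
    show χ (z * g) * conj (χ (z * g)) * (1 : ℂ) = (1 : ℂ) * (χ g * conj (χ g))
    rw [mul_one, one_mul]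
    exact h1
  have hLf : ((charDegree χ : ℂ) + 1) *
      ((fun g => χ g * conj (χ g)) x₁ + (fun g => χ g * conj (χ g)) x₂) -
        (fun g => χ g * conj (χ g)) 1 = (p : ℂ) * (m (trivIrr G) : ℂ) := by
    rw [hmt (trivIrr G) rfl]
    show ((charDegree χ : ℂ) + 1) * (χ x₁ * conj (χ x₁) + χ x₂ * conj (χ x₂)) -
      χ 1 * conj (χ 1) = (p : ℂ) * ((1 : ℕ) : ℂ)
    rw [loc_one L, Complex.conj_natCast, L.sq, loc_p_cast L]
    push_cast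
    ring
  have hdec := hL p P χ x₁ x₂ L m _ hm (trivIrr G) rfl hLf
  refine ⟨m, hm, hmt, hov, ?_⟩
  intro ψ hψ hψ1
  exact hdec ψ hψ (fun h => hψ1 (by rw [h]; rfl))

end loc

end Cfsg.Agent.H28.Br
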