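import Mathlib
import Cfsg.Agent.H79.BrDefs
import Cfsg.Agent.H28.BrBase

set_option autoImplicit false

/-!
# S4504 (helper79's Brauer project): shared tools for PRODWA / PRODWB (helper28).
-/

namespace Cfsg.Agent.H28.Br

open Cfsg Cfsg.Agent.H79.Br
open scoped ComplexConjugate

universe u

variable {G : Type u} [Group G]

/-- For `θ` trivial on the centre, `ψ · θ` has the central character of `ψ`. -/
theorem mul_central_ov_one [Finite G] (ψ θ : IrrCharacter G) (hθ : θ ∈ Ov (1 : G → ℂ)) (z : G)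
    (hz : z ∈ Subgroup.center G) (g : G) :
    ψ.1 (z * g) * θ.1 (z * g) * ψ.1 1 = ψ.1 z * (ψ.1 g * θ.1 g) := by
  obtain ⟨c, h1, -⟩ := central_scalar ψ z hz
  obtain ⟨c₃, h3, -⟩ := central_scalar θ z hz
  have h4 : θ.1 z * (1 : ℂ) = (1 : ℂ) * θ.1 1 := hθ z hz
  have e1 := h1 1
  have e3 := h3 1
  rw [mul_one] at e1 e3
  rw [e3, mul_one, one_mul] at h4
  have h5 : c₃ = 1 := by
    have h6 : (c₃ - 1) * θ.1 1 = 0 := by linear_combination h4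
    rcases mul_eq_zero.mp h6 with h7 | h7
    · exact sub_eq_zero.mp h7
    · exact absurd h7 (irr_one_ne_zero θ)
  rw [h1 g, h3 g, h5, e1]
  ring

section loc

variable {p : ℕ} {P : Subgroup G} {χ : G → ℂ} {x₁ x₂ : G}

/-- In `Ov χ` the only characters whose values at `x₁, x₂` add up to `±1` are `χ` and `χ'`
(and the sum is `-1`). -/
theorem ov_chi_exc [Finite G] [Fact p.Prime] (hP : StPair.{u}) (L : Loc p P χ x₁ x₂)
    (χ' : IrrCharacter G) (hov' : χ' ∈ Ov χ) (hv1 : χ'.1 x₁ = χ x₂) (hv2 : χ'.1 x₂ = χ x₁)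
    (ψ : IrrCharacter G) (hψ : ψ ∈ Ov χ)
    (hs : ψ.1 x₁ + ψ.1 x₂ = 1 ∨ ψ.1 x₁ + ψ.1 x₂ = -1) :
    (ψ = ⟨χ, L.irr⟩ ∨ ψ = χ') ∧ ψ.1 x₁ + ψ.1 x₂ = -1 := by
  have hne : χ x₁ ≠ χ x₂ := loc_ne L
  obtain ⟨ε, θ, θ', -, -, -, v1, v2, v1', v2', -, -, hrest, -⟩ :=
    hP p P χ x₁ x₂ L ⟨χ, L.irr⟩
  obtain ⟨hχm, eχ⟩ := pair_sum L v1 v2 v1' v2' hrest (⟨χ, L.irr⟩ : IrrCharacter G)
    (self_mem_ov _) (Or.inr L.sum)
  have hε1 : ε = 1 := by linear_combination eχ - L.sum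
  have hs' : χ'.1 x₁ + χ'.1 x₂ = -1 := by rw [hv1, hv2]; linear_combination L.sum
  obtain ⟨hχ'm, -⟩ := pair_sum L v1 v2 v1' v2' hrest χ' hov' (Or.inr hs')
  have hneχ : (⟨χ, L.irr⟩ : IrrCharacter G) ≠ χ' := by
    intro h
    rw [← h] at hv1
    exact hne hv1
  obtain ⟨hm, e⟩ := pair_sum L v1 v2 v1' v2' hrest ψ hψ hs
  refine ⟨?_, by rw [e, hε1]⟩
  rcases hm with h | h <;> rcases hχm with h3 | h3 <;> rcases hχ'm with h4 | h4 <;>
    first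
      | exact Or.inl (h.trans h3.symm)
      | exact Or.inr (h.trans h4.symm)
      | exact absurd (h3.trans h4.symm) hneχ

end loc

end Cfsg.Agent.H28.Br
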