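import Mathlib
import Cfsg.Agent.H79.BrDefs
import Cfsg.Agent.H28.BrBase

set_option autoImplicit false

/-!
# S4504-EXC1 (helper28, for helper79): the exceptional characters `θ₃, θ₄` of the principal
block and the partner `χ'` of `χ` (`p ≡ 1 mod 4`).
-/

namespace Cfsg.Agent.H28.Br

open Cfsg Cfsg.Agent.H79.Br
open scoped ComplexConjugate

universe u

theorem exc1 (hP : StPair.{u}) (hL : StDecL.{u}) (hZ : StCentConst.{u}) : StExc1.{u} := by
  intro G _ _ p _ P χ x₁ x₂ L h1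
  classical
  let _ := Cfsg.Agent.H4.fintypeIrr G
  obtain ⟨hr1, hr2⟩ := loc_real L h1
  have hne : χ x₁ ≠ χ x₂ := loc_ne L
  -- the partner `χ'` of `χ`
  obtain ⟨ε, θ, θ', -, -, hθ', v1, v2, v1', v2', hdeg, hagree, hrest, -⟩ :=
    hP p P χ x₁ x₂ L ⟨χ, L.irr⟩
  obtain ⟨hχm, eχ⟩ := pair_sum L v1 v2 v1' v2' hrest (⟨χ, L.irr⟩ : IrrCharacter G)
    (self_mem_ov _) (Or.inr L.sum)
  have hε1 : ε = 1 := by linear_combination eχ - L.sum
  rw [hε1, one_mul] at v1 v2 v1' v2'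
  have hχθ : (⟨χ, L.irr⟩ : IrrCharacter G) = θ := by
    rcases hχm with h | h
    · exact h
    · exfalso
      rw [← h] at v1'
      exact hne v1'
  have hdegχ' : charDegree θ'.1 = charDegree χ := by rw [← hdeg, ← hχθ]
  have hagχ' : ∀ y : G, ¬ p ∣ orderOf y → θ'.1 y = χ y := fun y hy => by
    rw [← hagree y hy, ← hχθ]
  -- the exceptional characters over the trivial central character
  obtain ⟨m, hm, hmt, hov, hdec⟩ := chi_bar_decomp hL hZ L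
  obtain ⟨ε₀, ϑ, ϑ', -, hϑ, hϑ', w1, w2, w1', w2', hdeg₀, hagree₀, hrest₀, -⟩ :=
    hP p P χ x₁ x₂ L (trivIrr G)
  -- a constituent of exceptional type
  have hex : ∃ ψ : IrrCharacter G, m ψ ≠ 0 ∧ ψ.1 ≠ 1 ∧
      ((ψ.1 x₁ = -χ x₁ ∧ ψ.1 x₂ = -χ x₂) ∨ (ψ.1 x₁ = -χ x₂ ∧ ψ.1 x₂ = -χ x₁)) ∧
      charDegree ψ.1 = charDegree χ + 1 := by
    by_contra hcon
    push Not at hcon
    have e1 : χ x₁ * conj (χ x₁) = ∑ ψ : IrrCharacter G, (m ψ : ℂ) * ψ.1 x₁ :=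
      decomp_apply m _ hm x₁
    have e2 : χ x₂ * conj (χ x₂) = ∑ ψ : IrrCharacter G, (m ψ : ℂ) * ψ.1 x₂ :=
      decomp_apply m _ hm x₂
    have e3 : ∑ ψ : IrrCharacter G, (m ψ : ℂ) * ψ.1 x₁ =
        ∑ ψ : IrrCharacter G, (m ψ : ℂ) * ψ.1 x₂ := by
      apply Finset.sum_congr rfl
      intro ψ _
      by_cases hmψ : m ψ = 0
      · rw [hmψ]; simp
      · by_cases hψ1 : ψ.1 = 1
        · rw [hψ1]; simp
        · rcases hdec ψ hmψ hψ1 with ⟨a, b, -⟩ | ⟨hab, c⟩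
          · rw [a, b]
          · exact absurd c (hcon ψ hmψ hψ1 hab)
    rw [← e1, ← e2, hr1, hr2] at e3
    have h6 : (χ x₁ - χ x₂) * (χ x₁ + χ x₂) = 0 := by linear_combination e3
    rcases mul_eq_zero.mp h6 with h7 | h7
    · exact hne (sub_eq_zero.mp h7)
    · rw [L.sum] at h7
      norm_num at h7
  obtain ⟨ψ₀, hm₀, -, hab₀, hdeg₁⟩ := hex
  have hs₀ : ψ₀.1 x₁ + ψ₀.1 x₂ = 1 := by
    rcases hab₀ with ⟨a, b⟩ | ⟨a, b⟩ <;> rw [a, b] <;> linear_combination -L.sum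
  obtain ⟨hψ₀m, e₀⟩ := pair_sum L w1 w2 w1' w2' hrest₀ ψ₀ (hov ψ₀ hm₀) (Or.inl hs₀)
  have hε₀ : ε₀ = -1 := by linear_combination e₀ - hs₀
  rw [hε₀] at w1 w2 w1' w2'
  have hdϑ : charDegree ϑ.1 = charDegree χ + 1 := by
    rcases hψ₀m with h | h
    · rw [← h]; exact hdeg₁
    · rw [hdeg₀, ← h]; exact hdeg₁
  -- `ϑ` is real
  have hreal : ∀ g : G, conj (ϑ.1 g) = ϑ.1 g := by
    have hc : IsIrrCharacter G (fun g => conj (ϑ.1 g)) := Cfsg.Agent.H4.isIrrCharacter_conj ϑ.2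
    have hcov : (⟨fun g => conj (ϑ.1 g), hc⟩ : IrrCharacter G) ∈ Ov (trivIrr G).1 := by
      intro z hz
      have h2 := hϑ z hz
      show conj (ϑ.1 z) * (1 : ℂ) = (1 : ℂ) * conj (ϑ.1 1)
      have h3 : ϑ.1 z * (1 : ℂ) = (1 : ℂ) * ϑ.1 1 := h2
      rw [mul_one, one_mul] at h3 ⊢
      rw [h3]
    have hcs : (⟨fun g => conj (ϑ.1 g), hc⟩ : IrrCharacter G).1 x₁ +
        (⟨fun g => conj (ϑ.1 g), hc⟩ : IrrCharacter G).1 x₂ = 1 := by
      show conj (ϑ.1 x₁) + conj (ϑ.1 x₂) = 1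
      rw [w1, w2]
      simp only [map_mul, map_neg, map_one, hr1, hr2]
      linear_combination -L.sum
    obtain ⟨hcm, -⟩ := pair_sum L w1 w2 w1' w2' hrest₀ _ hcov (Or.inl hcs)
    have hcϑ : (⟨fun g => conj (ϑ.1 g), hc⟩ : IrrCharacter G) = ϑ := by
      rcases hcm with h | h
      · exact h
      · exfalso
        have h4 := congrFun (congrArg Subtype.val h) x₁
        have h5 : conj (ϑ.1 x₁) = ϑ'.1 x₁ := h4
        rw [w1, w1'] at h5
        simp only [map_mul, map_neg, map_one, hr1] at h5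
        apply hne
        linear_combination -h5
    intro g
    exact congrFun (congrArg Subtype.val hcϑ) g
  refine ⟨ϑ, ϑ', θ', ?_⟩
  exact
    { ov₃ := hϑ
      ov₄ := hϑ'
      v₃₁ := by rw [w1]; ring
      v₃₂ := by rw [w2]; ring
      v₄₁ := by rw [w1']; ring
      v₄₂ := by rw [w2']; ring
      deg₃ := hdϑ
      deg₄ := by rw [← hdeg₀]; exact hdϑ
      agree := hagree₀
      real := hreal
      ov' := hθ'
      v'₁ := v1'
      v'₂ := v2'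
      deg' := hdegχ'
      agree' := hagχ' }

example (hP : StPair.{u}) (hL : StDecL.{u}) (hZ : StCentConst.{u}) : StExc1.{u} :=
  exc1 hP hL hZ

end Cfsg.Agent.H28.Br
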