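import Mathlib
import Cfsg.Agent.H79.BrDefs
import Cfsg.Agent.H28.BrBase

set_option autoImplicit false

/-!
# S4504-PROD1A (helper28, for helper79): the constituents of `χ · conj χ` (`p ≡ 1 mod 4`).
-/

namespace Cfsg.Agent.H28.Br

open Cfsg Cfsg.Agent.H79.Br
open scoped ComplexConjugate

universe u

theorem prod1a (hL : StDecL.{u}) (hP : StPair.{u}) (hZ : StCentConst.{u}) : StProd1a.{u} := by
  intro G _ _ p _ P χ x₁ x₂ L h1 θ₃ θ₄ χ' E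
  classical
  let _ := Cfsg.Agent.H4.fintypeIrr G
  obtain ⟨hr1, hr2⟩ := loc_real L h1
  have hne : χ x₁ ≠ χ x₂ := loc_ne L
  obtain ⟨m, hm, hmt, hov, hdec⟩ := chi_bar_decomp hL hZ L
  obtain ⟨ε, θ, θ', -, -, -, v1, v2, v1', v2', -, -, hrest, -⟩ :=
    hP p P χ x₁ x₂ L (trivIrr G)
  have h3s : θ₃.1 x₁ + θ₃.1 x₂ = 1 := by
    rw [E.v₃₁, E.v₃₂]; linear_combination -L.sum
  have h4s : θ₄.1 x₁ + θ₄.1 x₂ = 1 := by
    rw [E.v₄₁, E.v₄₂]; linear_combination -L.sum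
  obtain ⟨h3m, -⟩ := pair_sum L v1 v2 v1' v2' hrest θ₃ E.ov₃ (Or.inl h3s)
  obtain ⟨h4m, -⟩ := pair_sum L v1 v2 v1' v2' hrest θ₄ E.ov₄ (Or.inl h4s)
  have hne34 : θ₃ ≠ θ₄ := by
    intro h
    have h5 := E.v₃₁
    rw [h, E.v₄₁] at h5
    exact hne (neg_injective h5).symm
  have hexc : ∀ ψ : IrrCharacter G, ψ ∈ Ov (1 : G → ℂ) → ψ.1 x₁ + ψ.1 x₂ = 1 →
      ψ = θ₃ ∨ ψ = θ₄ := by
    intro ψ hψ hs
    obtain ⟨hm', -⟩ := pair_sum L v1 v2 v1' v2' hrest ψ hψ (Or.inl hs)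
    rcases hm' with h | h <;> rcases h3m with h3 | h3 <;> rcases h4m with h4 | h4 <;>
      first
        | exact Or.inl (h.trans h3.symm)
        | exact Or.inr (h.trans h4.symm)
        | exact absurd (h3.trans h4.symm) hne34
  have hcl : ∀ ψ : IrrCharacter G, m ψ ≠ 0 → ψ.1 ≠ 1 → ψ ≠ θ₃ → ψ ≠ θ₄ →
      ψ ∈ Tp x₁ x₂ (1 : G → ℂ) ∧ charDegree ψ.1 = p + 1 := by
    intro ψ hψ hψ1 hψ3 hψ4
    rcases hdec ψ hψ hψ1 with ⟨a, b, c⟩ | ⟨hab, -⟩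
    · exact ⟨⟨hov ψ hψ, a, b, hψ1⟩, c⟩
    · exfalso
      have hs : ψ.1 x₁ + ψ.1 x₂ = 1 := by
        rcases hab with ⟨a, b⟩ | ⟨a, b⟩ <;> rw [a, b] <;> linear_combination -L.sum
      rcases hexc ψ (hov ψ hψ) hs with h | h
      · exact hψ3 h
      · exact hψ4 h
  refine ⟨m, hm, hmt, ?_, hcl⟩
  -- the values at `x₁` and `x₂`
  have e1 := decomp_apply m _ hm x₁
  have e2 := decomp_apply m _ hm x₂
  have hdiff : χ x₁ * conj (χ x₁) - χ x₂ * conj (χ x₂) =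
      ∑ ψ : IrrCharacter G, (m ψ : ℂ) * (ψ.1 x₁ - ψ.1 x₂) := by
    have e1' : χ x₁ * conj (χ x₁) = ∑ ψ : IrrCharacter G, (m ψ : ℂ) * ψ.1 x₁ := e1
    have e2' : χ x₂ * conj (χ x₂) = ∑ ψ : IrrCharacter G, (m ψ : ℂ) * ψ.1 x₂ := e2
    rw [e1', e2', ← Finset.sum_sub_distrib]
    exact Finset.sum_congr rfl (fun ψ _ => by ring)
  rw [Finset.sum_eq_add θ₃ θ₄ hne34] at hdiff
  · rw [hr1, hr2, E.v₃₁, E.v₃₂, E.v₄₁, E.v₄₂] at hdiff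
    have h6 : ((m θ₃ : ℂ) - (m θ₄ : ℂ) - 1) * (χ x₁ - χ x₂) = 0 := by
      linear_combination hdiff - (χ x₁ - χ x₂) * L.sum
    rcases mul_eq_zero.mp h6 with h7 | h7
    · have h8 : (m θ₃ : ℂ) = ((m θ₄ + 1 : ℕ) : ℂ) := by
        push_cast
        linear_combination h7
      exact_mod_cast h8
    · exact absurd (sub_eq_zero.mp h7) hne
  · intro ψ _ hψ
    by_cases hmψ : m ψ = 0
    · rw [hmψ]; simp
    · by_cases hψ1 : ψ.1 = 1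
      · rw [hψ1]; simp
      · obtain ⟨⟨-, a, b, -⟩, -⟩ := hcl ψ hmψ hψ1 hψ.1 hψ.2
        rw [a, b]; simp
  · intro h; exact absurd (Finset.mem_univ _) h
  · intro h; exact absurd (Finset.mem_univ _) h

example (hL : StDecL.{u}) (hP : StPair.{u}) (hZ : StCentConst.{u}) : StProd1a.{u} :=
  prod1a hL hP hZ

end Cfsg.Agent.H28.Br
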