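import Mathlib
import Cfsg.Agent.H79.BrDefs
import Cfsg.Agent.H28.BrBase

set_option autoImplicit false

/-!
# S4504-PROD1B (helper28, for helper79): the constituents of `χ · conj χ'` (`p ≡ 1 mod 4`)
lie in `Tm x₁ x₂ 1` and have degree `p - 1`.
-/

namespace Cfsg.Agent.H28.Br

open Cfsg Cfsg.Agent.H79.Br
open scoped ComplexConjugate

universe u

theorem prod1b (hC : StDecC.{u}) (hP : StPair.{u}) (hZ : StCentConst.{u}) : StProd1b.{u} := by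
  intro G _ _ p _ P χ x₁ x₂ L h1 θ₃ θ₄ χ' E
  classical
  obtain ⟨hr1, hr2⟩ := loc_real L h1
  have hχc : IsCharacter G χ := Cfsg.Agent.H4.isCharacter_of_isIrrCharacter L.irr
  have hχ'c : IsCharacter G χ'.1 := Cfsg.Agent.H4.isCharacter_of_isIrrCharacter χ'.2
  have hΞc : IsCharacter G (fun g => χ g * conj (χ'.1 g)) :=
    Cfsg.Agent.H4.isCharacter_mul hχc (Cfsg.Agent.H4.isCharacter_conj hχ'c)
  obtain ⟨m, hm⟩ := Cfsg.Agent.H4.isCharacter_iff.mp hΞc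
  refine ⟨m, hm, ?_⟩
  intro ψ hψ
  have hχ1 : χ 1 = (charDegree χ : ℂ) := loc_one L
  have hχ'1 : χ'.1 1 = (charDegree χ : ℂ) := by
    rw [Cfsg.Agent.H82.irr_one_eq_charDegree χ', E.deg']
  have hprod := loc_prod L h1
  have hc0 : (fun g => χ g * conj (χ'.1 g)) 1 +
      (charDegree χ : ℂ) * (fun g => χ g * conj (χ'.1 g)) x₁ +
      (charDegree χ : ℂ) * (fun g => χ g * conj (χ'.1 g)) x₂ = 0 := by
    show χ 1 * conj (χ'.1 1) + (charDegree χ : ℂ) * (χ x₁ * conj (χ'.1 x₁)) +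
      (charDegree χ : ℂ) * (χ x₂ * conj (χ'.1 x₂)) = 0
    rw [hχ1, hχ'1, E.v'₁, E.v'₂, hr1, hr2, Complex.conj_natCast]
    linear_combination (2 * (charDegree χ : ℂ)) * hprod
  have hov : ψ ∈ Ov (1 : G → ℂ) := by
    refine hZ (trivIrr G) m _ hm ?_ ψ hψ
    intro z hz g
    have h2 := mul_conj_central (⟨χ, L.irr⟩ : IrrCharacter G) χ' E.ov' z hz g
    show χ (z * g) * conj (χ'.1 (z * g)) * (1 : ℂ) = (1 : ℂ) * (χ g * conj (χ'.1 g))
    rw [mul_one, one_mul]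
    exact h2
  rcases hC p P χ x₁ x₂ L m _ hm hc0 ψ hψ with ⟨a, b, c⟩ | ⟨hab, -⟩
  · exact ⟨⟨hov, a, b⟩, c⟩
  · exfalso
    have hs : ψ.1 x₁ + ψ.1 x₂ = -1 := by
      rcases hab with ⟨a, b⟩ | ⟨a, b⟩ <;> rw [a, b] <;> linear_combination L.sum
    have h3 : θ₃.1 x₁ + θ₃.1 x₂ = 1 := by
      rw [E.v₃₁, E.v₃₂]; linear_combination -L.sum
    obtain ⟨ε, θ, θ', -, -, -, v1, v2, v1', v2', -, -, hrest, -⟩ :=
      hP p P χ x₁ x₂ L (trivIrr G)
    obtain ⟨-, e1⟩ := pair_sum L v1 v2 v1' v2' hrest ψ hov (Or.inr hs)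
    obtain ⟨-, e2⟩ := pair_sum L v1 v2 v1' v2' hrest θ₃ E.ov₃ (Or.inl h3)
    have h4 : (1 : ℂ) = -1 := by linear_combination -h3 + e2 - e1 + hs
    norm_num at h4

example (hC : StDecC.{u}) (hP : StPair.{u}) (hZ : StCentConst.{u}) : StProd1b.{u} :=
  prod1b hC hP hZ

end Cfsg.Agent.H28.Br
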