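import Mathlib
import Cfsg.Agent.H79.BrDefs
import Cfsg.Agent.H28.BrBaseW

set_option autoImplicit false

/-!
# S4504-PRODWA (helper28, for helper79): the constituents of `χ · θ₃` (`p ≡ 1 mod 4`).
-/

namespace Cfsg.Agent.H28.Br

open Cfsg Cfsg.Agent.H79.Br
open scoped ComplexConjugate

universe u

theorem prodWa (hC : StDecC.{u}) (hP : StPair.{u}) (hZ : StCentConst.{u}) : StProdWa.{u} := by
  intro G _ _ p _ P χ x₁ x₂ L h1 θ₃ θ₄ χ' E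
  classical
  let _ := Cfsg.Agent.H4.fintypeIrr G
  obtain ⟨hr1, hr2⟩ := loc_real L h1
  have hne : χ x₁ ≠ χ x₂ := loc_ne L
  have hχc : IsCharacter G χ := Cfsg.Agent.H4.isCharacter_of_isIrrCharacter L.irr
  have hθc : IsCharacter G θ₃.1 := Cfsg.Agent.H4.isCharacter_of_isIrrCharacter θ₃.2
  have hΞc : IsCharacter G (fun g => χ g * θ₃.1 g) := Cfsg.Agent.H4.isCharacter_mul hχc hθc
  obtain ⟨m, hm⟩ := Cfsg.Agent.H4.isCharacter_iff.mp hΞc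
  have hχ1 : χ 1 = (charDegree χ : ℂ) := loc_one L
  have hθ1 : θ₃.1 1 = (charDegree χ : ℂ) + 1 := by
    rw [Cfsg.Agent.H82.irr_one_eq_charDegree θ₃, E.deg₃]
    push_cast
    ring
  have hq := L.sq
  rw [hr1, hr2] at hq
  have hc0 : (fun g => χ g * θ₃.1 g) 1 + (charDegree χ : ℂ) * (fun g => χ g * θ₃.1 g) x₁ +
      (charDegree χ : ℂ) * (fun g => χ g * θ₃.1 g) x₂ = 0 := by
    show χ 1 * θ₃.1 1 + (charDegree χ : ℂ) * (χ x₁ * θ₃.1 x₁) +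
      (charDegree χ : ℂ) * (χ x₂ * θ₃.1 x₂) = 0
    rw [hχ1, hθ1, E.v₃₁, E.v₃₂]
    linear_combination (-(charDegree χ : ℂ)) * hq
  have hov : ∀ ψ : IrrCharacter G, m ψ ≠ 0 → ψ ∈ Ov χ := by
    intro ψ hψ
    refine hZ (⟨χ, L.irr⟩ : IrrCharacter G) m _ hm ?_ ψ hψ
    intro z hz g
    exact mul_central_ov_one (⟨χ, L.irr⟩ : IrrCharacter G) θ₃ E.ov₃ z hz g
  have hcl : ∀ ψ : IrrCharacter G, m ψ ≠ 0 → ψ.1 ≠ χ → ψ ≠ χ' →
      ψ ∈ Tm x₁ x₂ χ ∧ charDegree ψ.1 + 1 = p := by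
    intro ψ hψ hψχ hψχ'
    rcases hC p P χ x₁ x₂ L m _ hm hc0 ψ hψ with ⟨a, b, c⟩ | ⟨hab, -⟩
    · exact ⟨⟨hov ψ hψ, a, b⟩, c⟩
    · exfalso
      have hs : ψ.1 x₁ + ψ.1 x₂ = -1 := by
        rcases hab with ⟨a, b⟩ | ⟨a, b⟩ <;> rw [a, b] <;> linear_combination L.sum
      obtain ⟨hmem, -⟩ := ov_chi_exc hP L χ' E.ov' E.v'₁ E.v'₂ ψ (hov ψ hψ) (Or.inr hs)
      rcases hmem with h | h
      · exact hψχ (by rw [h])
      · exact hψχ' h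
  refine ⟨m, hm, ?_, hcl⟩
  intro χI hχI
  have hχIeq : χI = (⟨χ, L.irr⟩ : IrrCharacter G) := Subtype.ext hχI
  rw [hχIeq]
  have hneχ : (⟨χ, L.irr⟩ : IrrCharacter G) ≠ χ' := by
    intro h
    have h5 := E.v'₁
    rw [← h] at h5
    exact hne h5
  have e1 : χ x₁ * θ₃.1 x₁ = ∑ ψ : IrrCharacter G, (m ψ : ℂ) * ψ.1 x₁ := decomp_apply m _ hm x₁
  have e2 : χ x₂ * θ₃.1 x₂ = ∑ ψ : IrrCharacter G, (m ψ : ℂ) * ψ.1 x₂ := decomp_apply m _ hm x₂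
  have hdiff : χ x₁ * θ₃.1 x₁ - χ x₂ * θ₃.1 x₂ =
      ∑ ψ : IrrCharacter G, (m ψ : ℂ) * (ψ.1 x₁ - ψ.1 x₂) := by
    rw [e1, e2, ← Finset.sum_sub_distrib]
    exact Finset.sum_congr rfl (fun ψ _ => by ring)
  rw [Finset.sum_eq_add (⟨χ, L.irr⟩ : IrrCharacter G) χ' hneχ] at hdiff
  · rw [E.v₃₁, E.v₃₂, E.v'₁, E.v'₂] at hdiff
    have h6 : ((m (⟨χ, L.irr⟩ : IrrCharacter G) : ℂ) - (m χ' : ℂ) - 1) * (χ x₁ - χ x₂) = 0 := by
      linear_combination -hdiff - (χ x₁ - χ x₂) * L.sum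
    rcases mul_eq_zero.mp h6 with h7 | h7
    · have h8 : (m (⟨χ, L.irr⟩ : IrrCharacter G) : ℂ) = ((m χ' + 1 : ℕ) : ℂ) := by
        push_cast
        linear_combination h7
      exact_mod_cast h8
    · exact absurd (sub_eq_zero.mp h7) hne
  · intro ψ _ hψ
    by_cases hmψ : m ψ = 0
    · rw [hmψ]; simp
    · have hψχ : ψ.1 ≠ χ := fun h => hψ.1 (Subtype.ext h)
      obtain ⟨⟨-, a, b⟩, -⟩ := hcl ψ hmψ hψχ hψ.2
      rw [a, b]; simp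
  · intro h; exact absurd (Finset.mem_univ _) h
  · intro h; exact absurd (Finset.mem_univ _) h

example (hC : StDecC.{u}) (hP : StPair.{u}) (hZ : StCentConst.{u}) : StProdWa.{u} :=
  prodWa hC hP hZ

end Cfsg.Agent.H28.Br
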