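import Mathlib
import Cfsg.Agent.H79.BrDefs
import Cfsg.Agent.H28.BrBaseW

set_option autoImplicit false

/-!
# S4504-PRODWB (helper28, for helper79): the constituents of `χ · θ₄` (`p ≡ 1 mod 4`).
-/

namespace Cfsg.Agent.H28.Br

open Cfsg Cfsg.Agent.H79.Br
open scoped ComplexConjugate

universe u

theorem prodWb (hL : StDecL.{u}) (hP : StPair.{u}) (hZ : StCentConst.{u}) : StProdWb.{u} := by
  intro G _ _ p _ P χ x₁ x₂ L h1 θ₃ θ₄ χ' E
  classical
  let _ := Fintype.ofFinite G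
  obtain ⟨hr1, hr2⟩ := loc_real L h1
  have hχc : IsCharacter G χ := Cfsg.Agent.H4.isCharacter_of_isIrrCharacter L.irr
  have hθc : IsCharacter G θ₄.1 := Cfsg.Agent.H4.isCharacter_of_isIrrCharacter θ₄.2
  have hΞc : IsCharacter G (fun g => χ g * θ₄.1 g) := Cfsg.Agent.H4.isCharacter_mul hχc hθc
  obtain ⟨m, hm⟩ := Cfsg.Agent.H4.isCharacter_iff.mp hΞc
  have hχ1 : χ 1 = (charDegree χ : ℂ) := loc_one L
  have hθ1 : θ₄.1 1 = (charDegree χ : ℂ) + 1 := by
    rw [Cfsg.Agent.H82.irr_one_eq_charDegree θ₄, E.deg₄]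
    push_cast
    ring
  have hprod := loc_prod L h1
  -- the multiplicity of the trivial character is `0`
  have hmt : m (trivIrr G) = 0 := by
    have e1 := Cfsg.Agent.H4.classInner_finsum_irr (fun ψ => (m ψ : ℂ)) (trivIrr G)
    rw [← hm] at e1
    have hcc : IsIrrCharacter G (fun g => conj (χ g)) := Cfsg.Agent.H4.isIrrCharacter_conj L.irr
    have hne4 : θ₄ ≠ (⟨fun g => conj (χ g), hcc⟩ : IrrCharacter G) := by
      intro h
      have h5 := congrFun (congrArg Subtype.val h) 1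
      have h6 : θ₄.1 1 = conj (χ 1) := h5
      rw [hθ1, hχ1, Complex.conj_natCast] at h6
      have h7 : (1 : ℂ) = 0 := by linear_combination h6
      exact one_ne_zero h7
    have e2 := Cfsg.Agent.H4.irr_inner_ne hne4
    have e3 : classInner (fun g => χ g * θ₄.1 g) (trivIrr G).1 =
        classInner θ₄.1 (fun g => conj (χ g)) := by
      unfold classInner
      congr 1
      apply Finset.sum_congr rfl
      intro g _
      show χ g * θ₄.1 g * conj ((1 : G → ℂ) g) = θ₄.1 g * conj (conj (χ g))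
      rw [Pi.one_apply, map_one, Complex.conj_conj]
      ring
    rw [e3, e2] at e1
    exact_mod_cast e1.symm
  have hLf : ((charDegree χ : ℂ) + 1) *
      ((fun g => χ g * θ₄.1 g) x₁ + (fun g => χ g * θ₄.1 g) x₂) -
        (fun g => χ g * θ₄.1 g) 1 = (p : ℂ) * (m (trivIrr G) : ℂ) := by
    rw [hmt]
    show ((charDegree χ : ℂ) + 1) * (χ x₁ * θ₄.1 x₁ + χ x₂ * θ₄.1 x₂) - χ 1 * θ₄.1 1 =
      (p : ℂ) * ((0 : ℕ) : ℂ)
    rw [hχ1, hθ1, E.v₄₁, E.v₄₂]
    push_cast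
    linear_combination (-2 * ((charDegree χ : ℂ) + 1)) * hprod
  have hdec := hL p P χ x₁ x₂ L m _ hm (trivIrr G) rfl hLf
  have hov : ∀ ψ : IrrCharacter G, m ψ ≠ 0 → ψ ∈ Ov χ := by
    intro ψ hψ
    refine hZ (⟨χ, L.irr⟩ : IrrCharacter G) m _ hm ?_ ψ hψ
    intro z hz g
    exact mul_central_ov_one (⟨χ, L.irr⟩ : IrrCharacter G) θ₄ E.ov₄ z hz g
  refine ⟨m, hm, ?_⟩
  intro ψ hψ
  have hψt : ψ ≠ trivIrr G := fun h => hψ (by rw [h]; exact hmt)
  rcases hdec ψ hψ hψt with ⟨a, b, c⟩ | ⟨hab, -⟩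
  · refine ⟨⟨hov ψ hψ, a, b, ?_⟩, c⟩
    intro h
    exact hψt (Subtype.ext h)
  · exfalso
    have hs : ψ.1 x₁ + ψ.1 x₂ = 1 := by
      rcases hab with ⟨a, b⟩ | ⟨a, b⟩ <;> rw [a, b] <;> linear_combination -L.sum
    obtain ⟨-, e⟩ := ov_chi_exc hP L χ' E.ov' E.v'₁ E.v'₂ ψ (hov ψ hψ) (Or.inl hs)
    have h4 : (1 : ℂ) = -1 := by linear_combination e - hs
    norm_num at h4

example (hL : StDecL.{u}) (hP : StPair.{u}) (hZ : StCentConst.{u}) : StProdWb.{u} :=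
  prodWb hL hP hZ

end Cfsg.Agent.H28.Br
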