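import Mathlib
import Cfsg.Agent.H81.CycDefs

set_option autoImplicit false

/-!
# S1502-VEC3 (helper28, for helper81): an integer vector of norm 3 has entries in `{0, ±1}` and
exactly three nonzero coordinates.
-/

namespace Cfsg.Agent.H28.Cyc

open Cfsg Cfsg.Agent.H81.Cyc

universe u

/-- S1502-VEC3. -/
theorem vec3 : StmtVec3.{u} := by
  intro ι _ v h
  classical
  have hval : Val v := by
    intro t
    have h1 : v t * v t ≤ ∑ s, v s * v s :=
      Finset.single_le_sum (f := fun s => v s * v s) (fun s _ => mul_self_nonneg (v s))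
        (Finset.mem_univ t)
    rw [h] at h1
    have h2 : v t ≤ 1 := by nlinarith
    have h3 : -1 ≤ v t := by nlinarith
    omega
  refine ⟨hval, ?_⟩
  have hsum : ∑ t, v t * v t = ((Finset.univ.filter (fun t => v t ≠ 0)).card : ℤ) := by
    rw [Finset.card_filter]
    push_cast
    apply Finset.sum_congr rfl
    intro t _
    rcases hval t with h0 | h0 | h0 <;> simp [h0]
  rw [h] at hsum
  have hc : (Finset.univ.filter (fun t => v t ≠ 0)).card = 3 := by exact_mod_cast hsum.symm
  obtain ⟨t₁, t₂, t₃, h12, h13, h23, hs⟩ := Finset.card_eq_three.1 hc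
  refine ⟨t₁, t₂, t₃, h12, h13, h23, fun t => ?_⟩
  have h4 : t ∈ Finset.univ.filter (fun t => v t ≠ 0) ↔ t ∈ ({t₁, t₂, t₃} : Finset ι) := by
    rw [hs]
  simpa using h4

end Cfsg.Agent.H28.Cyc
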