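import Cfsg.Agent.H28.ESSimple
import Cfsg.Agent.S5421
import Cfsg.Agent.S5422

/-!
# Simplicity and largeness from `F*(C(z))` extraspecial plus generation by conjugates of `z`
-/

set_option autoImplicit false

namespace Cfsg.Agent.H28.ESS2

open Cfsg Cfsg.Agent.H92

variable {G : Type*} [Group G]

/-- A normal subgroup meeting `C(z)` nontrivially contains `z`. -/
theorem z_mem_of_fix {Q : Subgroup G} {z : G} (hE : ESPair Q z) (N : Subgroup G)
    [hN : N.Normal] {n : G} (hn : n ∈ N) (hn1 : n ≠ 1) (hnz : n * z = z * n) : z ∈ N := by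
  by_cases hc : ∀ q ∈ Q, q * n = n * q
  · rcases hE.cent n hc with h1 | h1
    · exact absurd h1 hn1
    · rw [← h1]; exact hn
  · push Not at hc
    obtain ⟨q, hq, hqn⟩ := hc
    have huN : q * n * q⁻¹ * n⁻¹ ∈ N := N.mul_mem (hN.conj_mem n hn q) (N.inv_mem hn)
    have huQ : q * n * q⁻¹ * n⁻¹ ∈ Q := by
      have h1 := hE.norm n hnz q⁻¹ (Q.inv_mem hq)
      have e : q * n * q⁻¹ * n⁻¹ = q * (n * q⁻¹ * n⁻¹) := by group
      rw [e]; exact Q.mul_mem hq h1
    have hu1 : q * n * q⁻¹ * n⁻¹ ≠ 1 := by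
      intro h1
      apply hqn
      have := congrArg (· * n * q) h1
      simpa [mul_assoc] using this
    generalize q * n * q⁻¹ * n⁻¹ = u at huN huQ hu1
    by_cases huz : u = z
    · rw [← huz]; exact huN
    · obtain ⟨q', hq', hq'u⟩ := hE.exists_conj huQ hu1 huz
      have h2 : q' * u * q'⁻¹ * u⁻¹ ∈ N := N.mul_mem (hN.conj_mem u huN q') (N.inv_mem huN)
      rw [hq'u] at h2
      simpa using h2

/-- A normal subgroup on which an involution acts fixed-point-freely has odd order. -/
theorem odd_card_of_fpf [Finite G] (N : Subgroup G) [hN : N.Normal] (t : G) (ht : t * t = 1)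
    (hf : ∀ n ∈ N, n * t = t * n → n = 1) : Odd (Nat.card N) := by
  have : Fact (Nat.Prime 2) := ⟨Nat.prime_two⟩
  have hinv := ESS.inverts_of_fpf N t ht hf
  by_contra hodd
  rw [Nat.not_odd_iff_even, even_iff_two_dvd] at hodd
  obtain ⟨x, hx⟩ := exists_prime_orderOf_dvd_card' 2 hodd
  have hx2 : (x : G) * (x : G) = 1 := by
    have h0 := pow_orderOf_eq_one x
    rw [hx, pow_two] at h0
    exact congrArg Subtype.val h0
  have hxi : (x : G)⁻¹ = x := inv_eq_of_mul_eq_one_left hx2
  have h1 := hinv x x.2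
  rw [hxi] at h1
  have h2 : (x : G) * t = t * x := by
    have := congrArg (· * t) h1
    simpa [mul_assoc] using this.symm
  have h3 := hf x x.2 h2
  have h4 : x = 1 := Subtype.ext h3
  rw [h4, orderOf_one] at hx
  omega

/-- Simplicity from largeness and generation of `C(z)` by conjugates of `z`. -/
theorem simple_of_large [Finite G] {Q : Subgroup G} {z : G} (hE : ESPair Q z)
    (hL : ∀ K : Subgroup G, Odd (Nat.card K) → Q ≤ Subgroup.normalizer (K : Set G) → K = ⊥)
    (hgen : ∀ M : Subgroup G, M.Normal → z ∈ M → Subgroup.centralizer ({z} : Set G) ≤ M) :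
    IsSimpleGroup G := by
  have hnt : Nontrivial G := ⟨⟨z, 1, hE.z_ne⟩⟩
  refine ⟨fun N hN => ?_⟩
  by_cases hN1 : N = ⊥
  · exact Or.inl hN1
  · right
    have hzN : z ∈ N := by
      by_cases hfix : ∃ n ∈ N, n ≠ 1 ∧ n * z = z * n
      · obtain ⟨n, hn, hn1, hnz⟩ := hfix
        exact z_mem_of_fix hE N hn hn1 hnz
      · exfalso
        push Not at hfix
        apply hN1
        apply hL N
        · apply odd_card_of_fpf N z hE.z_sq
          intro n hn hnz
          by_contra hn1
          exact hfix n hn hn1 hnz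
        · rw [Subgroup.normalizer_eq_top]
          exact le_top
    exact ESS.eq_top_of_centralizer_le hE N (hgen N hN hzN)

/-- Elements of a commutative subgroup generated by involutions square to one. -/
theorem sq_eq_one_of_closure (S : Set G) (hS : ∀ x ∈ S, x * x = 1)
    (hab : IsMulCommutative ↥(Subgroup.closure S)) : ∀ x ∈ Subgroup.closure S, x * x = 1 := by
  intro x hx
  induction hx using Subgroup.closure_induction with
  | mem x hx => exact hS x hx
  | one => simp
  | mul x y hx hy ihx ihy =>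
    have hc : x * y = y * x := Cfsg.Agent.H28.comm_of_isMulCommutative hab hx hy
    calc x * y * (x * y) = x * (y * x) * y := by group
      _ = x * (x * y) * y := by rw [hc]
      _ = (x * x) * (y * y) := by group
      _ = 1 := by rw [ihx, ihy, one_mul]
  | inv x hx ihx =>
    have : x⁻¹ * x⁻¹ = (x * x)⁻¹ := by group
    rw [this, ihx, inv_one]

theorem s5427 [Finite G] (z : G) (hz : orderOf z = 2) (Q : Subgroup G)
    (hQC : Q ≤ Subgroup.centralizer ({z} : Set G))
    (hF : (Cfsg.generalizedFittingSubgroup ↥(Subgroup.centralizer ({z} : Set G))).map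
      (Subgroup.centralizer ({z} : Set G)).subtype = Q)
    (hQ : Cfsg.IsExtraspecial 2 ↥Q) (w : ℕ) (hw : 2 ≤ w)
    (hcard : Nat.card ↥Q = 2 ^ (2 * w + 1)) (K U : Subgroup G)
    (hU : U = Subgroup.closure {x : G | ∃ k ∈ K, x = k * z * k⁻¹})
    (hUab : IsMulCommutative ↥U)
    (hgen : Subgroup.closure {x : G | ∃ c ∈ Subgroup.centralizer ({z} : Set G), ∃ u ∈ U,
      x = c * u * c⁻¹} = Subgroup.centralizer ({z} : Set G))
    (h3 : (∃ k ∈ K, k * z * k⁻¹ ∈ Q ∧ k * z * k⁻¹ ≠ z) ∨ ∃ u ∈ U ⊓ Q, u ∉ Subgroup.zpowers z ∧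
      (∃ hz' : z ∈ Subgroup.centralizer ({u} : Set G),
        (⟨z, hz'⟩ : ↥(Subgroup.centralizer ({u} : Set G))) ∈
          Cfsg.pCore 2 ↥(Subgroup.centralizer ({u} : Set G)))) :
    IsSimpleGroup G ∧ Cfsg.IsLargeExtraspecial Q := by
  have hz1 : z ≠ 1 := by
    intro h1
    rw [h1, orderOf_one] at hz
    omega
  have hzz : z * z = 1 := by
    have := pow_orderOf_eq_one z
    rwa [hz, pow_two] at this
  have hzH : z ∈ Subgroup.centralizer ({z} : Set G) :=
    Subgroup.mem_centralizer_singleton_iff.mpr rfl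
  have hcen := Cfsg.Agent.H28.centralizer_genFitting_le
    (G := ↥(Subgroup.centralizer ({z} : Set G)))
  have hFQ : ∀ f : ↥(Subgroup.centralizer ({z} : Set G)),
      f ∈ Cfsg.generalizedFittingSubgroup ↥(Subgroup.centralizer ({z} : Set G)) →
        (f : G) ∈ Q := by
    intro f hf
    rw [← hF]
    exact ⟨f, hf, rfl⟩
  have hmemF : ∀ c : G, ∀ hc : c ∈ Subgroup.centralizer ({z} : Set G),
      (∀ q ∈ Q, q * c = c * q) →
      (⟨c, hc⟩ : ↥(Subgroup.centralizer ({z} : Set G))) ∈
        Cfsg.generalizedFittingSubgroup ↥(Subgroup.centralizer ({z} : Set G)) := by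
    intro c hc hcq
    apply hcen
    rw [Subgroup.mem_centralizer_iff]
    intro f hf
    apply Subtype.ext
    exact hcq f (hFQ f hf)
  have hzQ : z ∈ Q := by
    apply hFQ ⟨z, hzH⟩
    apply hmemF z hzH
    intro q hq
    exact Subgroup.mem_centralizer_singleton_iff.mp (hQC hq)
  have hL2 : Subgroup.centralizer (Q : Set G) = (Subgroup.center ↥Q).map Q.subtype := by
    apply le_antisymm
    · intro c hc
      have hcq : ∀ q ∈ Q, q * c = c * q := fun q hq => Subgroup.mem_centralizer_iff.mp hc q hq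
      have hcz : c * z = z * c := (hcq z hzQ).symm
      have hcH : c ∈ Subgroup.centralizer ({z} : Set G) :=
        Subgroup.mem_centralizer_singleton_iff.mpr hcz
      have hcQ : c ∈ Q := hFQ ⟨c, hcH⟩ (hmemF c hcH hcq)
      refine ⟨⟨c, hcQ⟩, ?_, rfl⟩
      rw [SetLike.mem_coe, Subgroup.mem_center_iff]
      intro y
      apply Subtype.ext
      exact hcq y y.2
    · rintro _ ⟨x, hx, rfl⟩
      rw [Subgroup.mem_centralizer_iff]
      intro y hy
      have h1 := Subgroup.mem_center_iff.mp hx ⟨y, hy⟩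
      exact congrArg Subtype.val h1
  obtain ⟨z₀, -, -, -, -, hZ⟩ := extraspecial_center_gen Q hQ
  have hzZ : z ∈ (Subgroup.center ↥Q).map Q.subtype := by
    refine ⟨⟨z, hzQ⟩, ?_, rfl⟩
    rw [SetLike.mem_coe, Subgroup.mem_center_iff]
    intro y
    apply Subtype.ext
    exact Subgroup.mem_centralizer_singleton_iff.mp (hQC y.2)
  have hzz₀ : z = z₀ := by
    rcases (hZ z).mp hzZ with h1 | h1
    · exact absurd h1 hz1
    · exact h1
  subst hzz₀
  have hFn := Cfsg.Agent.H28.genFitting_normal (G := ↥(Subgroup.centralizer ({z} : Set G)))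
  have hL3 : Subgroup.centralizer (((Subgroup.center ↥Q).map Q.subtype : Subgroup G) : Set G) ≤
      Subgroup.normalizer (Q : Set G) := by
    intro c hc
    have hcz : c * z = z * c := (Subgroup.mem_centralizer_iff.mp hc z hzZ).symm
    have hcH : c ∈ Subgroup.centralizer ({z} : Set G) :=
      Subgroup.mem_centralizer_singleton_iff.mpr hcz
    apply Subgroup.mem_normalizer_fintype
    intro q hq
    have hq' : q ∈ (Cfsg.generalizedFittingSubgroup ↥(Subgroup.centralizer ({z} : Set G))).map
        (Subgroup.centralizer ({z} : Set G)).subtype := by rw [hF]; exact hq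
    obtain ⟨f, hf, rfl⟩ := hq'
    exact hFQ (⟨c, hcH⟩ * f * ⟨c, hcH⟩⁻¹) (hFn.conj_mem f hf ⟨c, hcH⟩)
  obtain ⟨z', hE, hZ'⟩ := ESPair.of_hyp Q hQ hL2 hL3
  have hzz' : z = z' := by
    rcases (hZ' z).mp hzZ with h1 | h1
    · exact absurd h1 hz1
    · exact h1
  subst hzz'
  have hLarge : Cfsg.IsLargeExtraspecial Q := by
    rcases h3 with ⟨k, -, hkQ, hkne⟩ | ⟨u, hu, hunz, hz', hmem⟩
    · refine (Cfsg.Agent.S5422.result Q hQ hL2 hL3 w hw hcard k ?_ ?_).2.2
      · intro hk
        have h1 := (Subgroup.mem_normalizer_iff.mp hk z).mp hzZ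
        rcases (hZ _).mp h1 with h2 | h2
        · apply hz1
          have := congrArg (fun x => k⁻¹ * x * k) h2
          simpa [mul_assoc] using this
        · exact hkne h2
      · rintro _ ⟨x, hx, rfl⟩
        rcases (hZ x).mp hx with h2 | h2
        · rw [h2, map_one]; exact one_mem _
        · rw [h2]; exact hkQ
    · have huu : u * u = 1 := by
        have h1 := sq_eq_one_of_closure {x : G | ∃ k ∈ K, x = k * z * k⁻¹} (by
          rintro _ ⟨k, -, rfl⟩
          have e : k * z * k⁻¹ * (k * z * k⁻¹) = k * (z * z) * k⁻¹ := by group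
          rw [e, hzz]; group) (hU ▸ hUab)
        exact h1 u (hU ▸ hu.1)
      have hu1 : u ≠ 1 := by
        intro h1
        apply hunz
        rw [h1]; exact one_mem _
      have hb : orderOf u = 2 := orderOf_eq_prime (by rw [pow_two]; exact huu) hu1
      refine Cfsg.Agent.S5421.result Q hQ hL2 hL3 u hu.2 ?_ hb ?_
      · intro h1
        apply hunz
        rcases (hZ u).mp h1 with h2 | h2
        · exact absurd h2 hu1
        · rw [h2]; exact Subgroup.mem_zpowers z
      · intro x hx
        rcases (hZ x).mp hx with h2 | h2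
        · rw [h2]; exact one_mem _
        · rw [h2]; exact ⟨⟨z, hz'⟩, hmem, rfl⟩
  refine ⟨simple_of_large hE hLarge.2.2.2 ?_, hLarge⟩
  intro M hM hzM
  rw [← hgen, Subgroup.closure_le]
  rintro _ ⟨c, -, u, hu, rfl⟩
  apply hM.conj_mem
  have hUM : U ≤ M := by
    rw [hU, Subgroup.closure_le]
    rintro _ ⟨k, -, rfl⟩
    exact hM.conj_mem z hzM k
  exact hUM hu

end Cfsg.Agent.H28.ESS2
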