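import Mathlib
import Cfsg.Agent.H99.EmDefs2

/-!
# EM-CNT0 (helper28, for helper99 / S5990)

If `2 d < c` (no isometry of order `r`), the number of minus-type `m`-spaces of the standard
minus space is prime to `r`: apply G-CNTORB with `R = ⊥`.
-/

set_option autoImplicit false
open scoped MatrixGroups
open scoped Matrix

namespace Cfsg.Agent.H28.Em

open Cfsg.Agent.H45 Cfsg.Agent.H42.Spd Cfsg.Agent.H42.Ti Cfsg.Agent.H48.Ep Cfsg.Agent.H77.Tq
  Cfsg.Agent.H77.Tm Cfsg.Agent.H99.Em Module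

universe u

theorem le_perp_bot {F : Type u} [Field F] {V : Type*} [AddCommGroup V] [Module F V]
    (B : V →ₗ[F] V →ₗ[F] F) (W : Submodule F V) : W ≤ perp B ⊥ := by
  intro w _
  rw [mem_perp]
  intro u hu
  rw [(Submodule.mem_bot F).mp hu, map_zero, LinearMap.zero_apply]

/-- EM-CNT0. -/
theorem cnt0 (hME : StME.{u}) (hBr : Cfsg.Agent.H99.Em.StBridge.{u}) (hOrb : StCntOrb.{u}) :
    StCnt0.{u} := by
  intro F _ _ p _ _ k a b r m hab hk hr hr2 hrp hmE hm2 hmk hc
  classical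
  obtain ⟨hQnd, -, hfr, hEW, -⟩ := hBr F k m a b hab
  obtain ⟨Q, hQ⟩ : ∃ Q : QuadraticForm F (MI k → F), Q = Cfsg.Agent.H49.QMin k F a b :=
    ⟨_, rfl⟩
  rw [← hQ] at hQnd hEW
  have hcard : Fintype.card (MI k) = 2 * k + 2 := by
    simp [Fintype.card_sum]
    ring
  have hcoe : ∀ g : GL (MI k) F, g ∈ Cfsg.isometryGroup F ⇑Q →
      g ∈ Cfsg.isometryGroup F (Cfsg.quadFormMinus k F a b) := by
    intro g hg
    rw [hQ] at hg
    exact hg
  have hfix : ∀ g : GL (MI k) F, g ∈ Cfsg.isometryGroup F ⇑Q →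
      (∀ v ∈ (⊥ : Submodule F (MI k → F)), Matrix.toLin' (g : Matrix (MI k) (MI k) F) v = v) →
      g ^ r = 1 → g = 1 := by
    intro g hg _ hgr
    obtain ⟨A, hA, -⟩ := hME F p k a b r hab hr hr2 hrp g (hcoe g hg) hgr
    have hA0 : A = 0 := by
      by_contra hne
      have h1 : cc F r ≤ cc F r * A := Nat.le_mul_of_pos_right _ (Nat.pos_of_ne_zero hne)
      omega
    rw [hA0, mul_zero, add_zero] at hA
    have htop : LinearMap.ker (Matrix.toLin' (g : Matrix (MI k) (MI k) F) - 1) = ⊤ := by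
      apply Submodule.eq_top_of_finrank_eq
      rw [hfr]
      exact hA
    apply Units.ext
    apply Matrix.toLin'.injective
    rw [Units.val_one, Matrix.toLin'_one]
    apply LinearMap.ext
    intro v
    have h3 : v ∈ LinearMap.ker (Matrix.toLin' (g : Matrix (MI k) (MI k) F) - 1) := by
      rw [htop]
      exact Submodule.mem_top
    rw [LinearMap.mem_ker, LinearMap.sub_apply, sub_eq_zero] at h3
    exact h3
  have hexW : ∃ W : Submodule F (MI k → F), finrank F W = m ∧ QNd Q W ∧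
      (QPlus Q W ↔ False) ∧ W ≤ perp (QuadraticMap.polarBilin Q) ⊥ := by
    obtain ⟨A, hA, -, hex1, -⟩ := hME F p k a b r hab hr hr2 hrp 1 (Subgroup.one_mem _)
      (one_pow r)
    have hfd : fixDim k (1 : GL (MI k) F) = 2 * k + 2 := by
      unfold fixDim
      rw [Units.val_one, Matrix.toLin'_one]
      have h0 : (LinearMap.id : (MI k → F) →ₗ[F] (MI k → F)) - 1 = 0 := sub_self _
      rw [h0, LinearMap.ker_zero, finrank_top, hfr]
    obtain ⟨W, hW, -⟩ := hex1 0 m (Nat.zero_le _) (by rw [hfd]; omega) hmE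
      (fun h0 => by omega) (fun h1 => by rw [hfd] at h1; omega)
    rw [Nat.mul_zero, Nat.zero_add] at hW
    obtain ⟨h1, h2, h3⟩ := (hEW W).mp hW
    exact ⟨W, h1, h2, iff_false_intro h3, le_perp_bot _ W⟩
  have hmain := hOrb F (MI k) Q r m False hQnd (Or.inr (by rw [hcard]; omega)) hr hmE ⊥
    (bot_inf_eq _) hfix hexW
  intro hdvd
  apply hmain
  have hcongr : Nat.card {W : Submodule F (MI k → F) // IsEW F k a b m W} =
      Nat.card {W : Submodule F (MI k → F) // finrank F W = m ∧ QNd Q W ∧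
        (QPlus Q W ↔ False) ∧ W ≤ perp (QuadraticMap.polarBilin Q) ⊥} := by
    apply Nat.card_congr
    refine Equiv.subtypeEquivRight ?_
    intro W
    rw [hEW W]
    constructor
    · rintro ⟨h1, h2, h3⟩
      exact ⟨h1, h2, iff_false_intro h3, le_perp_bot _ W⟩
    · rintro ⟨h1, h2, h3, -⟩
      exact ⟨h1, h2, h3.mp⟩
  rw [← hcongr]
  exact hdvd

example (hME : Cfsg.Agent.H99.Em.StME.{u}) (hBr : Cfsg.Agent.H99.Em.StBridge.{u})
    (hOrb : Cfsg.Agent.H99.Em.StCntOrb.{u}) : Cfsg.Agent.H99.Em.StCnt0.{u} :=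
  cnt0 hME hBr hOrb

end Cfsg.Agent.H28.Em

#print axioms Cfsg.Agent.H28.Em.cnt0
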