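import Mathlib
import Cfsg.Agent.H95.OhDefs

/-!
# S5992-CNTORB (helper28, for helper95): if the fixed space `K` of `x` (`x ^ r = 1`) has
dimension `< c`, the number of `m`-spaces of given type inside `K` (`m < dim K`) is prime to `r`.

The isometries fixing `R = range (x - 1)` pointwise act transitively (Witt, `StOrbTrans`) on
these subspaces, and their group has order prime to `r` (`StOModc`).
-/

set_option autoImplicit false

namespace Cfsg.Agent.H28.Oh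

open Cfsg.Agent.H45 Cfsg.Agent.H42.Spd Cfsg.Agent.H42.Ti Cfsg.Agent.H14.Ot Cfsg.Agent.H95.Oh Module

universe u

section gen

variable {F : Type u} [Field F] {ι : Type} [Fintype ι] [DecidableEq ι]

theorem toLin_inv_apply (g : Matrix.GeneralLinearGroup ι F) (v : ι → F) :
    Matrix.toLin' ((g⁻¹ : Matrix.GeneralLinearGroup ι F) : Matrix ι ι F)
      (Matrix.toLin' (g : Matrix ι ι F) v) = v := by
  rw [← Matrix.toLin'_mul_apply, ← Units.val_mul, inv_mul_cancel, Units.val_one,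
    Matrix.toLin'_one, LinearMap.id_apply]

theorem toLin_apply_inv (g : Matrix.GeneralLinearGroup ι F) (v : ι → F) :
    Matrix.toLin' (g : Matrix ι ι F)
      (Matrix.toLin' ((g⁻¹ : Matrix.GeneralLinearGroup ι F) : Matrix ι ι F) v) = v := by
  rw [← Matrix.toLin'_mul_apply, ← Units.val_mul, mul_inv_cancel, Units.val_one,
    Matrix.toLin'_one, LinearMap.id_apply]

/-- The linear equivalence of an invertible matrix. -/
def glEquiv (g : Matrix.GeneralLinearGroup ι F) : (ι → F) ≃ₗ[F] (ι → F) :=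
  LinearEquiv.ofLinear (Matrix.toLin' (g : Matrix ι ι F))
    (Matrix.toLin' ((g⁻¹ : Matrix.GeneralLinearGroup ι F) : Matrix ι ι F))
    (LinearMap.ext (toLin_apply_inv g)) (LinearMap.ext (toLin_inv_apply g))

theorem finrank_map_gl (g : Matrix.GeneralLinearGroup ι F) (W : Submodule F (ι → F)) :
    finrank F ↥(W.map (Matrix.toLin' (g : Matrix ι ι F))) = finrank F ↥W :=
  LinearEquiv.finrank_map_eq (glEquiv g) W

theorem map_inv_map_gl (g : Matrix.GeneralLinearGroup ι F) (W : Submodule F (ι → F)) :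
    (W.map (Matrix.toLin' (g : Matrix ι ι F))).map
      (Matrix.toLin' ((g⁻¹ : Matrix.GeneralLinearGroup ι F) : Matrix ι ι F)) = W := by
  ext v
  constructor
  · rintro ⟨_, ⟨w, hw, rfl⟩, rfl⟩
    rw [toLin_inv_apply]
    exact hw
  · intro hv
    exact ⟨_, ⟨v, hv, rfl⟩, toLin_inv_apply g v⟩

/-- `GL` acts on the subspaces. -/
@[reducible] def subAct (F : Type u) [Field F] (ι : Type) [Fintype ι] [DecidableEq ι] :
    MulAction (Matrix.GeneralLinearGroup ι F) (Submodule F (ι → F)) where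
  smul g W := W.map (Matrix.toLin' (g : Matrix ι ι F))
  one_smul W := by
    show W.map (Matrix.toLin' ((1 : Matrix.GeneralLinearGroup ι F) : Matrix ι ι F)) = W
    rw [Units.val_one, Matrix.toLin'_one]
    exact Submodule.map_id W
  mul_smul g h W := by
    show W.map (Matrix.toLin' ((g * h : Matrix.GeneralLinearGroup ι F) : Matrix ι ι F)) =
      (W.map (Matrix.toLin' (h : Matrix ι ι F))).map (Matrix.toLin' (g : Matrix ι ι F))
    rw [Units.val_mul, Matrix.toLin'_mul, Submodule.map_comp]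

/-- The isometries fixing `R` pointwise. -/
def fixSub (Q : (ι → F) → F) (R : Submodule F (ι → F)) :
    Subgroup (Matrix.GeneralLinearGroup ι F) where
  carrier := {g | g ∈ Cfsg.isometryGroup F Q ∧ ∀ v ∈ R, Matrix.toLin' (g : Matrix ι ι F) v = v}
  mul_mem' := by
    rintro a b ⟨ha, ha'⟩ ⟨hb, hb'⟩
    refine ⟨Subgroup.mul_mem _ ha hb, fun v hv => ?_⟩
    rw [Units.val_mul, Matrix.toLin'_mul_apply, hb' v hv, ha' v hv]
  one_mem' := by
    refine ⟨Subgroup.one_mem _, fun v _ => ?_⟩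
    rw [Units.val_one, Matrix.toLin'_one, LinearMap.id_apply]
  inv_mem' := by
    rintro a ⟨ha, ha'⟩
    refine ⟨Subgroup.inv_mem _ ha, fun v hv => ?_⟩
    nth_rewrite 1 [← ha' v hv]
    exact toLin_inv_apply a v

variable (B : (ι → F) →ₗ[F] (ι → F) →ₗ[F] F)

/-- nondegeneracy is preserved by isometries -/
theorem nd_map_gl (g : Matrix.GeneralLinearGroup ι F)
    (hg : ∀ x y, B (Matrix.toLin' (g : Matrix ι ι F) x) (Matrix.toLin' (g : Matrix ι ι F) y)
      = B x y) (W : Submodule F (ι → F)) (hW : W ⊓ perp B W = ⊥) :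
    W.map (Matrix.toLin' (g : Matrix ι ι F)) ⊓
      perp B (W.map (Matrix.toLin' (g : Matrix ι ι F))) = ⊥ := by
  rw [eq_bot_iff]
  rintro y ⟨⟨w, hw, rfl⟩, hy⟩
  have h1 : w ∈ W ⊓ perp B W := by
    refine ⟨hw, fun w' hw' => ?_⟩
    rw [← hg]
    exact hy _ ⟨w', hw', rfl⟩
  rw [hW] at h1
  rw [(Submodule.mem_bot F).mp h1, map_zero]
  exact Submodule.zero_mem _

/-- plus type is preserved by isometries -/
theorem plus_map_gl (g : Matrix.GeneralLinearGroup ι F)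
    (hg : ∀ x y, B (Matrix.toLin' (g : Matrix ι ι F) x) (Matrix.toLin' (g : Matrix ι ι F) y)
      = B x y) (W : Submodule F (ι → F)) (hW : Plus B W) :
    Plus B (W.map (Matrix.toLin' (g : Matrix ι ι F))) := by
  obtain ⟨U, hUW, hUti, hUd⟩ := hW
  refine ⟨U.map (Matrix.toLin' (g : Matrix ι ι F)), Submodule.map_mono hUW, ?_, ?_⟩
  · rintro _ ⟨u, hu, rfl⟩ _ ⟨v, hv, rfl⟩
    rw [hg]
    exact hUti u hu v hv
  · rw [finrank_map_gl, finrank_map_gl, hUd]

theorem isom_inv_gl (g : Matrix.GeneralLinearGroup ι F)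
    (hg : ∀ x y, B (Matrix.toLin' (g : Matrix ι ι F) x) (Matrix.toLin' (g : Matrix ι ι F) y)
      = B x y) (x y : ι → F) :
    B (Matrix.toLin' ((g⁻¹ : Matrix.GeneralLinearGroup ι F) : Matrix ι ι F) x)
      (Matrix.toLin' ((g⁻¹ : Matrix.GeneralLinearGroup ι F) : Matrix ι ι F) y) = B x y := by
  rw [← hg, toLin_apply_inv, toLin_apply_inv]

theorem plus_map_gl_iff (g : Matrix.GeneralLinearGroup ι F)
    (hg : ∀ x y, B (Matrix.toLin' (g : Matrix ι ι F) x) (Matrix.toLin' (g : Matrix ι ι F) y)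
      = B x y) (W : Submodule F (ι → F)) :
    Plus B (W.map (Matrix.toLin' (g : Matrix ι ι F))) ↔ Plus B W := by
  constructor
  · intro h
    have h1 := plus_map_gl B g⁻¹ (isom_inv_gl B g hg) _ h
    rw [map_inv_map_gl] at h1
    exact h1
  · exact plus_map_gl B g hg W

end gen

theorem cntOrb (hBr : StBridge.{u}) (hTrans : StOrbTrans.{u}) (hBoth : StBoth.{u,u})
    (hS : StOSplit.{u,u}) (hM : StOModc.{u,u}) : StCntOrb.{u} := by
  intro F _ _ p _ _ r hr hr2 hrp h2 d m pl hmE hm2 x hx hxr hmK hKc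
  classical
  obtain ⟨B, hBpol, hBsymm, hBnd, -, hBndeg, hBplus, hBiso⟩ := hBr F d h2
  have hrF : (r : F) ≠ 0 := by
    intro h0
    have h1 := (CharP.cast_eq_zero_iff F p r).mp h0
    exact hrp ((Nat.prime_dvd_prime_iff_eq (Fact.out : p.Prime) hr).mp h1).symm
  obtain ⟨T, hT⟩ : ∃ T : Module.End F (Unit ⊕ (Fin d ⊕ Fin d) → F),
      T = Matrix.toLin' (x : Matrix (Unit ⊕ (Fin d ⊕ Fin d)) (Unit ⊕ (Fin d ⊕ Fin d)) F) :=
    ⟨_, rfl⟩
  rw [← hT] at hmK hKc ⊢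
  have hTr : T ^ r = 1 := by
    rw [hT, ← Matrix.toLin'_pow, ← Units.val_pow_eq_pow_val, hxr, Units.val_one,
      Matrix.toLin'_one]
    rfl
  have hTiso : ∀ u v, B (T u) (T v) = B u v := by
    rw [hT]
    exact (hBiso x).mp hx
  obtain ⟨hKR, hKRtop, -⟩ := hS F (Unit ⊕ (Fin d ⊕ Fin d) → F) r T hrF hTr
  obtain ⟨K, hK⟩ : ∃ K : Submodule F (Unit ⊕ (Fin d ⊕ Fin d) → F),
      K = LinearMap.ker (T - 1) := ⟨_, rfl⟩
  obtain ⟨R, hR⟩ : ∃ R : Submodule F (Unit ⊕ (Fin d ⊕ Fin d) → F),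
      R = LinearMap.range (T - 1) := ⟨_, rfl⟩
  rw [← hK] at hmK hKc hKR hKRtop ⊢
  rw [← hR] at hKR hKRtop
  have hTsurj : Function.Surjective T := by
    intro y
    refine ⟨Matrix.toLin' ((x⁻¹ : Matrix.GeneralLinearGroup (Unit ⊕ (Fin d ⊕ Fin d)) F) :
      Matrix (Unit ⊕ (Fin d ⊕ Fin d)) (Unit ⊕ (Fin d ⊕ Fin d)) F) y, ?_⟩
    rw [hT]
    exact toLin_apply_inv x y
  have memK : ∀ u, u ∈ K ↔ T u = u := by
    intro u
    rw [hK, LinearMap.mem_ker, LinearMap.sub_apply, Module.End.one_apply, sub_eq_zero]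
  -- `K = R^⊥`
  have hKperp : ∀ u, u ∈ K ↔ u ∈ perp B R := by
    intro u
    constructor
    · intro hu v hv
      rw [hR] at hv
      obtain ⟨w, rfl⟩ := hv
      have hu' := (memK u).mp hu
      rw [LinearMap.sub_apply, Module.End.one_apply, map_sub, LinearMap.sub_apply]
      nth_rewrite 1 [← hu']
      rw [hTiso, sub_self]
    · intro hu
      rw [memK]
      have h1 : ∀ z, B (u - T u) z = 0 := by
        intro z
        obtain ⟨w, rfl⟩ := hTsurj z
        have h3 : B ((T - 1) w) u = 0 := hu _ (by rw [hR]; exact ⟨w, rfl⟩)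
        rw [LinearMap.sub_apply, Module.End.one_apply, map_sub, LinearMap.sub_apply] at h3
        rw [map_sub, LinearMap.sub_apply, hTiso, hBsymm u (T w), hBsymm u w]
        linear_combination h3
      have h4 := hBnd _ h1
      exact (sub_eq_zero.mp h4).symm
  have hRnd : R ⊓ perp B R = ⊥ := by
    rw [eq_bot_iff]
    intro u hu
    have h1 : u ∈ K ⊓ R := ⟨(hKperp u).mpr hu.2, hu.1⟩
    rw [hKR] at h1
    exact h1
  have hKnd : K ⊓ perp B K = ⊥ := by
    rw [eq_bot_iff]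
    intro u hu
    rw [Submodule.mem_bot]
    apply hBnd
    intro z
    have hz : z ∈ K ⊔ R := by rw [hKRtop]; exact Submodule.mem_top
    obtain ⟨k, hk, v, hv, rfl⟩ := Submodule.mem_sup.mp hz
    rw [hBsymm, map_add, LinearMap.add_apply, hu.2 k hk, ((hKperp u).mp hu.1) v hv, add_zero]
  have hdim : finrank F K + finrank F R = finrank F (Unit ⊕ (Fin d ⊕ Fin d) → F) := by
    have h1 := Submodule.finrank_sup_add_finrank_inf_eq K R
    rw [hKRtop, hKR, finrank_top, finrank_bot] at h1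
    omega
  -- the group of isometries fixing `R` pointwise
  obtain ⟨G', hG'⟩ : ∃ G' : Subgroup (Matrix.GeneralLinearGroup (Unit ⊕ (Fin d ⊕ Fin d)) F),
      ∀ g, g ∈ G' ↔ (g ∈ Cfsg.isometryGroup F (Cfsg.quadFormOdd d F) ∧ ∀ v ∈ R,
        Matrix.toLin' (g : Matrix (Unit ⊕ (Fin d ⊕ Fin d)) (Unit ⊕ (Fin d ⊕ Fin d)) F) v = v) := by
    exact ⟨fixSub (Cfsg.quadFormOdd d F) R, fun g => Iff.rfl⟩
  -- a base point
  obtain ⟨W₀, hW₀K, hW₀nd, hW₀d, hW₀pl⟩ :=
    hBoth F (Unit ⊕ (Fin d ⊕ Fin d) → F) B h2 hBsymm K hKnd m pl hmE hm2 (by omega)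
  have hHE : ∀ W : Submodule F (Unit ⊕ (Fin d ⊕ Fin d) → F),
      IsHE F d m pl W ↔ (finrank F W = m ∧ W ⊓ perp B W = ⊥ ∧ (Plus B W ↔ pl)) := by
    intro W
    unfold IsHE
    rw [hBndeg W, hBplus W]
  let _ : MulAction (Matrix.GeneralLinearGroup (Unit ⊕ (Fin d ⊕ Fin d)) F)
      (Submodule F (Unit ⊕ (Fin d ⊕ Fin d) → F)) := subAct F (Unit ⊕ (Fin d ⊕ Fin d))
  have hsmul : ∀ (g : ↥G') (W : Submodule F (Unit ⊕ (Fin d ⊕ Fin d) → F)),
      g • W = W.map (Matrix.toLin'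
        ((g : Matrix.GeneralLinearGroup (Unit ⊕ (Fin d ⊕ Fin d)) F) :
          Matrix (Unit ⊕ (Fin d ⊕ Fin d)) (Unit ⊕ (Fin d ⊕ Fin d)) F)) := fun g W => rfl
  have hX : {W : Submodule F (Unit ⊕ (Fin d ⊕ Fin d) → F) | IsHE F d m pl W ∧ W ≤ K} =
      MulAction.orbit ↥G' W₀ := by
    ext W
    constructor
    · rintro ⟨hWHE, hWK⟩
      obtain ⟨hWd, hWnd, hWpl⟩ := (hHE W).mp hWHE
      have hperpW : ∀ W' : Submodule F (Unit ⊕ (Fin d ⊕ Fin d) → F), W' ≤ K →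
          ∀ u ∈ W', ∀ v ∈ R, QuadraticMap.polar (Cfsg.quadFormOdd d F) u v = 0 := by
        intro W' hW' u hu v hv
        rw [← hBpol, hBsymm]
        exact ((hKperp u).mp (hW' hu)) v hv
      obtain ⟨g, hgiso, hgR, hgW⟩ := hTrans F d h2 R W₀ W ((hBndeg R).mpr hRnd)
        ((hBndeg W₀).mpr hW₀nd) ((hBndeg W).mpr hWnd) (hperpW W₀ hW₀K) (hperpW W hWK)
        (by rw [hW₀d, hWd]) (by rw [hW₀d]; exact hmE)
        (by rw [hBplus W₀, hBplus W]; exact hW₀pl.trans hWpl.symm)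
      exact ⟨⟨g, (hG' g).mpr ⟨hgiso, hgR⟩⟩, hgW⟩
    · rintro ⟨g, rfl⟩
      have hg := (hG' g.1).mp g.2
      have hgB := (hBiso g.1).mp hg.1
      show IsHE F d m pl (W₀.map (Matrix.toLin'
          ((g : Matrix.GeneralLinearGroup (Unit ⊕ (Fin d ⊕ Fin d)) F) :
            Matrix (Unit ⊕ (Fin d ⊕ Fin d)) (Unit ⊕ (Fin d ⊕ Fin d)) F))) ∧
        W₀.map (Matrix.toLin'
          ((g : Matrix.GeneralLinearGroup (Unit ⊕ (Fin d ⊕ Fin d)) F) :
            Matrix (Unit ⊕ (Fin d ⊕ Fin d)) (Unit ⊕ (Fin d ⊕ Fin d)) F)) ≤ K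
      refine ⟨(hHE _).mpr ⟨?_, nd_map_gl B g.1 hgB W₀ hW₀nd, ?_⟩, ?_⟩
      · rw [finrank_map_gl, hW₀d]
      · rw [plus_map_gl_iff B g.1 hgB W₀]
        exact hW₀pl
      · rintro _ ⟨w, hw, rfl⟩
        rw [hKperp]
        intro v hv
        have h1 := hgB v w
        rw [hg.2 v hv] at h1
        rw [h1]
        exact ((hKperp w).mp (hW₀K hw)) v hv
  show ¬ r ∣ Nat.card ↥{W : Submodule F (Unit ⊕ (Fin d ⊕ Fin d) → F) | IsHE F d m pl W ∧ W ≤ K}
  rw [hX, Nat.card_coe_set_eq, ← MulAction.index_stabilizer]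
  intro hdvd
  have hdvd' : r ∣ Nat.card ↥G' := hdvd.trans (Subgroup.index_dvd_card _)
  have : Fact r.Prime := ⟨hr⟩
  obtain ⟨g, hg⟩ := exists_prime_orderOf_dvd_card' r hdvd'
  have hgm := (hG' g.1).mp g.2
  obtain ⟨Tg, hTg⟩ : ∃ Tg : Module.End F (Unit ⊕ (Fin d ⊕ Fin d) → F),
      Tg = Matrix.toLin' ((g : Matrix.GeneralLinearGroup (Unit ⊕ (Fin d ⊕ Fin d)) F) :
        Matrix (Unit ⊕ (Fin d ⊕ Fin d)) (Unit ⊕ (Fin d ⊕ Fin d)) F) := ⟨_, rfl⟩
  have hgr : g ^ r = 1 := by rw [← hg]; exact pow_orderOf_eq_one g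
  have hTgr : Tg ^ r = 1 := by
    have h1 : ((g : Matrix.GeneralLinearGroup (Unit ⊕ (Fin d ⊕ Fin d)) F)) ^ r = 1 := by
      rw [← Subgroup.coe_pow, hgr, Subgroup.coe_one]
    rw [hTg, ← Matrix.toLin'_pow, ← Units.val_pow_eq_pow_val, h1, Units.val_one,
      Matrix.toLin'_one]
    rfl
  have hO : OCtx r B Tg := by
    refine ⟨hr, hr2, hrF, h2, hBsymm, hBnd, ?_, hTgr⟩
    rw [hTg]
    exact (hBiso g.1).mp hgm.1
  obtain ⟨s, hs⟩ := hM F (Unit ⊕ (Fin d ⊕ Fin d) → F) r B Tg hO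
  have hRle : R ≤ ⊤ ⊓ LinearMap.ker (Tg - 1) := by
    intro v hv
    refine ⟨Submodule.mem_top, ?_⟩
    show v ∈ LinearMap.ker (Tg - 1)
    rw [LinearMap.mem_ker, LinearMap.sub_apply, Module.End.one_apply, hTg, hgm.2 v hv, sub_self]
  have hkk : finrank F R ≤ kk Tg ⊤ := Submodule.finrank_mono hRle
  have hs0 : s = 0 := by
    by_contra hne
    have h1 : cc F r ≤ cc F r * s := Nat.le_mul_of_pos_right _ (Nat.pos_of_ne_zero hne)
    omega
  rw [hs0, mul_zero, add_zero] at hs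
  have htop : (⊤ : Submodule F (Unit ⊕ (Fin d ⊕ Fin d) → F)) ⊓ LinearMap.ker (Tg - 1) = ⊤ :=
    Submodule.eq_top_of_finrank_eq hs.symm
  have hTg1 : Tg = 1 := by
    apply LinearMap.ext
    intro v
    have h1 : v ∈ (⊤ : Submodule F (Unit ⊕ (Fin d ⊕ Fin d) → F)) ⊓ LinearMap.ker (Tg - 1) := by
      rw [htop]; exact Submodule.mem_top
    have h3 : v ∈ LinearMap.ker (Tg - 1) := h1.2
    rw [LinearMap.mem_ker, LinearMap.sub_apply, sub_eq_zero] at h3
    exact h3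
  have hg1 : g = 1 := by
    apply Subtype.ext
    apply Units.ext
    apply Matrix.toLin'.injective
    rw [← hTg, hTg1, Subgroup.coe_one, Units.val_one, Matrix.toLin'_one]
    rfl
  rw [hg1, orderOf_one] at hg
  exact hr.one_lt.ne hg

example (hBr : StBridge.{u}) (hTrans : StOrbTrans.{u}) (hBoth : StBoth.{u,u})
    (hS : StOSplit.{u,u}) (hM : StOModc.{u,u}) : Cfsg.Agent.H95.Oh.StCntOrb.{u} :=
  cntOrb hBr hTrans hBoth hS hM

end Cfsg.Agent.H28.Oh
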