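import Mathlib
import Cfsg.Agent.H99.EmDefs2
import Cfsg.Agent.H28.OhCntOrb
import Cfsg.Agent.H49.Basic

/-!
# G-CNTORB (helper28, for helper99 / S5990, also usable for S5974 / S5988)

If no isometry of order `r` fixes the nondegenerate subspace `R` pointwise, the number of
nondegenerate `m`-spaces of given type orthogonal to `R` is prime to `r` (provided there is one):
the isometries fixing `R` pointwise act transitively on them (`StOrbTrans`), and their group has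
order prime to `r` (Cauchy).
-/

set_option autoImplicit false
open scoped MatrixGroups
open scoped Matrix

namespace Cfsg.Agent.H28.Em

open Cfsg.Agent.H45 Cfsg.Agent.H48.Ep Cfsg.Agent.H99.Em Cfsg.Agent.H28.Oh Module

universe u

section gen

variable {F : Type u} [Field F] {ι : Type} [Fintype ι] [DecidableEq ι]

theorem isom_apply (Q : QuadraticForm F (ι → F)) (g : GL ι F)
    (hg : g ∈ Cfsg.isometryGroup F ⇑Q) (v : ι → F) :
    Q (Matrix.toLin' (g : Matrix ι ι F) v) = Q v :=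
  (Cfsg.Agent.H49.mem_isometryGroup_iff.mp hg) v

theorem isom_polar (Q : QuadraticForm F (ι → F)) (g : GL ι F)
    (hg : g ∈ Cfsg.isometryGroup F ⇑Q) (x y : ι → F) :
    QuadraticMap.polarBilin Q (Matrix.toLin' (g : Matrix ι ι F) x)
      (Matrix.toLin' (g : Matrix ι ι F) y) = QuadraticMap.polarBilin Q x y := by
  show QuadraticMap.polar ⇑Q _ _ = QuadraticMap.polar ⇑Q x y
  unfold QuadraticMap.polar
  rw [← map_add, isom_apply Q g hg, isom_apply Q g hg, isom_apply Q g hg]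

theorem qplus_map (Q : QuadraticForm F (ι → F)) (g : GL ι F)
    (hg : g ∈ Cfsg.isometryGroup F ⇑Q) (W : Submodule F (ι → F)) (hW : QPlus Q W) :
    QPlus Q (W.map (Matrix.toLin' (g : Matrix ι ι F))) := by
  obtain ⟨U, hUW, hU0, hUd⟩ := hW
  refine ⟨U.map (Matrix.toLin' (g : Matrix ι ι F)), Submodule.map_mono hUW, ?_, ?_⟩
  · rintro _ ⟨u, hu, rfl⟩
    rw [isom_apply Q g hg]
    exact hU0 u hu
  · rw [finrank_map_gl, finrank_map_gl, hUd]

theorem qplus_map_iff (Q : QuadraticForm F (ι → F)) (g : GL ι F)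
    (hg : g ∈ Cfsg.isometryGroup F ⇑Q) (W : Submodule F (ι → F)) :
    QPlus Q (W.map (Matrix.toLin' (g : Matrix ι ι F))) ↔ QPlus Q W := by
  constructor
  · intro h
    have h1 := qplus_map Q g⁻¹ (Subgroup.inv_mem _ hg) _ h
    rw [map_inv_map_gl] at h1
    exact h1
  · exact qplus_map Q g hg W

theorem qnd_map (Q : QuadraticForm F (ι → F)) (g : GL ι F)
    (hg : g ∈ Cfsg.isometryGroup F ⇑Q) (W : Submodule F (ι → F)) (hW : QNd Q W) :
    QNd Q (W.map (Matrix.toLin' (g : Matrix ι ι F))) :=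
  nd_map_gl (QuadraticMap.polarBilin Q) g (isom_polar Q g hg) W hW

end gen

/-- G-CNTORB. -/
theorem cntOrb (hTrans : StOrbTrans.{u}) : StCntOrb.{u} := by
  intro F _ _ ι _ _ Q r m pl hQ hex hr hmE R hR hfix hexW
  obtain ⟨W₀, hW₀d, hW₀nd, hW₀pl, hW₀R⟩ := hexW
  classical
  obtain ⟨G', hG'⟩ : ∃ G' : Subgroup (GL ι F), ∀ g, g ∈ G' ↔
      (g ∈ Cfsg.isometryGroup F ⇑Q ∧ ∀ v ∈ R, Matrix.toLin' (g : Matrix ι ι F) v = v) :=
    ⟨fixSub (⇑Q) R, fun g => Iff.rfl⟩
  let _ : MulAction (GL ι F) (Submodule F (ι → F)) := subAct F ι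
  have hX : {W : Submodule F (ι → F) | finrank F W = m ∧ QNd Q W ∧ (QPlus Q W ↔ pl) ∧
      W ≤ perp (QuadraticMap.polarBilin Q) R} = MulAction.orbit ↥G' W₀ := by
    ext W
    constructor
    · rintro ⟨hWd, hWnd, hWpl, hWR⟩
      obtain ⟨g, hgiso, hgR, hgW⟩ := hTrans F ι Q hQ hex R W₀ W hR hW₀nd hWnd hW₀R hWR
        (by rw [hW₀d, hWd]) (by rw [hW₀d]; exact hmE) (hW₀pl.trans hWpl.symm)
      exact ⟨⟨g, (hG' g).mpr ⟨hgiso, hgR⟩⟩, hgW⟩
    · rintro ⟨g, rfl⟩
      have hg := (hG' g.1).mp g.2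
      show finrank F ↥(W₀.map (Matrix.toLin' ((g : GL ι F) : Matrix ι ι F))) = m ∧
        QNd Q (W₀.map (Matrix.toLin' ((g : GL ι F) : Matrix ι ι F))) ∧
        (QPlus Q (W₀.map (Matrix.toLin' ((g : GL ι F) : Matrix ι ι F))) ↔ pl) ∧
        W₀.map (Matrix.toLin' ((g : GL ι F) : Matrix ι ι F)) ≤
          perp (QuadraticMap.polarBilin Q) R
      refine ⟨?_, qnd_map Q g.1 hg.1 W₀ hW₀nd, ?_, ?_⟩
      · rw [finrank_map_gl, hW₀d]
      · rw [qplus_map_iff Q g.1 hg.1 W₀]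
        exact hW₀pl
      · rintro _ ⟨w, hw, rfl⟩
        rw [mem_perp]
        intro v hv
        have h1 := isom_polar Q g.1 hg.1 v w
        rw [hg.2 v hv] at h1
        rw [h1]
        exact (mem_perp _ R w).mp (hW₀R hw) v hv
  show ¬ r ∣ Nat.card ↥{W : Submodule F (ι → F) | finrank F W = m ∧ QNd Q W ∧
      (QPlus Q W ↔ pl) ∧ W ≤ perp (QuadraticMap.polarBilin Q) R}
  rw [hX, Nat.card_coe_set_eq, ← MulAction.index_stabilizer]
  intro hdvd
  have hdvd' : r ∣ Nat.card ↥G' := hdvd.trans (Subgroup.index_dvd_card _)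
  have : Fact r.Prime := ⟨hr⟩
  obtain ⟨g, hg⟩ := exists_prime_orderOf_dvd_card' r hdvd'
  have hgm := (hG' g.1).mp g.2
  have hgr : g ^ r = 1 := by rw [← hg]; exact pow_orderOf_eq_one g
  have h1 : ((g : GL ι F)) ^ r = 1 := by
    rw [← Subgroup.coe_pow, hgr, Subgroup.coe_one]
  have hg1 : (g : GL ι F) = 1 := hfix g.1 hgm.1 hgm.2 h1
  have hg1' : g = 1 := Subtype.ext hg1
  rw [hg1', orderOf_one] at hg
  exact hr.one_lt.ne hg

example (hTrans : Cfsg.Agent.H99.Em.StOrbTrans.{u}) : Cfsg.Agent.H99.Em.StCntOrb.{u} :=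
  cntOrb hTrans

end Cfsg.Agent.H28.Em

#print axioms Cfsg.Agent.H28.Em.cntOrb
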