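import Cfsg.Agent.S0256
import Cfsg.Agent.H3.SecMeta
import Cfsg.Agent.H3.PGroup
import Cfsg.Agent.H1.Frattini
import Cfsg.Agent.Helper55.FrattiniFaithful
import Cfsg.Agent.H28.Char2Type
import Mathlib

/-!
# Embedding `X / O_2(X)` into `A_8`

* `exists_injective_A8`: the automorphism group of an elementary abelian `2`-group of order at
  most `16` embeds in `A_8` (via `GL_4(2) = SL_4(2) = PSL_4(2) ≃ A_8`, statement S0256).
* `quotient_pCore_embeds`: if `C_X(O_2(X)) ≤ O_2(X)` and `O_2(X)` has sectional `2`-rank at most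
  `4`, then `X / O_2(X)` embeds in `A_8` (faithful action on the Frattini quotient).
-/

set_option autoImplicit false
set_option linter.style.haveILetI false

namespace Cfsg.Agent.H28.EmbA8

open Cfsg
open scoped commutatorElement

section generic

variable {A : Type*} [CommGroup A]

/-- The `ZMod 2`-linear action of `MulAut A` on `Additive A`. -/
def linAut [Module (ZMod 2) (Additive A)] : MulAut A →* Module.End (ZMod 2) (Additive A) where
  toFun e := AddMonoidHom.toZModLinearMap 2 (MonoidHom.toAdditive e.toMonoidHom)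
  map_one' := by apply LinearMap.ext; intro v; rfl
  map_mul' := by intro a b; apply LinearMap.ext; intro v; rfl

theorem linAut_injective [Module (ZMod 2) (Additive A)] :
    Function.Injective (linAut (A := A)) := by
  intro e e' h
  ext m
  have := congrArg (fun f => Additive.toMul (f (Additive.ofMul m))) h
  exact this

theorem zmod2_eq_one : ∀ x : ZMod 2, x ≠ 0 → x = 1 := by decide

theorem exists_injective_matrix [Finite A] (hexp : ∀ a : A, a ^ 2 = 1)
    (hcard : Nat.card A ≤ 16) :
    ∃ ρ : MulAut A →* Matrix (Fin 4) (Fin 4) (ZMod 2), Function.Injective ρ := by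
  classical
  have hexp' : ∀ a : Additive A, 2 • a = 0 := fun a => by
    have := hexp (Additive.toMul a)
    exact congrArg Additive.ofMul this
  letI : Module (ZMod 2) (Additive A) := AddCommGroup.zmodModule hexp'
  haveI : Finite (Additive A) := ‹Finite A›
  haveI : Module.Finite (ZMod 2) (Additive A) := Module.Finite.of_finite
  obtain ⟨d, hd⟩ : ∃ d : ℕ, d = Module.finrank (ZMod 2) (Additive A) := ⟨_, rfl⟩
  have hc : Nat.card (Additive A) = 2 ^ d := by
    have := Module.natCard_eq_pow_finrank (K := ZMod 2) (V := Additive A)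
    rw [Nat.card_zmod] at this
    rw [hd]; exact this
  have hd4 : d ≤ 4 := by
    have h1 : 2 ^ d ≤ 2 ^ 4 := by rw [← hc]; exact hcard
    exact (Nat.pow_le_pow_iff_right (by norm_num)).mp h1
  have hfr : Module.finrank (ZMod 2) (Additive A × (Fin (4 - d) → ZMod 2)) =
      Module.finrank (ZMod 2) (Fin 4 → ZMod 2) := by
    rw [Module.finrank_prod, Module.finrank_fin_fun, Module.finrank_fin_fun, ← hd]; omega
  obtain ⟨e⟩ : Nonempty ((Additive A × (Fin (4 - d) → ZMod 2)) ≃ₗ[ZMod 2] (Fin 4 → ZMod 2)) :=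
    ⟨LinearEquiv.ofFinrankEq _ _ hfr⟩
  let P : Module.End (ZMod 2) (Additive A) →*
      Module.End (ZMod 2) (Additive A × (Fin (4 - d) → ZMod 2)) :=
    { toFun := fun f => f.prodMap 1
      map_one' := LinearMap.prodMap_one
      map_mul' := fun f g => by rw [LinearMap.prodMap_mul, mul_one] }
  have hP : Function.Injective P := by
    intro f g h
    apply LinearMap.ext
    intro v
    have := congrArg (fun F : Module.End (ZMod 2) (Additive A × (Fin (4 - d) → ZMod 2)) =>
      (F (v, 0)).1) h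
    exact this
  refine ⟨((LinearMap.toMatrixAlgEquiv' (R := ZMod 2) (n := Fin 4)).toRingEquiv.toMonoidHom.comp
    (e.conjRingEquiv.toMonoidHom.comp (P.comp linAut))), ?_⟩
  exact ((LinearMap.toMatrixAlgEquiv' (R := ZMod 2) (n := Fin 4)).toRingEquiv.injective.comp
    (e.conjRingEquiv.injective.comp (hP.comp linAut_injective)))

theorem exists_injective_SL [Finite A] (hexp : ∀ a : A, a ^ 2 = 1) (hcard : Nat.card A ≤ 16) :
    ∃ σ : MulAut A →* Matrix.SpecialLinearGroup (Fin 4) (ZMod 2), Function.Injective σ := by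
  obtain ⟨ρ, hρ⟩ := exists_injective_matrix hexp hcard
  have hdet : ∀ g, (ρ g).det = 1 := by
    intro g
    apply zmod2_eq_one
    intro h0
    have h1 : ρ g * ρ g⁻¹ = 1 := by rw [← map_mul, mul_inv_cancel, map_one]
    have h2 := congrArg Matrix.det h1
    rw [Matrix.det_mul, h0, zero_mul, Matrix.det_one] at h2
    exact zero_ne_one h2
  refine ⟨MonoidHom.mk' (fun g => ⟨ρ g, hdet g⟩) (fun a b => Subtype.ext (map_mul ρ a b)), ?_⟩
  intro a b h
  apply hρ
  exact congrArg Subtype.val h

theorem center_SL42 : Subgroup.center (Matrix.SpecialLinearGroup (Fin 4) (ZMod 2)) = ⊥ := by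
  rw [eq_bot_iff]
  intro g hg
  rw [Matrix.SpecialLinearGroup.mem_center_iff] at hg
  obtain ⟨r, hr, hrg⟩ := hg
  have hr1 : r = 1 := by
    apply zmod2_eq_one
    rintro rfl
    simp at hr
  rw [Subgroup.mem_bot]
  apply Subtype.ext
  rw [← hrg, hr1, map_one]
  rfl

theorem exists_injective_A8 [Finite A] (hexp : ∀ a : A, a ^ 2 = 1) (hcard : Nat.card A ≤ 16) :
    ∃ f : MulAut A →* ↥(alternatingGroup (Fin 8)), Function.Injective f := by
  obtain ⟨σ, hσ⟩ := exists_injective_SL hexp hcard
  obtain ⟨e⟩ := Cfsg.Agent.S0256.result (F := ZMod 2) (ZMod.card 2)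
  have hq : Function.Injective
      (QuotientGroup.mk' (Subgroup.center (Matrix.SpecialLinearGroup (Fin 4) (ZMod 2)))) := by
    rw [← MonoidHom.ker_eq_bot_iff, QuotientGroup.ker_mk', center_SL42]
  exact ⟨(e.toMonoidHom.comp (QuotientGroup.mk' _)).comp σ, (e.injective.comp hq).comp hσ⟩

end generic

section main

variable {X : Type*} [Group X] [Finite X]

/-- An element acting trivially on `O_p(X) / Φ(O_p(X))` lies in `O_p(X)`, when
`C_X(O_p(X)) ≤ O_p(X)`. -/
theorem mem_pCore_of_trivial (p : ℕ) [Fact p.Prime]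
    (hchar : Subgroup.centralizer (pCore p X : Set X) ≤ pCore p X) (h : X)
    (hh : ∀ k ∈ pCore p X, h * k * h⁻¹ * k⁻¹ ∈
      (frattini ↥(pCore p X)).map (pCore p X).subtype) :
    h ∈ pCore p X := by
  have hp : p.Prime := Fact.out
  haveI hΦn : ((frattini ↥(pCore p X)).map (pCore p X).subtype).Normal :=
    ConjAct.normal_of_characteristic_of_normal
  have hCn : (Helper55.commCentralizer (pCore p X)
      ((frattini ↥(pCore p X)).map (pCore p X).subtype)).Normal :=
    Helper55.commCentralizer_normal _ _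
  have hPp : IsPGroup p (pCore p X) := H80.pCore_isPGroup p X
  have hCp : IsPGroup p (Helper55.commCentralizer (pCore p X)
      ((frattini ↥(pCore p X)).map (pCore p X).subtype)) := by
    rintro ⟨x, hx⟩
    obtain ⟨a, m, hpm, hxm⟩ := Nat.exists_eq_pow_mul_and_not_dvd (orderOf_pos x).ne' p hp.ne_one
    refine ⟨a, ?_⟩
    apply Subtype.ext
    rw [Subgroup.coe_pow]
    show x ^ p ^ a = 1
    have hym : (x ^ p ^ a) ^ m = 1 := by
      rw [← pow_mul, ← hxm]; exact pow_orderOf_eq_one x
    have hyC : x ^ p ^ a ∈ Helper55.commCentralizer (pCore p X)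
        ((frattini ↥(pCore p X)).map (pCore p X).subtype) := Subgroup.pow_mem _ hx _
    have hAC : Subgroup.zpowers (x ^ p ^ a) ≤ Helper55.commCentralizer (pCore p X)
        ((frattini ↥(pCore p X)).map (pCore p X).subtype) := by
      rw [Subgroup.zpowers_le]; exact hyC
    have hAK : Subgroup.zpowers (x ^ p ^ a) ≤
        Subgroup.normalizer ((pCore p X : Subgroup X) : Set X) := by
      rw [Subgroup.normalizer_eq_top]; exact le_top
    have hmcop : m.Coprime p := (Nat.Coprime.symm ((Nat.Prime.coprime_iff_not_dvd hp).mpr hpm))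
    have hcop : (Nat.card (Subgroup.zpowers (x ^ p ^ a))).Coprime
        (Nat.card (frattini ↥(pCore p X))) := by
      rw [Nat.card_zpowers]
      have h1 : orderOf (x ^ p ^ a) ∣ m := orderOf_dvd_of_pow_eq_one hym
      have h2 : IsPGroup p (frattini ↥(pCore p X)) := hPp.to_subgroup _
      obtain ⟨k, hk⟩ := IsPGroup.iff_card.mp h2
      rw [hk]
      exact Nat.Coprime.pow_right k (Nat.Coprime.coprime_dvd_left h1 hmcop)
    have hcent := H1.centralizer_of_trivial_on_frattini_quotient
      (Subgroup.zpowers (x ^ p ^ a)) (pCore p X) hAK hcop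
      (fun b hb k hk => hAC hb k hk)
    have hyP : x ^ p ^ a ∈ pCore p X := hchar (hcent (Subgroup.mem_zpowers _))
    obtain ⟨k, hk⟩ := hPp ⟨x ^ p ^ a, hyP⟩
    have hk' : (x ^ p ^ a) ^ p ^ k = 1 := by
      have := congrArg Subtype.val hk
      simpa using this
    have hg : (x ^ p ^ a) ^ (Nat.gcd (p ^ k) m) = 1 := pow_gcd_eq_one.mpr ⟨hk', hym⟩
    have hgcd : Nat.gcd (p ^ k) m = 1 := Nat.Coprime.pow_left k hmcop.symm
    rw [hgcd, pow_one] at hg
    exact hg
  exact H80.le_pCore p _ hCn hCp hh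

/-- The generic embedding for a (not necessarily commutative a priori) group of exponent `2`. -/
theorem exists_injective_A8' {A : Type*} [Group A] [Finite A] (hexp : ∀ a : A, a ^ 2 = 1)
    (hcard : Nat.card A ≤ 16) :
    ∃ f : MulAut A →* ↥(alternatingGroup (Fin 8)), Function.Injective f := by
  have hcomm : ∀ a b : A, a * b = b * a := by
    intro a b
    have h1 := hexp (a * b)
    have h2 := hexp a
    have h3 := hexp b
    rw [pow_two] at h1 h2 h3
    calc a * b = a * (a * b * (a * b)) * b := by rw [h1, mul_one]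
      _ = (a * a) * b * a * (b * b) := by group
      _ = b * a := by rw [h2, h3, one_mul, mul_one]
  letI : CommGroup A := { ‹Group A› with mul_comm := hcomm }
  exact exists_injective_A8 hexp hcard

theorem quotient_pCore_embeds
    (hchar : Subgroup.centralizer (pCore 2 X : Set X) ≤ pCore 2 X)
    (h4 : SectionalPRankLE 2 4 ↥(pCore 2 X)) :
    ∃ f : X ⧸ pCore 2 X →* ↥(alternatingGroup (Fin 8)), Function.Injective f := by
  classical
  have hQp : IsPGroup 2 (pCore 2 X) := H80.pCore_isPGroup 2 X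
  obtain ⟨Φ, hΦ⟩ : ∃ Φ : Subgroup X, Φ = (frattini ↥(pCore 2 X)).map (pCore 2 X).subtype :=
    ⟨_, rfl⟩
  haveI hΦn : Φ.Normal := by
    rw [hΦ]; exact ConjAct.normal_of_characteristic_of_normal
  obtain ⟨A, hA⟩ : ∃ A : Subgroup (X ⧸ Φ), A = (pCore 2 X).map (QuotientGroup.mk' Φ) := ⟨_, rfl⟩
  haveI hAn : A.Normal := by
    rw [hA]; exact Subgroup.Normal.map inferInstance _ (QuotientGroup.mk'_surjective Φ)
  have hcommΦ : ∀ g, (∀ a ∈ pCore 2 X, g * a * g⁻¹ * a⁻¹ ∈ Φ) ↔
      ∀ b ∈ A, QuotientGroup.mk' Φ g * b * (QuotientGroup.mk' Φ g)⁻¹ = b := by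
    intro g
    constructor
    · intro h b hb
      rw [hA] at hb
      obtain ⟨a, ha, rfl⟩ := hb
      rw [← map_inv, ← map_mul, ← map_mul]
      have h1 := (QuotientGroup.eq_one_iff (N := Φ) _).mpr (h a ha)
      rw [← mul_inv_eq_one, ← map_inv, ← map_mul]
      exact h1
    · intro h a ha
      have h1 := h (QuotientGroup.mk' Φ a) (by rw [hA]; exact Subgroup.mem_map_of_mem _ ha)
      rw [← mul_inv_eq_one, ← map_inv, ← map_mul, ← map_mul, ← map_inv, ← map_mul] at h1
      exact (QuotientGroup.eq_one_iff (N := Φ) _).mp h1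
  have hcommP : ∀ g ∈ pCore 2 X, ∀ a ∈ pCore 2 X, g * a * g⁻¹ * a⁻¹ ∈ Φ := by
    intro g hg a ha
    rw [hΦ]
    refine ⟨⁅(⟨g, hg⟩ : ↥(pCore 2 X)), (⟨a, ha⟩ : ↥(pCore 2 X))⁆, ?_, ?_⟩
    · exact H3.commutator_le_frattini hQp
        (Subgroup.commutator_mem_commutator (Subgroup.mem_top _) (Subgroup.mem_top _))
    · simp [commutatorElement_def]
  have hAe : ∀ a : ↥A, a ^ 2 = 1 := by
    rintro ⟨a, ha⟩
    apply Subtype.ext
    rw [Subgroup.coe_pow]
    show a ^ 2 = 1
    rw [hA] at ha
    obtain ⟨g, hg, rfl⟩ := ha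
    rw [← map_pow]
    apply (QuotientGroup.eq_one_iff (N := Φ) _).mpr
    rw [hΦ]
    exact ⟨(⟨g, hg⟩ : ↥(pCore 2 X)) ^ 2, H3.pow_mem_frattini hQp _, rfl⟩
  -- the order of `A`
  have hcardA : Nat.card ↥A ≤ 16 := by
    let g : ↥(pCore 2 X) →* ↥A :=
      ((QuotientGroup.mk' Φ).comp (pCore 2 X).subtype).codRestrict A
        (fun x => by rw [hA]; exact Subgroup.mem_map_of_mem _ x.2)
    have hg : ∀ x : ↥(pCore 2 X), ((g x : ↥A) : X ⧸ Φ) = QuotientGroup.mk' Φ (x : X) :=
      fun x => rfl
    have hsurj : Function.Surjective g := by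
      rintro ⟨b, hb⟩
      have hb' := hb
      rw [hA] at hb'
      obtain ⟨a, ha, rfl⟩ := hb'
      exact ⟨⟨a, ha⟩, Subtype.ext rfl⟩
    have hker : g.ker = frattini ↥(pCore 2 X) := by
      ext x
      rw [MonoidHom.mem_ker]
      constructor
      · intro hx
        have h1 : QuotientGroup.mk' Φ (x : X) = 1 := by
          rw [← hg, hx]; rfl
        have h2 := (QuotientGroup.eq_one_iff (N := Φ) _).mp h1
        rw [hΦ] at h2
        obtain ⟨y, hy, hyx⟩ := h2
        have : y = x := Subtype.ext hyx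
        rw [← this]; exact hy
      · intro hx
        apply Subtype.ext
        rw [hg]
        apply (QuotientGroup.eq_one_iff (N := Φ) _).mpr
        rw [hΦ]
        exact ⟨x, hx, rfl⟩
    have e := QuotientGroup.quotientKerEquivOfSurjective g hsurj
    have h1 : Nat.card ↥A = Nat.card (↥(pCore 2 X) ⧸ g.ker) := (Nat.card_congr e.toEquiv).symm
    have h2 := Subgroup.card_eq_card_quotient_mul_card_subgroup g.ker
    rw [← h1, hker] at h2
    have h3 := H3.secBound_of_sectional h4 ⊤ (frattini ↥(pCore 2 X)) le_top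
      (fun h _ n hn => (inferInstance : (frattini ↥(pCore 2 X)).Normal).conj_mem n hn h)
      (fun x _ => H3.pow_mem_frattini hQp x)
      (fun x _ y _ => by
        have := H3.commutator_le_frattini hQp
          (Subgroup.commutator_mem_commutator (Subgroup.mem_top x) (Subgroup.mem_top y))
        rw [commutatorElement_def] at this
        exact this)
    rw [Subgroup.card_top, h2] at h3
    have hpos : 0 < Nat.card (frattini ↥(pCore 2 X)) := Nat.card_pos
    have h16 : (2 : ℕ) ^ 4 = 16 := by norm_num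
    rw [h16] at h3
    exact Nat.le_of_mul_le_mul_right h3 hpos
  obtain ⟨f, hf⟩ := exists_injective_A8' hAe hcardA
  obtain ⟨c, hc⟩ : ∃ c : (X ⧸ Φ) →* MulAut ↥A, c = MulAut.conjNormal := ⟨_, rfl⟩
  have hc1 : ∀ e, c e = 1 ↔ ∀ b ∈ A, e * b * e⁻¹ = b := by
    intro e
    rw [hc]
    constructor
    · intro h b hb
      have h1 := congrArg (fun f : MulAut ↥A => ((f ⟨b, hb⟩ : ↥A) : X ⧸ Φ)) h
      simp only [MulAut.conjNormal_apply, MulAut.one_apply] at h1
      exact h1
    · intro h
      ext b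
      rw [MulAut.conjNormal_apply, MulAut.one_apply]
      exact h b b.2
  obtain ⟨θ, hθ⟩ : ∃ θ : X →* ↥(alternatingGroup (Fin 8)),
      θ = f.comp (c.comp (QuotientGroup.mk' Φ)) := ⟨_, rfl⟩
  have hker : pCore 2 X = θ.ker := by
    ext x
    rw [MonoidHom.mem_ker, hθ]
    show _ ↔ f (c (QuotientGroup.mk' Φ x)) = 1
    rw [← map_one f, hf.eq_iff, hc1, ← hcommΦ]
    constructor
    · intro hx; exact hcommP x hx
    · intro hx
      apply mem_pCore_of_trivial 2 hchar x
      rw [← hΦ]; exact hx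
  exact ⟨(QuotientGroup.kerLift θ).comp (QuotientGroup.quotientMulEquivOfEq hker).toMonoidHom,
    (QuotientGroup.kerLift_injective θ).comp (MulEquiv.injective _)⟩

end main

end Cfsg.Agent.H28.EmbA8
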