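import Mathlib
import Cfsg.Agent.H86.GsDefs

set_option autoImplicit false

/-!
# GS-ADD (S5665 team project, helper86)

An additive subgroup of a finite field of odd characteristic containing all `C / (t² + δ)`
is everything: the map `t ↦ C / (t² + δ)` has fibres of size at most two, so the subgroup has
at least `q / 2` elements, while a proper subgroup has index at least three (`q` is odd).
-/

namespace Cfsg.Agent.H28.Gs

universe u

theorem gsAdd : Cfsg.Agent.H86.Gs.StAdd.{u} := by
  intro F _ _ h2 δ C hirr hC S hS
  classical
  by_contra hne
  have hq : Nat.card S * S.index = Nat.card F := S.card_mul_index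
  have hodd : Odd (Fintype.card F) := by
    apply Nat.odd_iff.mpr
    apply FiniteField.odd_card_of_char_ne_two
    intro h
    haveI : CharP F 2 := ringChar.of_eq h
    exact h2 (by exact_mod_cast CharP.cast_eq_zero F 2)
  have hidx1 : S.index ≠ 1 := fun h => hne (AddSubgroup.index_eq_one.mp h)
  have hidx0 : S.index ≠ 0 := AddSubgroup.index_ne_zero_of_finite
  have hidxodd : Odd S.index := by
    have hd : S.index ∣ Fintype.card F := by
      rw [← Nat.card_eq_fintype_card]; exact S.index_dvd_card
    exact Odd.of_dvd_nat hodd hd
  have hidx3 : 3 ≤ S.index := by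
    rcases hidxodd with ⟨k, hk⟩
    omega
  have hSpos : 0 < Nat.card S := Nat.card_pos
  have himg : Fintype.card F
      ≤ 2 * (Finset.univ.image (fun t : F => C / (t * t + δ))).card := by
    rw [← Finset.card_univ]
    apply Finset.card_le_mul_card_image
    intro a ha
    obtain ⟨t, -, rfl⟩ := Finset.mem_image.mp ha
    have hsub : (Finset.univ.filter (fun x : F => C / (x * x + δ) = C / (t * t + δ)))
        ⊆ {t, -t} := by
      intro x hx
      simp only [Finset.mem_filter, Finset.mem_univ, true_and] at hx
      have h1 : x * x + δ = t * t + δ := by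
        rw [div_eq_div_iff (hirr x) (hirr t)] at hx
        exact (mul_left_cancel₀ hC hx).symm
      have h2' : (x - t) * (x + t) = 0 := by linear_combination h1
      rcases mul_eq_zero.mp h2' with h | h
      · simp [sub_eq_zero.mp h]
      · simp [eq_neg_of_add_eq_zero_left h]
    exact (Finset.card_le_card hsub).trans Finset.card_le_two
  have hle : (Finset.univ.image (fun t : F => C / (t * t + δ))).card ≤ Nat.card S := by
    have hsub : ((Finset.univ.image (fun t : F => C / (t * t + δ)) : Finset F) : Set F)
        ⊆ (S : Set F) := by
      intro x hx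
      obtain ⟨t, -, rfl⟩ := Finset.mem_image.mp (Finset.mem_coe.mp hx)
      exact hS t
    have h3 := Set.ncard_le_ncard hsub (Set.toFinite _)
    rw [Set.ncard_coe_finset] at h3
    exact h3.trans (le_of_eq (Nat.card_coe_set_eq _).symm)
  rw [Nat.card_eq_fintype_card (α := F)] at hq
  nlinarith

example : Cfsg.Agent.H86.Gs.StAdd.{u} := gsAdd

end Cfsg.Agent.H28.Gs

#print axioms Cfsg.Agent.H28.Gs.gsAdd
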