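import Mathlib
import Cfsg.Agent.H86.GsDefs
import Cfsg.Agent.H17.SpBlock

set_option autoImplicit false

/-!
# GS-SPAN (S5665 team project, helper86)

If `v` is orthogonal to every good vector that is `K`-orthogonal to `u`, then
`v ∈ span {u, J u}`: by GS-GOOD, `v` is orthogonal to the whole orthogonal complement of
`W = span {u, J u}`, and `W^⊥⊥ = W` for the nondegenerate symplectic form.
-/

namespace Cfsg.Agent.H28.Gs

open Cfsg Cfsg.Geo Cfsg.Agent.H95 Cfsg.Agent.H86.Gs
open scoped MatrixGroups Matrix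

universe u

theorem gsSpan (hGood : Cfsg.Agent.H86.Gs.StGood.{u}) : Cfsg.Agent.H86.Gs.StSpan.{u} := by
  intro m F _ J δ C hm u v hv
  classical
  have h1 : ∀ y : V m F, sympForm m F y u = 0 → sympForm m F y (J *ᵥ u) = 0 →
      sympForm m F v y = 0 := by
    intro y hy1 hy2
    obtain ⟨y₁, y₂, hg1, hg2, h11, h12, h21, h22, rfl⟩ := hGood J δ C hm u y hy1 hy2
    have e1 : sympForm m F v y₁ = 0 := by
      apply hv y₁ hg1
      · rw [sympForm_skew, h11, neg_zero]
      · rw [C.skew', sympForm_skew, h12, neg_zero, neg_zero]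
    have e2 : sympForm m F v y₂ = 0 := by
      apply hv y₂ hg2
      · rw [sympForm_skew, h21, neg_zero]
      · rw [C.skew', sympForm_skew, h22, neg_zero, neg_zero]
    rw [sympForm_add_right, e1, e2, add_zero]
  have hB : (Cfsg.Agent.H17.sympBilin m F).Nondegenerate :=
    Cfsg.Agent.H17.sympBilin_nondegenerate m
  have hR : (Cfsg.Agent.H17.sympBilin m F).IsRefl :=
    (Cfsg.Agent.H17.sympBilin_isAlt m).isRefl
  have hW : v ∈ (Cfsg.Agent.H17.sympBilin m F).orthogonal
      ((Cfsg.Agent.H17.sympBilin m F).orthogonal (Submodule.span F {u, J *ᵥ u})) := by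
    rw [LinearMap.BilinForm.mem_orthogonal_iff]
    intro y hy
    rw [LinearMap.BilinForm.mem_orthogonal_iff] at hy
    have hyu : Cfsg.Agent.H17.sympBilin m F u y = 0 :=
      hy u (Submodule.subset_span (by simp))
    have hyJ : Cfsg.Agent.H17.sympBilin m F (J *ᵥ u) y = 0 :=
      hy _ (Submodule.subset_span (by simp))
    rw [Cfsg.Agent.H17.sympBilin_apply] at hyu hyJ
    show Cfsg.Agent.H17.sympBilin m F y v = 0
    rw [Cfsg.Agent.H17.sympBilin_apply, sympForm_skew, h1 y ?_ ?_, neg_zero]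
    · rw [sympForm_skew, hyu, neg_zero]
    · rw [sympForm_skew, hyJ, neg_zero]
  rw [LinearMap.BilinForm.orthogonal_orthogonal hB hR] at hW
  obtain ⟨a, b, h⟩ := Submodule.mem_span_pair.mp hW
  exact ⟨a, b, h.symm⟩

example (hGood : Cfsg.Agent.H86.Gs.StGood.{u}) : Cfsg.Agent.H86.Gs.StSpan.{u} := gsSpan hGood

end Cfsg.Agent.H28.Gs

#print axioms Cfsg.Agent.H28.Gs.gsSpan
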