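import Cfsg.Agent.H96.GuDefs

set_option autoImplicit false

/-!
# GU-PROP (helper28, for helper96 / S5700): propagation of `PH`

`HasTau M`, `u ≠ 0` singular with `PH u` ⟹ `PH v` for every nonzero singular `v`: take `e`
singular, hermitian-orthogonal to `u` and `v`, outside `span {u, J u, v, J v}` (GU-SNM); then
`e ∈ D_u`, `u ∈ D_e`, `PH e` (GU-HPERP), `v ∈ D_e`, `e ∈ D_v`, `PH v` (GU-HPERP).
-/

namespace Cfsg.Agent.H28.Gu

open Module Matrix Cfsg.Agent.H49 Cfsg.Agent.H95 Cfsg.Agent.H96.Gu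

universe u

theorem prop (hSNM : StSNM.{u}) (hH : StHperp.{u}) : StProp.{u} := by
  intro ι _ _ F _ _ Q J t N C M hTau u hu0 hu hPHu v hv0 hv
  obtain ⟨e, he, heu, hev, hne⟩ := hSNM Q J t N C u v
  have he0 : e ≠ 0 := by
    intro h
    apply hne 0 0 0 0
    rw [h]
    simp
  have h1 : eichDir Q M u e := hPHu e heu
  have h2 : eichDir Q M e u := eichDir_symm Q M u e hu he h1
  have hnotK : ¬ inK J e u := by
    rintro ⟨a, b, hab⟩
    have hJu : J u = (a + b * t) • J e - (b * N) • e := by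
      rw [hab, map_add, map_smul, map_smul, C.sq]
      module
    have hδ : a * a - t * a * (-b) + N * (-b) * (-b) ≠ 0 := by
      apply C.norm_ne
      rintro ⟨ha, hb⟩
      apply hu0
      rw [hab, ha, neg_eq_zero.mp hb]
      simp
    have hcomb : (a + b * t) • u - b • J u
        = (a * a - t * a * (-b) + N * (-b) * (-b)) • e := by
      rw [hJu, hab]
      module
    have hthis : e = (a * a - t * a * (-b) + N * (-b) * (-b))⁻¹ •
        ((a + b * t) • u - b • J u) := by
      rw [hcomb, smul_smul, inv_mul_cancel₀ hδ, one_smul]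
    apply hne ((a * a - t * a * (-b) + N * (-b) * (-b))⁻¹ * (a + b * t))
      (-((a * a - t * a * (-b) + N * (-b) * (-b))⁻¹ * b)) 0 0
    exact hthis.trans (by module)
  have hPHe : PH Q J M e := hH Q J t N C M hTau e u he0 he hu h2 (hp_symm C heu) hnotK
  have h3 : eichDir Q M e v := hPHe v (hp_symm C hev)
  have h4 : eichDir Q M v e := eichDir_symm Q M e v he hv h3
  have hnotK' : ¬ inK J v e := by
    rintro ⟨a, b, hab⟩
    apply hne 0 0 a b
    rw [hab]
    simp
  exact hH Q J t N C M hTau v e hv0 hv he h4 hev hnotK'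

end Cfsg.Agent.H28.Gu

universe u in
example (hSNM : Cfsg.Agent.H96.Gu.StSNM.{u}) (hH : Cfsg.Agent.H96.Gu.StHperp.{u}) :
    Cfsg.Agent.H96.Gu.StProp.{u} := Cfsg.Agent.H28.Gu.prop hSNM hH

#print axioms Cfsg.Agent.H28.Gu.prop
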