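import Cfsg.Agent.H96.GuDefs

set_option autoImplicit false

/-!
# GU-V (helper28, for helper96 / S5700)

If every nonzero singular `v` has `PH v` and the Eichler directions `y` at `v` all satisfy
`B v (J y) = 0`, then every `m ∈ M` normalises `F[J]`: for singular `z ≠ 0`, `act m (J z)` is
orthogonal to the hermitian perp of `u = act m z`, hence lies in `span {u, J u}` (double
orthogonal complement), and GU-FT applies.
-/

namespace Cfsg.Agent.H28.Gu

open Module Matrix Cfsg.Agent.H49 Cfsg.Agent.H95 Cfsg.Agent.H96.Gu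

universe u

theorem v (hFT : StFT.{u}) : StV.{u} := by
  intro ι _ _ F _ _ Q J t N C M hTau hPH hB m hm
  apply hFT Q J t N C m
  intro z hz
  by_cases hz0 : z = 0
  · refine ⟨0, 0, ?_⟩
    rw [hz0, map_zero, act_zero]
    simp
  have hu0 : act m z ≠ 0 := act_ne_zero m hz0
  have hu : Q (act m z) = 0 := by
    rw [Q_act]
    exact hz
  have key : ∀ x' : ι → F, hp Q J x' (act m z) →
      QuadraticMap.polar (⇑Q) (act m (J z)) x' = 0 := by
    intro x' hx'
    have h1 : eichDir Q M (act m z) x' := hPH (act m z) hu0 hu x' hx'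
    have h2 := eichDir_conj Q M (act m z) x' (M.inv_mem hm) h1
    rw [act_inv_act] at h2
    have h3 : QuadraticMap.polar (⇑Q) z (act m⁻¹ x') = 0 := h2.1
    have h4 : QuadraticMap.polar (⇑Q) z (J (act m⁻¹ x')) = 0 :=
      hB z (act m⁻¹ x') hz0 hz h2
    rw [polar_act_left, C.adj, h3, h4]
    ring
  have hmem : act m (J z) ∈ Submodule.span F ({act m z, J (act m z)} : Set (ι → F)) := by
    rw [← LinearMap.BilinForm.orthogonal_orthogonal C.nd (polarBilin_isRefl Q)
      (Submodule.span F ({act m z, J (act m z)} : Set (ι → F)))]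
    rw [LinearMap.BilinForm.mem_orthogonal_iff]
    intro n hn
    have hn' := LinearMap.BilinForm.mem_orthogonal_iff.mp hn
    have e1 : QuadraticMap.polar (⇑Q) (act m z) n = 0 :=
      hn' (act m z) (Submodule.subset_span (by simp))
    have e2 : QuadraticMap.polar (⇑Q) (J (act m z)) n = 0 :=
      hn' (J (act m z)) (Submodule.subset_span (by simp))
    have e3 : hp Q J n (act m z) :=
      ⟨by rw [QuadraticMap.polar_comm]; exact e1, by rw [QuadraticMap.polar_comm]; exact e2⟩
    show QuadraticMap.polar (⇑Q) n (act m (J z)) = 0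
    rw [QuadraticMap.polar_comm]
    exact key n e3
  obtain ⟨a, b, hab⟩ := Submodule.mem_span_pair.mp hmem
  exact ⟨a, b, hab.symm⟩

end Cfsg.Agent.H28.Gu

universe u in
example (hFT : Cfsg.Agent.H96.Gu.StFT.{u}) : Cfsg.Agent.H96.Gu.StV.{u} :=
  Cfsg.Agent.H28.Gu.v hFT

#print axioms Cfsg.Agent.H28.Gu.v
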