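import Mathlib
import Cfsg.Agent.H79.HcDefs
import Cfsg.Agent.H80.PSolvable
import Cfsg.Agent.H80.SolvPSolv
import Cfsg.Agent.H14.PSolv

/-!
# S4440-P22 (helper28): the quotient of the central extension by the kernel of `ν`
-/

set_option autoImplicit false

namespace Cfsg.Agent.H28.Hc

open Cfsg Cfsg.Agent.H79.Hc

universe u

/-- **S4440-P22.** -/
theorem stmtGroupGamma (p : ℕ) [Fact p.Prime] : StmtGroupGamma.{u} p := by
  intro G _ _ K hKn θ Ĝ _ _ π θt ν L _ hCE hsolv hK hL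
  have hp : p.Prime := Fact.out
  have hKc : (Nat.card K).Coprime p := by
    rw [hK]
    exact Cfsg.Agent.H80.pPrimeCore_coprime p G
  -- subgroups of `π⁻¹(K)` have order prime to `p`
  have hcop : ∀ H : Subgroup Ĝ, H ≤ K.comap π → (Nat.card H).Coprime p := by
    intro H hH
    rw [Nat.coprime_comm, Nat.Prime.coprime_iff_not_dvd hp]
    intro hdvd
    obtain ⟨x, hx⟩ := exists_prime_orderOf_dvd_card' p hdvd
    have hy : orderOf (x : Ĝ) = p := by rw [Subgroup.orderOf_coe, hx]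
    have hπ : π (x : Ĝ) ∈ K := hH x.2
    have h1 : (π (x : Ĝ)) ^ Nat.card K = 1 := by
      have h0 : (⟨π (x : Ĝ), hπ⟩ : K) ^ Nat.card K = 1 := pow_card_eq_one'
      exact congrArg Subtype.val h0
    have h2 : (x : Ĝ) ^ Nat.card K ∈ π.ker := by
      rw [MonoidHom.mem_ker, map_pow, h1]
    have h3 := hCE.ker_exp _ h2
    rw [← pow_mul] at h3
    have h4 : p ∣ Nat.card K * Nat.card K := by
      rw [← hy]
      exact orderOf_dvd_of_pow_eq_one h3
    have h5 : p ∣ Nat.card K := ((Nat.Prime.dvd_mul hp).1 h4).elim id id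
    exact (Nat.Prime.coprime_iff_not_dvd hp).1 hKc.symm h5
  -- `Ĝ` is `p`-solvable
  have hker : π.ker ≤ K.comap π := by
    intro z hz
    rw [Subgroup.mem_comap, MonoidHom.mem_ker.1 hz]
    exact K.one_mem
  have hsolvQ : IsPSolvable p (Ĝ ⧸ π.ker) :=
    Cfsg.Agent.H14.isPSolvable_of_surjective p
      (QuotientGroup.quotientKerEquivOfSurjective π hCE.surj).symm.toMonoidHom
      (MulEquiv.surjective _) hsolv
  have hsolvĜ : IsPSolvable p Ĝ :=
    Cfsg.Agent.H80.isPSolvable_of_normal p π.ker (Or.inr (hcop _ hker)) hsolvQ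
  have hsolvΓ : IsPSolvable p (Ĝ ⧸ L) := Cfsg.Agent.H80.isPSolvable_quotient p L hsolvĜ
  have hLK : L ≤ K.comap π := fun x hx => ((hL x).1 hx).1
  -- `ν 1 = 1`
  have hν1 : ν 1 = 1 := by
    have h1 : π (1 : Ĝ) ∈ K := by
      rw [map_one]
      exact K.one_mem
    have h2 := hCE.nu_mul 1 1 h1 h1
    rw [mul_one] at h2
    have h3 := hCE.nu_ne 1 h1
    have h4 : 1 * ν 1 = ν 1 * ν 1 := by rw [one_mul]; exact h2
    exact (mul_right_cancel₀ h3 h4).symm
  -- the image of `π⁻¹(K)` is central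
  have hcentral : (K.comap π).map (QuotientGroup.mk' L) ≤ Subgroup.center (Ĝ ⧸ L) := by
    rintro _ ⟨x, hx, rfl⟩
    rw [Subgroup.mem_center_iff]
    intro g
    obtain ⟨y, rfl⟩ := QuotientGroup.mk'_surjective L g
    have hxK : π x ∈ K := hx
    have hconjK : π (y * x * y⁻¹) ∈ K := by
      rw [map_mul, map_mul, map_inv]
      exact hKn.conj_mem _ hxK _
    have hinvK : π x⁻¹ ∈ K := by
      rw [map_inv]
      exact K.inv_mem hxK
    have hmem : y * x * y⁻¹ * x⁻¹ ∈ L := by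
      rw [hL]
      refine ⟨?_, ?_⟩
      · rw [map_mul]
        exact K.mul_mem hconjK hinvK
      · rw [hCE.nu_mul _ _ hconjK hinvK, hCE.nu_conj x y hxK, ← hCE.nu_mul _ _ hxK hinvK,
          mul_inv_cancel, hν1]
    have h1 : (QuotientGroup.mk' L) (y * x * y⁻¹ * x⁻¹) = 1 :=
      (QuotientGroup.eq_one_iff _).2 hmem
    rw [map_mul, map_mul, map_mul, map_inv, map_inv] at h1
    calc (QuotientGroup.mk' L) y * (QuotientGroup.mk' L) x
        = ((QuotientGroup.mk' L) y * (QuotientGroup.mk' L) x * ((QuotientGroup.mk' L) y)⁻¹ *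
            ((QuotientGroup.mk' L) x)⁻¹) *
            ((QuotientGroup.mk' L) x * (QuotientGroup.mk' L) y) := by group
      _ = (QuotientGroup.mk' L) x * (QuotientGroup.mk' L) y := by rw [h1, one_mul]
  -- `O_{p'}` of the quotient lies in the image of `π⁻¹(K)`
  have hTle : pPrimeCore p (Ĝ ⧸ L) ≤ (K.comap π).map (QuotientGroup.mk' L) := by
    have hTn : (pPrimeCore p (Ĝ ⧸ L)).Normal := Cfsg.Agent.H80.pPrimeCore_normal p _
    have hTc : (Nat.card (pPrimeCore p (Ĝ ⧸ L))).Coprime p :=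
      Cfsg.Agent.H80.pPrimeCore_coprime p _
    have hcard : Nat.card ((pPrimeCore p (Ĝ ⧸ L)).comap (QuotientGroup.mk' L)) =
        Nat.card L * Nat.card (pPrimeCore p (Ĝ ⧸ L)) := Cfsg.Agent.H80.card_comap_mk' L _
    have hTc' : (Nat.card ((pPrimeCore p (Ĝ ⧸ L)).comap (QuotientGroup.mk' L))).Coprime p := by
      rw [hcard]
      exact Nat.Coprime.mul_left (hcop L hLK) hTc
    have hmapn : (((pPrimeCore p (Ĝ ⧸ L)).comap (QuotientGroup.mk' L)).map π).Normal :=
      Subgroup.Normal.map (Subgroup.Normal.comap hTn _) π hCE.surj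
    have hmapc :
        (Nat.card (((pPrimeCore p (Ĝ ⧸ L)).comap (QuotientGroup.mk' L)).map π)).Coprime p :=
      Nat.Coprime.coprime_dvd_left (Subgroup.card_map_dvd _ π) hTc'
    have hle : ((pPrimeCore p (Ĝ ⧸ L)).comap (QuotientGroup.mk' L)).map π ≤ K := by
      rw [hK]
      exact Cfsg.Agent.H80.le_pPrimeCore p _ hmapn hmapc
    have hle' : (pPrimeCore p (Ĝ ⧸ L)).comap (QuotientGroup.mk' L) ≤ K.comap π :=
      Subgroup.map_le_iff_le_comap.1 hle
    calc pPrimeCore p (Ĝ ⧸ L)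
        = ((pPrimeCore p (Ĝ ⧸ L)).comap (QuotientGroup.mk' L)).map (QuotientGroup.mk' L) :=
          (Subgroup.map_comap_eq_self_of_surjective (QuotientGroup.mk'_surjective L) _).symm
      _ ≤ (K.comap π).map (QuotientGroup.mk' L) := Subgroup.map_mono hle'
  exact ⟨hsolvΓ, hTle.trans hcentral, hTle⟩

end Cfsg.Agent.H28.Hc
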