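import Mathlib
import Cfsg.Agent.H99.I2Defs
import Cfsg.Agent.H49.Omega2

/-!
# I2-ATYPE (helper28, for helper99: S5974 / S5990, involutions in characteristic 2)

An invariant nondegenerate subspace `X` of a-type is the orthogonal sum of `t` blocks and a part
of dimension `k₀ = dim X - 4 t` fixed pointwise; it contains invariant nondegenerate subspaces of
the dimensions `4 j + e` with the types allowed by the rules.  Strong induction on `dim X`.
-/

set_option autoImplicit false

namespace Cfsg.Agent.H28.I2

open Cfsg.Agent.H45 Cfsg.Agent.H48.Ep Cfsg.Agent.H99.I2 Module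

universe u v

/-- A nondegenerate subspace of a quadratic space over a finite field of characteristic `2` has
even dimension. -/
theorem even_finrank_of_qnd {F : Type u} [Field F] [Fintype F] {V : Type v} [AddCommGroup V]
    [Module F V] [FiniteDimensional F V] (h2 : (2 : F) = 0) (Q : QuadraticForm F V)
    (X : Submodule F V) (hX : QNd Q X) : ∃ m : ℕ, finrank F X = 2 * m := by
  have hX' : X ⊓ perp (QuadraticMap.polarBilin Q) X = ⊥ := hX
  have key : ∀ x : ↥X, (∀ y : ↥X, QuadraticMap.polar ⇑Q (x : V) (y : V) = 0) → x = 0 := by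
    intro x hx
    have h1 : (x : V) ∈ X ⊓ perp (QuadraticMap.polarBilin Q) X := by
      refine ⟨x.2, (mem_perp _ _ _).mpr (fun u hu => ?_)⟩
      show QuadraticMap.polar ⇑Q u (x : V) = 0
      rw [QuadraticMap.polar_comm]
      exact hx ⟨u, hu⟩
    rw [hX', Submodule.mem_bot] at h1
    exact Subtype.ext h1
  have hnd : (QuadraticMap.polarBilin (Q.comp X.subtype)).Nondegenerate := by
    refine ⟨fun x hx => key x (fun y => hx y), fun y hy => key y (fun x => ?_)⟩
    rw [QuadraticMap.polar_comm]
    exact hy x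
  exact Cfsg.Agent.H49.even_finrank_char_two h2 (Q.comp X.subtype) hnd

/-- I2-ATYPE. -/
theorem aType (hBlock : StI2Block.{u, v}) (hPerp : StI2Perp.{u, v}) (hSum : StQSum.{u, v})
    (hBoth : StQBoth2.{u, v}) : StI2AType.{u, v} := by
  intro F _ _ V _ _ _ Q T hctx
  have key : ∀ n : ℕ, ∀ X : Submodule F V, finrank F X = n → Inv Q T X → AType Q T X →
      ∃ t : ℕ, rk T X = 2 * t ∧ 4 * t ≤ finrank F X ∧
        ∀ (m : ℕ) (pl : Prop),
          (∃ j e : ℕ, j ≤ t ∧ m = 4 * j + e ∧ Even e ∧ e ≤ finrank F X - 4 * t ∧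
            ((0 < e ∧ e < finrank F X - 4 * t) ∨ (e = 0 ∧ pl) ∨
              (e = finrank F X - 4 * t ∧ 0 < e ∧ (pl ↔ QPlus Q X)))) →
          ∃ W : Submodule F V, W ≤ X ∧ Inv Q T W ∧ finrank F W = m ∧ (QPlus Q W ↔ pl) := by
    intro n
    induction n using Nat.strong_induction_on with
    | _ n ih =>
      intro X hn hX hXa
      by_cases hrk : rk T X = 0
      · -- `T = 1` on `X`
        have hfix : ∀ v ∈ X, T v = v := by
          intro v hv
          have h1 : X.map (T - 1) = ⊥ := Submodule.finrank_eq_zero.mp hrk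
          have h2 : (T - 1) v ∈ X.map (T - 1) := Submodule.mem_map_of_mem hv
          rw [h1, Submodule.mem_bot, LinearMap.sub_apply, Module.End.one_apply,
            sub_eq_zero] at h2
          exact h2
        have hinvsub : ∀ W : Submodule F V, W ≤ X → W ∈ T.invtSubmodule := by
          intro W hW
          rw [Module.End.mem_invtSubmodule_iff_forall_mem_of_mem]
          intro w hw
          rw [hfix w (hW hw)]
          exact hw
        refine ⟨0, by rw [hrk], by omega, ?_⟩
        rintro m pl ⟨j, e, hj, hm, he, hek, hcase⟩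
        have hj0 : j = 0 := by omega
        subst hj0
        rw [Nat.mul_zero, Nat.zero_add] at hm
        subst hm
        rw [Nat.mul_zero, Nat.sub_zero] at hek hcase
        rcases hcase with ⟨h1, h2⟩ | ⟨h1, h2⟩ | ⟨h1, h2, h3⟩
        · obtain ⟨mm, hmm⟩ := even_finrank_of_qnd hctx.two Q X hX.2
          obtain ⟨e', he'⟩ := he
          obtain ⟨W, hWX, hWnd, hWd, hWpl⟩ := hBoth F V Q X m pl hctx.two hX.2 ⟨e', he'⟩
            (by omega) (by omega)
          exact ⟨W, hWX, ⟨hinvsub W hWX, hWnd⟩, hWd, hWpl⟩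
        · subst h1
          refine ⟨⊥, bot_le, ⟨hinvsub ⊥ bot_le, bot_inf_eq _⟩, finrank_bot F V, ?_⟩
          exact iff_of_true ⟨⊥, le_refl _, fun u hu => by
            rw [(Submodule.mem_bot F).mp hu, map_zero], by simp⟩ h2
        · exact ⟨X, le_refl _, hX, h1.symm, h3.symm⟩
      · -- split off a block
        obtain ⟨A, hAX, hA, hAd, hApl, hArk⟩ := hBlock F V Q T hctx X hX hXa hrk
        obtain ⟨hX', hX'd, hsup, horth, hrkX⟩ := hPerp F V Q T hctx X A hX hA hAX
        obtain ⟨X', hX'def⟩ : ∃ X' : Submodule F V,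
            X' = X ⊓ perp (QuadraticMap.polarBilin Q) A := ⟨_, rfl⟩
        rw [← hX'def] at hX' hX'd hsup horth hrkX
        have hX'X : X' ≤ X := by rw [hX'def]; exact inf_le_left
        have hX'a : AType Q T X' := fun v hv => hXa v (hX'X hv)
        obtain ⟨t', ht'rk, ht'le, ht'ex⟩ := ih (finrank F X') (by omega) X' rfl hX' hX'a
        refine ⟨t' + 1, by rw [hrkX, hArk, ht'rk]; ring, by omega, ?_⟩
        rintro m pl ⟨j, e, hj, hm, he, hek, hcase⟩
        have hk : finrank F X - 4 * (t' + 1) = finrank F X' - 4 * t' := by omega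
        rw [hk] at hek hcase
        have hplX : Even (finrank F X') → (QPlus Q X ↔ QPlus Q X') := by
          intro hev
          obtain ⟨-, -, h3⟩ := hSum F V Q A X' hA.2 hX'.2 horth (by rw [hAd]; exact ⟨2, rfl⟩)
            hev
          rw [hsup] at h3
          rw [h3]
          exact iff_true_left hApl
        have hcase' : (0 < e ∧ e < finrank F X' - 4 * t') ∨ (e = 0 ∧ pl) ∨
            (e = finrank F X' - 4 * t' ∧ 0 < e ∧ (pl ↔ QPlus Q X')) := by
          rcases hcase with h | h | ⟨h1, h2, h3⟩
          · exact Or.inl h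
          · exact Or.inr (Or.inl h)
          · refine Or.inr (Or.inr ⟨h1, h2, ?_⟩)
            have hev : Even (finrank F X') := by
              have h4 : finrank F X' = 4 * t' + e := by omega
              rw [h4]
              exact Even.add ⟨2 * t', by ring⟩ he
            exact h3.trans (hplX hev)
        rcases Nat.eq_zero_or_pos j with hj0 | hjpos
        · subst hj0
          obtain ⟨W, hWX', hW, hWd, hWpl⟩ :=
            ht'ex m pl ⟨0, e, Nat.zero_le _, hm, he, hek, hcase'⟩
          exact ⟨W, hWX'.trans hX'X, hW, hWd, hWpl⟩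
        · obtain ⟨W', hW'X', hW', hW'd, hW'pl⟩ :=
            ht'ex (4 * (j - 1) + e) pl ⟨j - 1, e, by omega, rfl, he, hek, hcase'⟩
          have hev' : Even (finrank F W') := by
            rw [hW'd]
            exact Even.add ⟨2 * (j - 1), by ring⟩ he
          obtain ⟨h1, h2, h3⟩ := hSum F V Q A W' hA.2 hW'.2
            (fun x hx y hy => horth x hx y (hW'X' hy)) (by rw [hAd]; exact ⟨2, rfl⟩) hev'
          refine ⟨A ⊔ W', sup_le hAX (hW'X'.trans hX'X), ⟨?_, h1⟩, by rw [h2, hAd, hW'd]; omega,
            ?_⟩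
          · rw [Module.End.mem_invtSubmodule_iff_forall_mem_of_mem]
            intro x hx
            obtain ⟨a, ha, w, hw, rfl⟩ := Submodule.mem_sup.mp hx
            rw [map_add]
            exact Submodule.add_mem _
              (Submodule.mem_sup_left
                ((Module.End.mem_invtSubmodule_iff_forall_mem_of_mem T).mp hA.1 a ha))
              (Submodule.mem_sup_right
                ((Module.End.mem_invtSubmodule_iff_forall_mem_of_mem T).mp hW'.1 w hw))
          · rw [h3]
            exact (iff_true_left hApl).trans hW'pl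
  intro X hX hXa
  exact key _ X rfl hX hXa

example (hBlock : Cfsg.Agent.H99.I2.StI2Block.{u, v}) (hPerp : Cfsg.Agent.H99.I2.StI2Perp.{u, v})
    (hSum : Cfsg.Agent.H48.Ep.StQSum.{u, v}) (hBoth : Cfsg.Agent.H48.Ep.StQBoth2.{u, v}) :
    Cfsg.Agent.H99.I2.StI2AType.{u, v} := aType hBlock hPerp hSum hBoth

end Cfsg.Agent.H28.I2

#print axioms Cfsg.Agent.H28.I2.aType
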