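import Mathlib

/-!
# helper28: abstract end-game of the kill of configuration (R) (S2951 / S2952)

Pure group theory over Mathlib.  `V^g` is written `V.map (MulAut.conj g).toMonoidHom`
(that is `g V g⁻¹`).

`rkill'` / `rkill`: there is no configuration `V ≤ S ≤ L`, `T < S`, `K`, `O`, `D` with
* `L ≤ N(V)`, `C(V) ≤ L` (e.g. `N(V) = L`), `S` a `2`-group, `V` has two distinct involutions
  (more precisely two nontrivial elements with nontrivial product),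
* (DI) for `g ∉ L`: `V^g ∩ L ≠ 1 → [V^g, V] = 1`,
* `O ≤ K`, `K ∩ L ≤ O`, `O` normal in `K`, `K / O` without elements of order `2`, `K ≠ O`,
* the elements of `T ∖ D` invert `K / O`,
* `D ≤ T` of index at most `2`, normalized by `K` and by `T`,
* every nontrivial `U ≤ T` normalized by `K` and `T` has `N_S(U) ≤ T`,
* `z ∈ V ∩ T`, `z ≠ 1`, `z^k ∈ L` for `k ∈ K`.
-/

namespace Cfsg.Agent.H28.RKill

variable {G : Type*} [Group G]

/-- membership in a (left) conjugate -/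
theorem mem_cj (V : Subgroup G) (g y : G) :
    y ∈ V.map (MulAut.conj g).toMonoidHom ↔ g⁻¹ * y * g ∈ V := by
  constructor
  · rintro ⟨v, hv, rfl⟩
    have e : g⁻¹ * ((MulAut.conj g).toMonoidHom v) * g = v := by
      simp [MulAut.conj_apply, mul_assoc]
    rw [e]; exact hv
  · intro h
    refine ⟨g⁻¹ * y * g, h, ?_⟩
    simp [MulAut.conj_apply, mul_assoc]

theorem norm_of_conj (H : Subgroup G) (y : G) (h1 : ∀ h ∈ H, y * h * y⁻¹ ∈ H)
    (h2 : ∀ h ∈ H, y⁻¹ * h * y ∈ H) : y ∈ Subgroup.normalizer (H : Set G) := by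
  rw [Subgroup.mem_normalizer_iff]
  intro h
  refine ⟨h1 h, fun hh => ?_⟩
  have h3 := h2 _ hh
  have e : y⁻¹ * (y * h * y⁻¹) * y = h := by group
  rwa [e] at h3

theorem conj_of_norm (H : Subgroup G) (y : G) (hy : y ∈ Subgroup.normalizer (H : Set G)) :
    (∀ h ∈ H, y * h * y⁻¹ ∈ H) ∧ (∀ h ∈ H, y⁻¹ * h * y ∈ H) :=
  ⟨fun h hh => (Subgroup.mem_normalizer_iff.mp hy h).mp hh,
    fun h hh => (Subgroup.mem_normalizer_iff''.mp hy h).mp hh⟩

/-- normalizers grow in finite `2`-groups (stated inside `G`) -/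
theorem norm_grow [Finite G] (H P : Subgroup G) (hP : IsPGroup 2 ↥P) (hHP : H ≤ P)
    (hne : H ≠ P) :
    ∃ y ∈ P, y ∉ H ∧ (∀ h ∈ H, y * h * y⁻¹ ∈ H) ∧ (∀ h ∈ H, y⁻¹ * h * y ∈ H) := by
  have : Fact (Nat.Prime 2) := ⟨Nat.prime_two⟩
  have : Group.IsNilpotent ↥P := hP.isNilpotent
  have hnc : NormalizerCondition ↥P := Group.normalizerCondition_of_isNilpotent
  have hlt : H.subgroupOf P < ⊤ := by
    rw [lt_top_iff_ne_top]
    intro h
    rw [Subgroup.subgroupOf_eq_top] at h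
    exact hne (le_antisymm hHP h)
  obtain ⟨y, hyN, hyH⟩ := SetLike.exists_of_lt (hnc _ hlt)
  refine ⟨y.1, y.2, fun hy => hyH (Subgroup.mem_subgroupOf.mpr hy), ?_, ?_⟩
  · intro h hh
    have h3 := (Subgroup.mem_normalizer_iff.mp hyN ⟨h, hHP hh⟩).mp
      (Subgroup.mem_subgroupOf.mpr hh)
    exact Subgroup.mem_subgroupOf.mp h3
  · intro h hh
    have h3 := (Subgroup.mem_normalizer_iff''.mp hyN ⟨h, hHP hh⟩).mp
      (Subgroup.mem_subgroupOf.mpr hh)
    exact Subgroup.mem_subgroupOf.mp h3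

/-- the subgroup generated by the conjugates of `V` contained in `T` -/
def wc (V T : Subgroup G) : Subgroup G :=
  Subgroup.closure {x | ∃ g : G, V.map (MulAut.conj g).toMonoidHom ≤ T ∧
    x ∈ V.map (MulAut.conj g).toMonoidHom}

theorem wc_le (V T : Subgroup G) : wc V T ≤ T := by
  rw [wc, Subgroup.closure_le]
  rintro x ⟨g, hg, hx⟩
  exact hg hx

theorem le_wc (V T : Subgroup G) (h : V ≤ T) : V ≤ wc V T := by
  intro x hx
  refine Subgroup.subset_closure ⟨1, ?_, ?_⟩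
  · intro y hy
    rw [mem_cj] at hy
    have e : (1 : G)⁻¹ * y * 1 = y := by group
    rw [e] at hy
    exact h hy
  · rw [mem_cj]
    have e : (1 : G)⁻¹ * x * 1 = x := by group
    rw [e]; exact hx

theorem wc_conj (V T : Subgroup G) (w : G)
    (hw : ∀ g : G, V.map (MulAut.conj g).toMonoidHom ≤ T →
      V.map (MulAut.conj (w * g)).toMonoidHom ≤ T) :
    ∀ u ∈ wc V T, w * u * w⁻¹ ∈ wc V T := by
  intro u hu
  unfold wc at hu
  induction hu using Subgroup.closure_induction with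
  | mem x hx =>
    obtain ⟨g, hg, hx⟩ := hx
    refine Subgroup.subset_closure ⟨w * g, hw g hg, ?_⟩
    rw [mem_cj] at hx ⊢
    have e : (w * g)⁻¹ * (w * x * w⁻¹) * (w * g) = g⁻¹ * x * g := by group
    rw [e]; exact hx
  | one =>
    have e : w * 1 * w⁻¹ = (1 : G) := by group
    rw [e]; exact Subgroup.one_mem _
  | mul a b _ _ iha ihb =>
    have e : w * (a * b) * w⁻¹ = (w * a * w⁻¹) * (w * b * w⁻¹) := by group
    rw [e]; exact Subgroup.mul_mem _ iha ihb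
  | inv a _ iha =>
    have e : w * a⁻¹ * w⁻¹ = (w * a * w⁻¹)⁻¹ := by group
    rw [e]; exact Subgroup.inv_mem _ iha

/-- an element moving the conjugates of `V` inside `T` among themselves (in both directions)
normalizes `wc V T` -/
theorem wc_norm (V T : Subgroup G) (y : G)
    (h1 : ∀ g : G, V.map (MulAut.conj g).toMonoidHom ≤ T →
      V.map (MulAut.conj (y * g)).toMonoidHom ≤ T)
    (h2 : ∀ g : G, V.map (MulAut.conj g).toMonoidHom ≤ T →
      V.map (MulAut.conj (y⁻¹ * g)).toMonoidHom ≤ T) :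
    y ∈ Subgroup.normalizer (wc V T : Set G) := by
  apply norm_of_conj
  · exact wc_conj V T y h1
  · intro u hu
    have h3 := wc_conj V T y⁻¹ h2 u hu
    simpa using h3

theorem cj_le (V T T' : Subgroup G) (w g : G) (hw : ∀ t ∈ T, w * t * w⁻¹ ∈ T')
    (hg : V.map (MulAut.conj g).toMonoidHom ≤ T) :
    V.map (MulAut.conj (w * g)).toMonoidHom ≤ T' := by
  intro x hx
  rw [mem_cj] at hx
  have h1 : w⁻¹ * x * w ∈ V.map (MulAut.conj g).toMonoidHom := by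
    rw [mem_cj]
    have e : g⁻¹ * (w⁻¹ * x * w) * g = (w * g)⁻¹ * x * (w * g) := by group
    rw [e]; exact hx
  have h2 := hw _ (hg h1)
  have e : w * (w⁻¹ * x * w) * w⁻¹ = x := by group
  rwa [e] at h2

/-- **Abstract end-game of the kill of (R)**, general form (`L ≤ N(V)`, `C(V) ≤ L`). -/
theorem rkill' [Finite G] (V S L T K O D : Subgroup G) (z : G)
    (hVS : V ≤ S) (hSL : S ≤ L)
    (hLN : L ≤ Subgroup.normalizer (V : Set G))
    (hCL : Subgroup.centralizer (V : Set G) ≤ L)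
    (hS : IsPGroup 2 ↥S)
    (hV4 : ∃ a ∈ V, ∃ b ∈ V, a ≠ 1 ∧ b ≠ 1 ∧ a * b ≠ 1)
    (hDI : ∀ g : G, g ∉ L → V.map (MulAut.conj g).toMonoidHom ⊓ L ≠ ⊥ →
      V.map (MulAut.conj g).toMonoidHom ≤ Subgroup.centralizer (V : Set G))
    (hTS : T ≤ S) (hTne : T ≠ S)
    (hOK : O ≤ K) (hKL : ∀ g ∈ K, g ∈ L → g ∈ O)
    (hOn : ∀ k ∈ K, ∀ o ∈ O, k * o * k⁻¹ ∈ O)
    (hsq : ∀ k ∈ K, k * k ∈ O → k ∈ O)
    (hKO : ∃ k ∈ K, k ∉ O)
    (hinv : ∀ x ∈ T, x ∉ D → ∀ k ∈ K, x * k * x⁻¹ * k ∈ O)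
    (hDT : D ≤ T)
    (hDK : K ≤ Subgroup.normalizer (D : Set G))
    (hDTn : T ≤ Subgroup.normalizer (D : Set G))
    (hD2 : ∀ a ∈ T, ∀ b ∈ T, a ∉ D → b ∉ D → a * b ∈ D)
    (hU : ∀ U : Subgroup G, U ≠ ⊥ → U ≤ T → K ≤ Subgroup.normalizer (U : Set G) →
      T ≤ Subgroup.normalizer (U : Set G) →
      ∀ y ∈ S, y ∈ Subgroup.normalizer (U : Set G) → y ∈ T)
    (hzV : z ∈ V) (hz1 : z ≠ 1) (hzT : z ∈ T) (hzK : ∀ k ∈ K, k * z * k⁻¹ ∈ L) :
    False := by
  obtain ⟨k0, hk0K, hk0O⟩ := hKO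
  have hTL : T ≤ L := hTS.trans hSL
  have hTN : T ≤ Subgroup.normalizer (V : Set G) := hTL.trans hLN
  have hinvO : ∀ k ∈ K, k ∉ O → k⁻¹ ∉ O := fun k _ hk h => hk (by simpa using O.inv_mem h)
  -- Step 1: for `k ∈ K ∖ O` and `v ∈ V`: `k⁻¹ v k ∈ L`
  have st1 : ∀ k ∈ K, k ∉ O → ∀ v ∈ V, k⁻¹ * v * k ∈ L := by
    intro k hk hkO v hv
    have hk' : k⁻¹ ∈ K := K.inv_mem hk
    have hkL : k⁻¹ ∉ L := fun h => hinvO k hk hkO (hKL _ hk' h)
    have hne : V.map (MulAut.conj k⁻¹).toMonoidHom ⊓ L ≠ ⊥ := by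
      intro h
      have hm : k⁻¹ * z * k ∈ V.map (MulAut.conj k⁻¹).toMonoidHom ⊓ L := by
        refine Subgroup.mem_inf.mpr ⟨?_, ?_⟩
        · rw [mem_cj]
          have e : k⁻¹⁻¹ * (k⁻¹ * z * k) * k⁻¹ = z := by group
          rw [e]; exact hzV
        · have h3 := hzK _ hk'
          simpa using h3
      rw [h, Subgroup.mem_bot] at hm
      apply hz1
      have e : z = k * (k⁻¹ * z * k) * k⁻¹ := by group
      rw [e, hm]; group
    have hc := hDI _ hkL hne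
    have hm : k⁻¹ * v * k ∈ V.map (MulAut.conj k⁻¹).toMonoidHom := by
      rw [mem_cj]
      have e : k⁻¹⁻¹ * (k⁻¹ * v * k) * k⁻¹ = v := by group
      rw [e]; exact hv
    exact hCL (hc hm)
  -- Step 2 (key): for `x ∈ T ∖ D`, `k ∈ K ∖ O`: `k⁻¹ x k ∉ L`
  have st2 : ∀ x ∈ T, x ∉ D → ∀ k ∈ K, k ∉ O → k⁻¹ * x * k ∉ L := by
    intro x hxT hxD k hk hkO hL
    have hk' : k⁻¹ ∈ K := K.inv_mem hk
    have ho : x * k * x⁻¹ * k ∈ O := hinv x hxT hxD k hk
    have hm : k⁻¹ * (x * k * x⁻¹ * k) * k⁻¹ ∈ O := by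
      apply hKL
      · exact K.mul_mem (K.mul_mem hk' (hOK ho)) hk'
      · have e : k⁻¹ * (x * k * x⁻¹ * k) * k⁻¹ = (k⁻¹ * x * k) * x⁻¹ := by group
        rw [e]; exact L.mul_mem hL (L.inv_mem (hTL hxT))
    have hn : k⁻¹ * (x * k * x⁻¹ * k) * k⁻¹⁻¹ ∈ O := hOn _ hk' _ ho
    have h3 : (k * k)⁻¹ ∈ O := by
      have e : (k * k)⁻¹ = (k⁻¹ * (x * k * x⁻¹ * k) * k⁻¹⁻¹)⁻¹ *
          (k⁻¹ * (x * k * x⁻¹ * k) * k⁻¹) := by group
      rw [e]; exact O.mul_mem (O.inv_mem hn) hm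
    exact hkO (hsq k hk (by simpa using O.inv_mem h3))
  -- Step 3: `V ∩ T ≤ D`
  have st3 : ∀ x ∈ V, x ∈ T → x ∈ D := by
    intro x hxV hxT
    by_contra hxD
    exact st2 x hxT hxD k0 hk0K hk0O (st1 k0 hk0K hk0O x hxV)
  have hzD : z ∈ D := st3 z hzV hzT
  have hDne : D ≠ ⊥ := by
    intro h
    rw [h, Subgroup.mem_bot] at hzD
    exact hz1 hzD
  -- Step 4: `V ≤ T`
  have st4 : V ≤ T := by
    by_contra hVT
    have hTV : T ⊔ V ≤ S := sup_le hTS hVS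
    have hP : IsPGroup 2 ↥(T ⊔ V) := hS.to_le hTV
    have hne : T ≠ T ⊔ V := fun h => hVT (by rw [h]; exact le_sup_right)
    obtain ⟨y, hyP, hyH, hy1, hy2⟩ := norm_grow T (T ⊔ V) hP le_sup_left hne
    have hy' : y ∈ ((T ⊔ V : Subgroup G) : Set G) := hyP
    rw [Subgroup.coe_mul_of_left_le_normalizer_right T V hTN] at hy'
    obtain ⟨t, ht, v, hv, rfl⟩ := Set.mem_mul.mp hy'
    have ht : t ∈ T := ht
    have hv : v ∈ V := hv
    have hvT : v ∉ T := fun h => hyH (T.mul_mem ht h)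
    -- `v` normalizes `T`
    have hv1 : ∀ h ∈ T, v * h * v⁻¹ ∈ T := by
      intro h hh
      have h3 := hy1 h hh
      have e : v * h * v⁻¹ = t⁻¹ * (t * v * h * (t * v)⁻¹) * t := by group
      rw [e]; exact T.mul_mem (T.mul_mem (T.inv_mem ht) h3) ht
    have hv2 : ∀ h ∈ T, v⁻¹ * h * v ∈ T := by
      intro h hh
      have h3 := hy2 (t * h * t⁻¹) (T.mul_mem (T.mul_mem ht hh) (T.inv_mem ht))
      have e : v⁻¹ * h * v = (t * v)⁻¹ * (t * h * t⁻¹) * (t * v) := by group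
      rw [e]; exact h3
    -- `v` normalizes `D`
    have hvD1 : ∀ d ∈ D, v * d * v⁻¹ ∈ D := by
      intro d hd
      have hc : v * d * v⁻¹ * d⁻¹ ∈ D := by
        apply st3
        · have h3 : d * v⁻¹ * d⁻¹ ∈ V :=
            (conj_of_norm V d (hTN (hDT hd))).1 _ (V.inv_mem hv)
          have e : v * d * v⁻¹ * d⁻¹ = v * (d * v⁻¹ * d⁻¹) := by group
          rw [e]; exact V.mul_mem hv h3
        · exact T.mul_mem (hv1 d (hDT hd)) (T.inv_mem (hDT hd))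
      have e : v * d * v⁻¹ = (v * d * v⁻¹ * d⁻¹) * d := by group
      rw [e]; exact D.mul_mem hc hd
    have hvD2 : ∀ d ∈ D, v⁻¹ * d * v ∈ D := by
      intro d hd
      have hc : v⁻¹ * d * v * d⁻¹ ∈ D := by
        apply st3
        · have h3 : d * v * d⁻¹ ∈ V := (conj_of_norm V d (hTN (hDT hd))).1 _ hv
          have e : v⁻¹ * d * v * d⁻¹ = v⁻¹ * (d * v * d⁻¹) := by group
          rw [e]; exact V.mul_mem (V.inv_mem hv) h3
        · exact T.mul_mem (hv2 d (hDT hd)) (T.inv_mem (hDT hd))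
      have e : v⁻¹ * d * v = (v⁻¹ * d * v * d⁻¹) * d := by group
      rw [e]; exact D.mul_mem hc hd
    exact hvT (hU D hDne hDT hDK hDTn v (hVS hv) (norm_of_conj D v hvD1 hvD2))
  -- Step 5: every conjugate of `V` inside `T` lies in `D`
  have st5 : ∀ g : G, V.map (MulAut.conj g).toMonoidHom ≤ T →
      V.map (MulAut.conj g).toMonoidHom ≤ D := by
    intro g hg x hx
    by_contra hxD
    have hxT := hg hx
    obtain ⟨a, ha, b, hb, ha1, hb1, hab1⟩ := hV4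
    have hd : ∃ d, d ∈ V.map (MulAut.conj g).toMonoidHom ∧ d ≠ 1 ∧ d ∈ D := by
      have ha' : g * a * g⁻¹ ∈ V.map (MulAut.conj g).toMonoidHom := by
        rw [mem_cj]
        have e : g⁻¹ * (g * a * g⁻¹) * g = a := by group
        rw [e]; exact ha
      have hb' : g * b * g⁻¹ ∈ V.map (MulAut.conj g).toMonoidHom := by
        rw [mem_cj]
        have e : g⁻¹ * (g * b * g⁻¹) * g = b := by group
        rw [e]; exact hb
      by_cases h1 : g * a * g⁻¹ ∈ D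
      · exact ⟨_, ha', fun h => ha1 (conj_eq_one_iff.mp h), h1⟩
      · by_cases h2 : g * b * g⁻¹ ∈ D
        · exact ⟨_, hb', fun h => hb1 (conj_eq_one_iff.mp h), h2⟩
        · refine ⟨(g * a * g⁻¹) * (g * b * g⁻¹), Subgroup.mul_mem _ ha' hb', ?_,
            hD2 _ (hg ha') _ (hg hb') h1 h2⟩
          intro h
          rw [conj_mul] at h
          exact hab1 (conj_eq_one_iff.mp h)
    obtain ⟨d, hdX, hd1, hdD⟩ := hd
    have hdk : k0⁻¹ * d * k0 ∈ D := (conj_of_norm D k0 (hDK hk0K)).2 d hdD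
    have key : k0⁻¹ * x * k0 ∈ L := by
      by_cases hh : k0⁻¹ * g ∈ L
      · have hxV : (k0⁻¹ * g) * (g⁻¹ * x * g) * (k0⁻¹ * g)⁻¹ ∈ V :=
          (conj_of_norm V _ (hLN hh)).1 _ ((mem_cj V g x).mp hx)
        have e : (k0⁻¹ * g) * (g⁻¹ * x * g) * (k0⁻¹ * g)⁻¹ = k0⁻¹ * x * k0 := by group
        rw [e] at hxV
        exact hSL (hVS hxV)
      · have hne : V.map (MulAut.conj (k0⁻¹ * g)).toMonoidHom ⊓ L ≠ ⊥ := by
          intro hbot
          have hm : k0⁻¹ * d * k0 ∈ V.map (MulAut.conj (k0⁻¹ * g)).toMonoidHom ⊓ L := by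
            refine Subgroup.mem_inf.mpr ⟨?_, hTL (hDT hdk)⟩
            rw [mem_cj]
            have e : (k0⁻¹ * g)⁻¹ * (k0⁻¹ * d * k0) * (k0⁻¹ * g) = g⁻¹ * d * g := by group
            rw [e]; exact (mem_cj V g d).mp hdX
          rw [hbot, Subgroup.mem_bot] at hm
          apply hd1
          have e : d = k0 * (k0⁻¹ * d * k0) * k0⁻¹ := by group
          rw [e, hm]; group
        have hc := hDI _ hh hne
        have hm : k0⁻¹ * x * k0 ∈ V.map (MulAut.conj (k0⁻¹ * g)).toMonoidHom := by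
          rw [mem_cj]
          have e : (k0⁻¹ * g)⁻¹ * (k0⁻¹ * x * k0) * (k0⁻¹ * g) = g⁻¹ * x * g := by group
          rw [e]; exact (mem_cj V g x).mp hx
        exact hCL (hc hm)
    exact st2 x hxT hxD k0 hk0K hk0O key
  -- Step 6: `U = wc V T` is normalized by `K`, `T` and `N_S(T)`
  have hUne : wc V T ≠ ⊥ := by
    intro h
    have h3 : z ∈ wc V T := le_wc V T st4 hzV
    rw [h, Subgroup.mem_bot] at h3
    exact hz1 h3
  have hUK : K ≤ Subgroup.normalizer (wc V T : Set G) := by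
    intro k hk
    have hkD := conj_of_norm D k (hDK hk)
    have hkD' := conj_of_norm D k⁻¹ (hDK (K.inv_mem hk))
    apply wc_norm
    · intro g hg
      exact (cj_le V D D k g hkD.1 (st5 g hg)).trans hDT
    · intro g hg
      exact (cj_le V D D k⁻¹ g hkD'.1 (st5 g hg)).trans hDT
  have hUT : T ≤ Subgroup.normalizer (wc V T : Set G) := by
    intro t ht
    apply wc_norm
    · intro g hg
      exact cj_le V T T t g (fun s hs => T.mul_mem (T.mul_mem ht hs) (T.inv_mem ht)) hg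
    · intro g hg
      exact cj_le V T T t⁻¹ g
        (fun s hs => T.mul_mem (T.mul_mem (T.inv_mem ht) hs) (T.inv_mem (T.inv_mem ht))) hg
  obtain ⟨y, hyS, hyT, hy1, hy2⟩ := norm_grow T S hS hTS hTne
  have hyN : y ∈ Subgroup.normalizer (wc V T : Set G) := by
    apply wc_norm
    · intro g hg
      exact cj_le V T T y g hy1 hg
    · intro g hg
      refine cj_le V T T y⁻¹ g (fun s hs => ?_) hg
      have h3 := hy2 s hs
      simpa using h3
  exact hyT (hU _ hUne (wc_le V T) hUK hUT y hyS hyN)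

/-- **Abstract end-game of the kill of (R)**, announced shape (`N(V) = L`). -/
theorem rkill [Finite G] (V S L T K O D : Subgroup G) (z : G)
    (hVS : V ≤ S) (hSL : S ≤ L)
    (hNV : Subgroup.normalizer (V : Set G) = L)
    (hS : IsPGroup 2 ↥S)
    (hV4 : ∃ a ∈ V, ∃ b ∈ V, a ≠ 1 ∧ b ≠ 1 ∧ a * b ≠ 1)
    (hDI : ∀ g : G, g ∉ L → V.map (MulAut.conj g).toMonoidHom ⊓ L ≠ ⊥ →
      V.map (MulAut.conj g).toMonoidHom ≤ Subgroup.centralizer (V : Set G))
    (hTS : T ≤ S) (hTne : T ≠ S)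
    (hOK : O ≤ K) (hKL : ∀ g ∈ K, g ∈ L → g ∈ O)
    (hOn : ∀ k ∈ K, ∀ o ∈ O, k * o * k⁻¹ ∈ O)
    (hsq : ∀ k ∈ K, k * k ∈ O → k ∈ O)
    (hKO : ∃ k ∈ K, k ∉ O)
    (hinv : ∀ x ∈ T, x ∉ D → ∀ k ∈ K, x * k * x⁻¹ * k ∈ O)
    (hDT : D ≤ T)
    (hDK : K ≤ Subgroup.normalizer (D : Set G))
    (hDTn : T ≤ Subgroup.normalizer (D : Set G))
    (hD2 : ∀ a ∈ T, ∀ b ∈ T, a ∉ D → b ∉ D → a * b ∈ D)
    (hU : ∀ U : Subgroup G, U ≠ ⊥ → U ≤ T → K ≤ Subgroup.normalizer (U : Set G) →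
      T ≤ Subgroup.normalizer (U : Set G) →
      ∀ y ∈ S, y ∈ Subgroup.normalizer (U : Set G) → y ∈ T)
    (hzV : z ∈ V) (hz1 : z ≠ 1) (hzT : z ∈ T) (hzK : ∀ k ∈ K, k * z * k⁻¹ ∈ L) :
    False :=
  rkill' V S L T K O D z hVS hSL hNV.ge
    ((Subgroup.centralizer_le_normalizer (V : Set G)).trans hNV.le) hS hV4 hDI hTS hTne hOK hKL hOn hsq hKO
    hinv hDT hDK hDTn hD2 hU hzV hz1 hzT hzK

end Cfsg.Agent.H28.RKill

#print axioms Cfsg.Agent.H28.RKill.rkill'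
#print axioms Cfsg.Agent.H28.RKill.rkill
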