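import Mathlib
import Cfsg.Agent.H28.RKill

/-!
# helper28: conjugating the elements of `⨆ W i` into `Z₀` by elements of `⨆ K i` (abstract)

If the `W i` commute with each other, `K j` centralizes `W i` for `i ≠ j`, and `K i` conjugates
every element of `W i` into `Z₀ ∩ W i`, then every element of `⨆ i, W i` is conjugate into `Z₀`
by an element of `⨆ i, K i`.
-/

namespace Cfsg.Agent.H28.Jk

theorem conj_into_aux {G : Type*} [Group G] {ι : Type*} [DecidableEq ι] (W K : ι → Subgroup G)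
    (Z₀ : Subgroup G)
    (hcomm : ∀ i j, ∀ x ∈ W i, ∀ y ∈ W j, x * y = y * x)
    (hcent : ∀ i j, i ≠ j → ∀ w ∈ W i, ∀ k ∈ K j, k * w = w * k)
    (htr : ∀ i, ∀ w ∈ W i, ∃ k ∈ K i, k * w * k⁻¹ ∈ Z₀ ∧ k * w * k⁻¹ ∈ W i) (s : Finset ι) :
    ∀ u ∈ ⨆ i ∈ s, W i, ∃ k ∈ ⨆ i ∈ s, K i,
      k * u * k⁻¹ ∈ Z₀ ∧ k * u * k⁻¹ ∈ ⨆ i ∈ s, W i := by
  induction s using Finset.induction_on with
  | empty =>
    intro u hu
    have hbot : (⨆ i ∈ (∅ : Finset ι), W i) = ⊥ := by simp
    rw [hbot, Subgroup.mem_bot] at hu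
    rw [hu]
    refine ⟨1, Subgroup.one_mem _, ?_, ?_⟩
    · simp [Subgroup.one_mem]
    · simp [Subgroup.one_mem]
  | insert a s ha ih =>
    intro u hu
    rw [Finset.iSup_insert] at hu
    have hWV : ∀ x ∈ W a, ∀ y ∈ ⨆ i ∈ s, W i, x * y = y * x := by
      intro x hx y hy
      have hle : (⨆ i ∈ s, W i) ≤ Subgroup.centralizer ({x} : Set G) := by
        refine iSup₂_le fun i _ y hy => ?_
        rw [Subgroup.mem_centralizer_iff]
        intro h hh
        rw [Set.mem_singleton_iff.mp hh]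
        exact hcomm a i x hx y hy
      exact Subgroup.mem_centralizer_iff.mp (hle hy) x rfl
    have hLE : W a ≤ Subgroup.normalizer ((⨆ i ∈ s, W i : Subgroup G) : Set G) := by
      intro x hx
      apply Cfsg.Agent.H28.RKill.norm_of_conj
      · intro y hy
        have e := hWV x hx y hy
        have e2 : x * y * x⁻¹ = y := by rw [e]; group
        rw [e2]; exact hy
      · intro y hy
        have e := hWV x hx y hy
        have e2 : x⁻¹ * y * x = y := by rw [mul_assoc, ← e]; group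
        rw [e2]; exact hy
    have hu' : u ∈ ((W a ⊔ ⨆ i ∈ s, W i : Subgroup G) : Set G) := hu
    rw [Subgroup.coe_mul_of_left_le_normalizer_right (W a) _ hLE] at hu'
    obtain ⟨w, hw, v, hv, rfl⟩ := Set.mem_mul.mp hu'
    have hw : w ∈ W a := hw
    have hv : v ∈ ⨆ i ∈ s, W i := hv
    obtain ⟨ka, hka, hkaZ, hkaW⟩ := htr a w hw
    obtain ⟨ks, hks, hksZ, hksW⟩ := ih v hv
    have h1 : ks * w = w * ks := by
      have hle : (⨆ i ∈ s, K i) ≤ Subgroup.centralizer ({w} : Set G) := by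
        refine iSup₂_le fun i hi k hk => ?_
        rw [Subgroup.mem_centralizer_iff]
        intro h hh
        rw [Set.mem_singleton_iff.mp hh]
        have hne : a ≠ i := fun e => ha (by rw [e]; exact hi)
        exact (hcent a i hne w hw k hk).symm
      exact (Subgroup.mem_centralizer_iff.mp (hle hks) w rfl).symm
    have h2 : ka * (ks * v * ks⁻¹) = (ks * v * ks⁻¹) * ka := by
      have hle : (⨆ i ∈ s, W i) ≤ Subgroup.centralizer ({ka} : Set G) := by
        refine iSup₂_le fun i hi y hy => ?_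
        rw [Subgroup.mem_centralizer_iff]
        intro h hh
        rw [Set.mem_singleton_iff.mp hh]
        have hne : i ≠ a := fun e => ha (by rw [← e]; exact hi)
        exact hcent i a hne y hy ka hka
      exact Subgroup.mem_centralizer_iff.mp (hle hksW) ka rfl
    have key : (ka * ks) * (w * v) * (ka * ks)⁻¹ = (ka * w * ka⁻¹) * (ks * v * ks⁻¹) := by
      calc (ka * ks) * (w * v) * (ka * ks)⁻¹ = ka * (ks * w) * v * ks⁻¹ * ka⁻¹ := by group
        _ = ka * (w * ks) * v * ks⁻¹ * ka⁻¹ := by rw [h1]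
        _ = ka * w * ka⁻¹ * (ka * (ks * v * ks⁻¹)) * ka⁻¹ := by group
        _ = ka * w * ka⁻¹ * ((ks * v * ks⁻¹) * ka) * ka⁻¹ := by rw [h2]
        _ = (ka * w * ka⁻¹) * (ks * v * ks⁻¹) := by group
    refine ⟨ka * ks, ?_, ?_, ?_⟩
    · rw [Finset.iSup_insert]
      exact Subgroup.mul_mem _ (Subgroup.mem_sup_left hka) (Subgroup.mem_sup_right hks)
    · rw [key]; exact Z₀.mul_mem hkaZ hksZ
    · rw [key, Finset.iSup_insert]
      exact Subgroup.mul_mem _ (Subgroup.mem_sup_left hkaW) (Subgroup.mem_sup_right hksW)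

/-- **Conjugation into `Z₀`.** -/
theorem conj_into {G : Type*} [Group G] {ι : Type*} [Finite ι] (W K : ι → Subgroup G)
    (Z₀ : Subgroup G)
    (hcomm : ∀ i j, ∀ x ∈ W i, ∀ y ∈ W j, x * y = y * x)
    (hcent : ∀ i j, i ≠ j → ∀ w ∈ W i, ∀ k ∈ K j, k * w = w * k)
    (htr : ∀ i, ∀ w ∈ W i, ∃ k ∈ K i, k * w * k⁻¹ ∈ Z₀ ∧ k * w * k⁻¹ ∈ W i) :
    ∀ u ∈ ⨆ i, W i, ∃ k ∈ ⨆ i, K i, k * u * k⁻¹ ∈ Z₀ := by
  classical
  cases nonempty_fintype ι
  intro u hu
  obtain ⟨k, hk, hkZ, _⟩ :=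
    conj_into_aux W K Z₀ hcomm hcent htr Finset.univ u (by simpa using hu)
  exact ⟨k, by simpa using hk, hkZ⟩

end Cfsg.Agent.H28.Jk

#print axioms Cfsg.Agent.H28.Jk.conj_into
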