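import Cfsg.Agent.H28.JkMain
import Cfsg.Agent.H52.SrMain
import Cfsg.Agent.H4.JkA
import Cfsg.Agent.H65.JkFix
import Cfsg.Agent.H80.JkZ
import Cfsg.Agent.H5.JkTrCore
import Cfsg.Agent.H44.JkTI
import Cfsg.Agent.H72.JkF1

/-!
# JZ-KILL (S2951 / S2952): the closed form

`kill_of`: `StKill` from the first conjunct of S2946 (`H5.Jk.StZ0W`, a hypothesis so that no
copy of S2946 is in the import closure) and the JZ pieces `StZ2`, `StLt`, `StNorm`.
Pieces used: `H52.Sr.struct` (helper52), `H4.Jk.ka` (helper4), `H65.Jk.kfix` (helper65),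
`H80.Jk.kz` (helper80), `H5.Jk.ktr_of` (helper5), `H44.Jk.kti` (helper44), `H72.Jk.kf1`
(helper72), `H59.PushKill` (helper59), `H39.Jz` (helper39), `H32.Sr.vng` (helper32).
-/

set_option autoImplicit false
open Cfsg

namespace Cfsg.Agent.H28.Jk

open Cfsg.Agent.H64.Jz

universe u

/-- **JZ-KILL**, closed modulo the first conjunct of S2946 and `StZ2`, `StLt`, `StNorm`. -/
theorem kill_of (h46 : Cfsg.Agent.H5.Jk.StZ0W.{u}) (hZ2 : StZ2.{u}) (hLt : StLt.{u})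
    (hNorm : StNorm.{u}) : StKill.{u} :=
  kill Cfsg.Agent.H52.Sr.struct Cfsg.Agent.H4.Jk.ka Cfsg.Agent.H65.Jk.kfix
    (Cfsg.Agent.H80.Jk.kz Cfsg.Agent.H4.Jk.ka) (Cfsg.Agent.H5.Jk.ktr_of h46)
    Cfsg.Agent.H44.Jk.kti Cfsg.Agent.H72.Jk.kf1 hZ2 hLt hNorm

end Cfsg.Agent.H28.Jk

#print axioms Cfsg.Agent.H28.Jk.kill_of
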