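import Cfsg.Agent.H28.JkDefs
import Cfsg.Agent.H28.JkConj
import Cfsg.Agent.H59.PushKill2
import Cfsg.Agent.H39.JzLex
import Cfsg.Agent.H32.SrVNG
import Cfsg.Agent.H51.Local

/-!
# JZ-KILL (S2951 / S2952): the assembly

`kill`: the residual configuration (R) with `S ⊄ N_G(K)` is impossible, from the `S₃^r`
picture (`H52.Sr.StStruct`), the six JK pieces, and `StZ2`, `StLt`, `StNorm` of the JZ project.
-/

set_option autoImplicit false
open Cfsg

namespace Cfsg.Agent.H28.Jk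

open Cfsg.Agent.H64.Jz Cfsg.Agent.H52.Sr

universe u

theorem twoLocal_normalizer {G : Type u} [Group G] (E : Subgroup G) (h2 : IsPGroup 2 ↥E)
    (hne : E ≠ ⊥) : IsTwoLocal (Subgroup.normalizer (E : Set G)) := by
  unfold IsTwoLocal
  exact ⟨E, h2, hne, rfl⟩

theorem omegaCenterOf_le_centralizer {G : Type u} [Group G] (X : Subgroup G) :
    omegaCenterOf X ≤ Subgroup.centralizer (X : Set G) := by
  unfold omegaCenterOf omegaOne
  rw [Subgroup.closure_le]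
  intro x hx
  exact (Subgroup.mem_inf.mp hx.1).2

/-- **JZ-KILL.** -/
theorem kill (hSR : Cfsg.Agent.H52.Sr.StStruct.{u}) (hKA : StKA.{u}) (hKFix : StKFix.{u})
    (hKZ : StKZ.{u}) (hKTr : StKTr.{u}) (hKTI : StKTI.{u}) (hKF1 : StKF1.{u})
    (hZ2 : StZ2.{u}) (hLt : StLt.{u}) (hNorm : StNorm.{u}) : StKill.{u} := by
  intro G _ _ S M K L T' K' L' hR _ha hnK
  have hR0 := hR
  obtain ⟨hB, hX, hB', hne⟩ := hR
  have hB0 := hB
  have hB0' := hB'
  obtain ⟨hZN, -, -, -, -, -, hKout, hLmax, hKJL⟩ := hB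
  obtain ⟨-, -, -, -, hT'max, hT'S, hK'out, hL'max, -⟩ := hB'
  have hZN0 := hZN
  obtain ⟨hcL, hcN, hcZ⟩ := hZN
  have hKJ : IsJComponent (S : Subgroup G) K := hKout.1.1
  have hKL : K ≤ L := le_sup_left.trans hKJL
  have hK'J : IsJComponent T' K' := hK'out.1.1
  have hK'L : ¬ K' ≤ L := hK'out.2.1
  obtain ⟨hT'2, hT'ne, hT'L, -⟩ := hT'max.1
  have hS2 : IsPGroup 2 ↥(S : Subgroup G) := S.isPGroup'
  have hSne : (S : Subgroup G) ≠ ⊥ := by
    intro h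
    apply hT'ne
    rw [eq_bot_iff, ← h]; exact hT'S
  -- KA for both bases
  obtain ⟨hLS, -, hNL⟩ := hKA S M (S : Subgroup G) K L hB0
  obtain ⟨hL'T', hOO, -⟩ := hKA S L T' K' L' hB0'
  have hSL : (S : Subgroup G) ≤ L := hLS.1.1
  -- `|Z| = 2`, `T' ≤ N(K')`
  have hZcard : Nat.card ↥(omegaCenterOf (S : Subgroup G)) = 2 := hZ2 S L T' K' L' hB0' hne
  have hT'K' : T' ≤ Subgroup.normalizer (K' : Set G) :=
    hNorm S L T' K' L' hB0' (hLt S L T' K' L' hB0' hne)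
  -- `V`
  obtain ⟨hLV, hV2, hVQ, -, hQ2⟩ := Cfsg.Agent.H32.Sr.vng L
  obtain ⟨z, hz1, hzV, hzQ'⟩ := hKZ S M K L T' K' L' hR0 hZcard
  have hV2grp : IsPGroup 2 ↥(VV L) := hQ2.to_le hVQ
  have hVne : VV L ≠ ⊥ := by
    intro h
    have hz' : z ∈ (⊥ : Subgroup G) := by rw [← h]; exact hzV
    exact hz1 (Subgroup.mem_bot.mp hz')
  have hNV : Subgroup.normalizer (VV L : Set G) = L :=
    hLmax.2 _ (twoLocal_normalizer (VV L) hV2grp hVne) hLV
  -- the `S₃^r` picture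
  have hfix := hKFix S M K L hB0 hZcard
  have hSRc : SRConcl (S : Subgroup G) K L :=
    hSR hcL hcN hcZ (S : Subgroup G) hS2 hSne L hLS K hKJ hKL hfix
  have hSRc0 := hSRc
  obtain ⟨hsup, -, hblk, -, hcentW, hfree⟩ := hSRc
  have hr : ∃ i j : Orb (S : Subgroup G) K, i ≠ j := by
    by_contra hcon
    apply hnK
    intro s hs
    by_contra hsN
    apply hcon
    refine ⟨⟨K, 1, Subgroup.one_mem _, ?_⟩,
      ⟨K.map (MulAut.conj s).toMonoidHom, s, hs, rfl⟩, ?_⟩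
    · ext x
      rw [Cfsg.Agent.H28.RKill.mem_cj]
      simp
    · intro h
      apply hsN
      have h' : K = K.map (MulAut.conj s).toMonoidHom := congrArg Subtype.val h
      rw [Subgroup.mem_normalizer_iff_map_conj_eq]
      exact h'.symm
  have hWV : ∀ i : Orb (S : Subgroup G) K, wOf i.1 ≤ VV L := fun i =>
    le_of_le_of_eq (le_iSup (fun i : Orb (S : Subgroup G) K => wOf i.1) i) hsup
  have hVcomm : ∀ x ∈ VV L, ∀ y ∈ VV L, x * y = y * x := by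
    intro x hx y hy
    have hx' : x⁻¹ = x := inv_eq_of_mul_eq_one_left (hV2 x hx)
    have hy' : y⁻¹ = y := inv_eq_of_mul_eq_one_left (hV2 y hy)
    have hxy : (x * y)⁻¹ = x * y :=
      inv_eq_of_mul_eq_one_left (hV2 (x * y) ((VV L).mul_mem hx hy))
    calc x * y = (x * y)⁻¹ := hxy.symm
      _ = y⁻¹ * x⁻¹ := mul_inv_rev x y
      _ = y * x := by rw [hx', hy']
  -- every element of `V` is `L`-conjugate into `C(J(S))`
  have hconj : ∀ u ∈ VV L, ∃ l ∈ L, l * u * l⁻¹ ∈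
      Subgroup.centralizer (thompsonSubgroupOf 2 (S : Subgroup G) : Set G) := by
    intro u hu
    have hu' : u ∈ ⨆ i : Orb (S : Subgroup G) K, wOf i.1 := hsup.ge hu
    have hc1 : ∀ i j : Orb (S : Subgroup G) K, ∀ x ∈ wOf i.1, ∀ y ∈ wOf j.1, x * y = y * x :=
      fun i j x hx y hy => hVcomm x (hWV i hx) y (hWV j hy)
    have hc2 : ∀ i j : Orb (S : Subgroup G) K, i ≠ j → ∀ w ∈ wOf i.1, ∀ k ∈ j.1,
        k * w = w * k :=
      fun i j hij w hw k hk => Subgroup.mem_centralizer_iff.mp (hcentW i j hij hw) k hk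
    have hc3 : ∀ i : Orb (S : Subgroup G) K, ∀ w ∈ wOf i.1, ∃ k ∈ i.1,
        k * w * k⁻¹ ∈ omegaCenterOf (thompsonSubgroupOf 2 (S : Subgroup G)) ∧
          k * w * k⁻¹ ∈ wOf i.1 :=
      fun i w hw => hKTr hZN0 (S : Subgroup G) i.1 hS2 hSne (hblk i).1 (hfree i) w hw
    obtain ⟨k, hk, hkZ⟩ := conj_into (fun i : Orb (S : Subgroup G) K => wOf i.1)
      (fun i => i.1) (omegaCenterOf (thompsonSubgroupOf 2 (S : Subgroup G))) hc1 hc2 hc3 u hu'
    have hle : (⨆ i : Orb (S : Subgroup G) K, i.1) ≤ L := iSup_le fun i => (hblk i).2.1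
    exact ⟨k, hle hk, omegaCenterOf_le_centralizer _ hkZ⟩
  -- `C_G(u) ≤ L`, TI, and the dichotomy
  obtain ⟨hH1, hTI⟩ := hKTI (thompsonSubgroupOf 2 (S : Subgroup G)) L hLmax.1 hX hNL hconj
  have hF1 := hKF1 (S : Subgroup G) K L hSRc0 hr hNV hV2 hH1 hTI
  have hVcard : 2 < Nat.card ↥(VV L) := by
    obtain ⟨i, -, -⟩ := hr
    have h4 := (hblk i).2.2
    have h5 := Subgroup.card_le_of_le (hWV i)
    omega
  -- the end-game (helper59's `vLeCore` and `rKill`)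
  have hQ'T' : pCoreOf 2 L' ≤ T' := Cfsg.Agent.Helper55.J48.pCoreOf_le_of_sylowIn hL'T'.1
  have hVQ' : VV L ≤ pCoreOf 2 L' := by
    refine Cfsg.Agent.H59.PushKill.vLeCore (VV L) L' (pCoreOf 2 L') hF1 hV2 z hzV hz1 hzQ'
      ((hQ'T'.trans hT'L).trans hLV) (Cfsg.Agent.H51.le_normalizer_pCoreOf 2 L') ?_ ?_
    · intro E hEne hE2 hLE
      exact (hL'max.2 _ (twoLocal_normalizer E hE2 hEne) hLE).le
    · intro E hE2 hEL hLE
      exact Cfsg.Agent.H51.le_pCoreOf 2 hEL hLE hE2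
  have hVT' : VV L ≤ T' := hVQ'.trans hQ'T'
  obtain ⟨hgen, -, hO3, -, -, -⟩ := hK'J
  obtain ⟨F, hFne, hFT', hNTF, hK'F⟩ := Cfsg.Agent.H59.PushKill.rKill (VV L) T' K'
    (pCoreOf 2 K') hF1 hVcard hVT' hT'2 (hT'L.trans hLV) hT'K'
    (Cfsg.Agent.H51.pCoreOf_le 2 K') (hOO.trans hQ'T') hO3 hgen
    (fun h => hK'L (h.trans hNV.le))
  have hNFL : Subgroup.normalizer (F : Set G) ≤ L :=
    Cfsg.Agent.H39.Jz.twoLocal_le_of_normalizer hT'max hS2 hSL hT'S hne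
      (twoLocal_normalizer F (hT'2.to_le hFT') hFne) (inf_le_right.trans hNTF)
  exact hK'L (hK'F.trans hNFL)

end Cfsg.Agent.H28.Jk

#print axioms Cfsg.Agent.H28.Jk.kill
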