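import Cfsg.Agent.H28.JyRdCore
import Cfsg.Agent.H82.JtDich
import Cfsg.Agent.H64.JyDefs
import Cfsg.Agent.H64.JzFinal
import Cfsg.Agent.H62.JyHU
import Cfsg.Agent.H48.JyV
import Cfsg.Agent.H66.JyOz
import Cfsg.Agent.H94.JyGood

/-!
# S2953 / KILL2 case (a): the hypothesis `hRd` of `H28.RKill.rkill4a` at the level of `G`

In the residual situation `RCtx2 S M K L T' K' L'` with `V := Ω₁Z(O₂(L)) ≤ O₂(K' ⊔ T')`,
`z ∈ V ∩ Ω₁Z(S)`, `k ∈ K' ∖ O₂(K')` and `d := (k⁻¹ z k)(k z k⁻¹)`: if `d` lies in a conjugate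
of `V`, every `r ∈ N_S(T')` centralizes `d`.
-/

set_option autoImplicit false
open Cfsg

namespace Cfsg.Agent.H28.Jy

open Cfsg.Agent.H64.Jz

universe u

theorem two_elems {G : Type u} [Group G] (H : Subgroup G) (hc : Nat.card ↥H = 2) (a : G)
    (ha : a ∈ H) (h1 : a ≠ 1) (x : G) (hx : x ∈ H) : x = 1 ∨ x = a := by
  by_contra hcon
  push Not at hcon
  obtain ⟨hx1, hxa⟩ := hcon
  have : Finite ↥H := Nat.finite_of_card_ne_zero (by omega)
  let f : Fin 3 → ↥H := ![⟨1, H.one_mem⟩, ⟨a, ha⟩, ⟨x, hx⟩]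
  have hf : Function.Injective f := by
    intro i j hij
    fin_cases i <;> fin_cases j <;>
      simp_all [f, Subtype.ext_iff, eq_comm]
  have := Nat.card_le_card_of_injective f hf
  rw [hc] at this
  simp at this

theorem norm_zpowers_of_comm {G : Type u} [Group G] (c y : G) (h : y * c = c * y) :
    y ∈ Subgroup.normalizer (Subgroup.zpowers c : Set G) := by
  rw [Subgroup.mem_normalizer_iff]
  have hc : Commute y c := h
  intro w
  constructor
  · intro hw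
    obtain ⟨n, rfl⟩ := Subgroup.mem_zpowers_iff.mp hw
    have h1 : y * c ^ n * y⁻¹ = c ^ n := by
      rw [(hc.zpow_right n).eq, mul_inv_cancel_right]
    rw [h1]; exact hw
  · intro hw
    obtain ⟨n, hn⟩ := Subgroup.mem_zpowers_iff.mp hw
    have h1 : w = c ^ n := by
      have e : w = y⁻¹ * (y * w * y⁻¹) * y := by group
      rw [e, ← hn, mul_assoc, ← (hc.zpow_right n).eq, inv_mul_cancel_left]
    rw [h1]; exact Subgroup.zpow_mem_zpowers c n

theorem rd {G : Type u} [Group G] [Finite G] (S : Sylow 2 G) (M K L T' K' L' : Subgroup G)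
    (hR : Cfsg.Agent.H64.Jy.RCtx2 S M K L T' K' L')
    (hVD : omegaCenterOf (pCoreOf 2 L) ≤ pCoreOf 2 (K' ⊔ T')) (z k : G)
    (hzV : z ∈ omegaCenterOf (pCoreOf 2 L)) (hzS : z ∈ omegaCenterOf (S : Subgroup G))
    (hkK : k ∈ K') (hkO : k ∉ pCoreOf 2 K') :
    (∃ g : G, (k⁻¹ * z * k) * (k * z * k⁻¹) ∈
        (omegaCenterOf (pCoreOf 2 L)).map (MulAut.conj g).toMonoidHom) →
      ∀ r ∈ (S : Subgroup G), r ∈ Subgroup.normalizer (T' : Set G) →
        r * ((k⁻¹ * z * k) * (k * z * k⁻¹)) = ((k⁻¹ * z * k) * (k * z * k⁻¹)) * r := by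
  obtain ⟨hB, hNS, hB', hne⟩ := hR
  intro hex r hrS hrN
  by_cases hz1 : z = 1
  · subst hz1; simp
  -- basic facts about z
  obtain ⟨-, hzC, hz2⟩ := Cfsg.Agent.H63.Sn.mem_omegaCenterOf _ hzS
  have hzc : ∀ s ∈ (S : Subgroup G), s * z = z * s := fun s hs =>
    Subgroup.mem_centralizer_iff.mp hzC s hs
  have hzz : z * z = 1 := by rw [← pow_two]; exact hz2
  -- facts about the base `L`
  obtain ⟨hOO, hOLT, hTS, hKL', hTL'⟩ := Cfsg.Agent.H66.Jy.core_chain S L T' K' L' hB'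
  have hOS : pCoreOf 2 K' ≤ (S : Subgroup G) := hOO.trans (hOLT.trans hTS)
  have hOz : ∀ o ∈ pCoreOf 2 K', o * z = z * o := fun o ho => hzc o (hOS ho)
  have hn : K' ≤ Subgroup.normalizer (pCoreOf 2 K' : Set G) :=
    Cfsg.Agent.Helper55.J48.le_normalizer_pCoreOf K'
  have hKj := hB'.2.2.2.2.2.2.1
  obtain ⟨hgen, hcomm, hrel3, -, -, -⟩ := hKj.1.1
  obtain ⟨hk3, h3⟩ := three_cosets (pCoreOf 2 K') K' hn hrel3 k hkK hkO
  have hgood := Cfsg.Agent.H94.Jy.good_facts S L T' K' L' hB'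
  have hsylP : IsSylowTwoIn T' (K' ⊔ T') := hgood.2.1
  have hDT : pCoreOf 2 (K' ⊔ T') ≤ T' := Cfsg.Agent.Helper55.J48.pCoreOf_le_of_sylowIn hsylP
  have hDn : K' ⊔ T' ≤ Subgroup.normalizer (pCoreOf 2 (K' ⊔ T') : Set G) :=
    Cfsg.Agent.Helper55.J48.le_normalizer_pCoreOf (K' ⊔ T')
  have hzD : z ∈ pCoreOf 2 (K' ⊔ T') := hVD hzV
  have hkD : k ∈ Subgroup.normalizer (pCoreOf 2 (K' ⊔ T') : Set G) :=
    hDn ((le_sup_left : K' ≤ K' ⊔ T') hkK)
  have hk'D : k⁻¹ ∈ Subgroup.normalizer (pCoreOf 2 (K' ⊔ T') : Set G) := Subgroup.inv_mem _ hkD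
  have haD : k⁻¹ * z * k ∈ pCoreOf 2 (K' ⊔ T') := by
    have h := (Subgroup.mem_normalizer_iff.mp hk'D z).mp hzD
    simpa using h
  have hbD : k * z * k⁻¹ ∈ pCoreOf 2 (K' ⊔ T') := (Subgroup.mem_normalizer_iff.mp hkD z).mp hzD
  have hDS : pCoreOf 2 (K' ⊔ T') ≤ (S : Subgroup G) := hDT.trans hTS
  have hza : z * (k⁻¹ * z * k) = (k⁻¹ * z * k) * z := (hzc _ (hDS haD)).symm
  have hzb : z * (k * z * k⁻¹) = (k * z * k⁻¹) * z := (hzc _ (hDS hbD)).symm
  have hab : (k⁻¹ * z * k) * (k * z * k⁻¹) = (k * z * k⁻¹) * (k⁻¹ * z * k) := by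
    have h1 : k * (k * z * k⁻¹) * k⁻¹ ∈ pCoreOf 2 (K' ⊔ T') :=
      (Subgroup.mem_normalizer_iff.mp hkD _).mp hbD
    have h2 := hzc _ (hDS h1)
    calc (k⁻¹ * z * k) * (k * z * k⁻¹) = k⁻¹ * (z * (k * (k * z * k⁻¹) * k⁻¹)) * k := by group
      _ = k⁻¹ * ((k * (k * z * k⁻¹) * k⁻¹) * z) * k := by rw [h2]
      _ = (k * z * k⁻¹) * (k⁻¹ * z * k) := by group
  have hTK : T' ≤ Subgroup.normalizer (K' : Set G) := by
    have hB'' := hB'
    obtain ⟨⟨hchar, hsolv, hZ⟩, hO, hM, hMJ, hT, -, hK, -, -⟩ := hB''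
    have hKn : (K'.subgroupOf (K' ⊔ T')).Normal :=
      Cfsg.Agent.S2952.result hchar hsolv hZ hO S L hM hMJ T' hT K' hK
    exact le_sup_right.trans
      ((Subgroup.normal_subgroupOf_iff_le_normalizer le_sup_left).mp hKn)
  have hTd : ∀ x ∈ T', x * ((k⁻¹ * z * k) * (k * z * k⁻¹)) =
      ((k⁻¹ * z * k) * (k * z * k⁻¹)) * x := by
    intro x hx
    have hxk : x * k * x⁻¹ ∈ K' := (Subgroup.mem_normalizer_iff.mp (hTK hx) k).mp hkK
    exact fix_d (pCoreOf 2 K') K' hn z k hkK hOz h3 hzz hab x (hzc x (hTS hx)) hxk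
  have hKc : ∀ g ∈ K', g * (z * ((k⁻¹ * z * k) * (k * z * k⁻¹))) =
      (z * ((k⁻¹ * z * k) * (k * z * k⁻¹))) * g := by
    intro g hg
    have h := fix_c (pCoreOf 2 K') K' hn z k hkK hOz h3 hk3 hab hza hzb g hg
    rw [mul_assoc z] at h
    exact h
  have haa : (k⁻¹ * z * k) * (k⁻¹ * z * k) = 1 := by
    calc (k⁻¹ * z * k) * (k⁻¹ * z * k) = k⁻¹ * (z * z) * k := by group
      _ = 1 := by rw [hzz]; group
  have hbb : (k * z * k⁻¹) * (k * z * k⁻¹) = 1 := by
    calc (k * z * k⁻¹) * (k * z * k⁻¹) = k * (z * z) * k⁻¹ := by group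
      _ = 1 := by rw [hzz]; group
  have hdd : ((k⁻¹ * z * k) * (k * z * k⁻¹)) * ((k⁻¹ * z * k) * (k * z * k⁻¹)) = 1 := by
    calc ((k⁻¹ * z * k) * (k * z * k⁻¹)) * ((k⁻¹ * z * k) * (k * z * k⁻¹))
        = (k⁻¹ * z * k) * ((k * z * k⁻¹) * (k⁻¹ * z * k)) * (k * z * k⁻¹) := by group
      _ = (k⁻¹ * z * k) * ((k⁻¹ * z * k) * (k * z * k⁻¹)) * (k * z * k⁻¹) := by rw [← hab]
      _ = ((k⁻¹ * z * k) * (k⁻¹ * z * k)) * ((k * z * k⁻¹) * (k * z * k⁻¹)) := by group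
      _ = 1 := by rw [haa, hbb, one_mul]
  have hdT : (k⁻¹ * z * k) * (k * z * k⁻¹) ∈ T' := hDT (mul_mem haD hbD)
  have hzT : z ∈ T' := hDT hzD
  generalize (k⁻¹ * z * k) * (k * z * k⁻¹) = d at hex hTd hKc hdd hdT ⊢
  by_cases hd1 : d = 1
  · rw [hd1, mul_one, one_mul]
  by_cases hdz : d = z
  · rw [hdz]; exact hzc r hrS
  have hzd1 : z * d ≠ 1 := by
    intro h
    apply hdz
    calc d = z * z * d := by rw [hzz, one_mul]
      _ = z * (z * d) := by group
      _ = z := by rw [h, mul_one]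
  have hzZ : z ∈ omegaCenterOf T' :=
    Cfsg.Agent.H63.Sn.omegaCenterOf_mem T' hzT
      (Subgroup.mem_centralizer_iff.mpr (fun x hx => hzc x (hTS hx))) hz2
  have hdZ : d ∈ omegaCenterOf T' :=
    Cfsg.Agent.H63.Sn.omegaCenterOf_mem T' hdT
      (Subgroup.mem_centralizer_iff.mpr hTd) (by rw [pow_two]; exact hdd)
  have hrd : r * d * r⁻¹ ∈ omegaCenterOf T' := by
    refine Cfsg.Agent.H63.Sn.omegaCenterOf_mem T' ((Subgroup.mem_normalizer_iff.mp hrN d).mp hdT)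
      (Subgroup.mem_centralizer_iff.mpr ?_) ?_
    · intro x hx
      have hx' : r⁻¹ * x * r ∈ T' := by
        apply (Subgroup.mem_normalizer_iff.mp hrN (r⁻¹ * x * r)).mpr
        have e : r * (r⁻¹ * x * r) * r⁻¹ = x := by group
        rw [e]; exact hx
      have h := hTd _ hx'
      calc x * (r * d * r⁻¹) = r * ((r⁻¹ * x * r) * d) * r⁻¹ := by group
        _ = r * (d * (r⁻¹ * x * r)) * r⁻¹ := by rw [h]
        _ = (r * d * r⁻¹) * x := by group
    · rw [pow_two]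
      calc (r * d * r⁻¹) * (r * d * r⁻¹) = r * (d * d) * r⁻¹ := by group
        _ = 1 := by rw [hdd]; group
  have hC := Cfsg.Agent.H64.Jz.ltFinal S L T' K' L' hB' hne
  unfold Concl at hC
  rcases hC with ⟨h1, h2⟩ | ⟨-, -, h3⟩ | ⟨h1, h2, -⟩
  · -- clause 1
    have hd0 : d ∈ omegaCenterOf (thompsonSubgroupOf 2 T') :=
      Cfsg.Agent.H87.Zc.omegaCenter_le_J T' hdZ
    have hz0 : z ∈ omegaCenterOf (thompsonSubgroupOf 2 T') := h1 ▸ hzS
    rcases two_elems _ h2 z hz0 hz1 d hd0 with h | h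
    · exact (hd1 h).elim
    · exact (hdz h).elim
  · exact (hne h3).elim
  · -- clause 3
    have h4 : Nat.card ↥(omegaCenterOf T') = 4 := by rw [h1]; exact h2
    have hzzd : z ≠ z * d := by
      intro h
      apply hd1
      have h' : z * 1 = z * d := by rw [mul_one]; exact h
      exact (mul_left_cancel h').symm
    have hdzd : d ≠ z * d := by
      intro h
      apply hz1
      have h' : 1 * d = z * d := by rw [one_mul]; exact h
      exact (mul_right_cancel h').symm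
    rcases Cfsg.Agent.H82.Jt.four_elems (omegaCenterOf T') h4 z d (z * d) hzZ hdZ
      (mul_mem hzZ hdZ) hz1 hd1 hzd1 (Ne.symm hdz) hzzd hdzd (r * d * r⁻¹) hrd with h | h | h | h
    · exfalso; apply hd1
      calc d = r⁻¹ * (r * d * r⁻¹) * r := by group
        _ = 1 := by rw [h]; group
    · exfalso; apply hdz
      have hr := hzc r hrS
      calc d = r⁻¹ * (r * d * r⁻¹) * r := by group
        _ = r⁻¹ * (z * r) := by rw [h]; group
        _ = r⁻¹ * (r * z) := by rw [hr]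
        _ = z := by group
    · calc r * d = (r * d * r⁻¹) * r := by group
        _ = d * r := by rw [h]
    · -- the swap is impossible
      exfalso
      obtain ⟨g0, hg0⟩ := hex
      obtain ⟨v, hvV, hvd⟩ := Subgroup.mem_map.mp hg0
      have hvd' : g0 * v * g0⁻¹ = d := hvd
      have hv1 : v ≠ 1 := by
        intro hv
        apply hd1
        rw [← hvd', hv]; group
      obtain ⟨-, -, -, ⟨z0, -, -, hz0S, -, -, hz0conj⟩, -, -⟩ :=
        Cfsg.Agent.H48.Jy.vfacts S M K L T' K' L' hB hNS hB' hne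
      obtain ⟨k0, -, hk0⟩ := hz0conj v hvV hv1
      obtain ⟨-, hz0C, -⟩ := Cfsg.Agent.H63.Sn.mem_omegaCenterOf _ hz0S
      have hcx : z * d = (r * g0 * k0⁻¹) * z0 * (r * g0 * k0⁻¹)⁻¹ := by
        rw [← h, ← hvd', ← hk0]; group
      have hccT : z * d ∈ T' := mul_mem hzT hdT
      have hU2 : IsPGroup 2 ↥(Subgroup.zpowers (z * d)) :=
        (S.isPGroup'.to_le hTS).to_le (Subgroup.zpowers_le.mpr hccT)
      have hUne : Subgroup.zpowers (z * d) ≠ ⊥ := fun hbot => hzd1 (Subgroup.zpowers_eq_bot.mp hbot)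
      have hKU : K' ≤ Subgroup.normalizer (Subgroup.zpowers (z * d) : Set G) :=
        fun g hg => norm_zpowers_of_comm _ g (hKc g hg)
      have hTU : T' ≤ Subgroup.normalizer (Subgroup.zpowers (z * d) : Set G) := by
        intro x hx
        apply norm_zpowers_of_comm
        have e1 := hzc x (hTS hx)
        have e2 := hTd x hx
        calc x * (z * d) = (x * z) * d := by group
          _ = (z * x) * d := by rw [e1]
          _ = z * (x * d) := by group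
          _ = z * (d * x) := by rw [e2]
          _ = (z * d) * x := by group
      have hJU : thompsonSubgroupOf 2 T' ≤ Subgroup.normalizer (Subgroup.zpowers (z * d) : Set G) :=
        (Cfsg.Agent.H14.thompsonSubgroupOf_le 2 T').trans hTU
      have hNL := Cfsg.Agent.H62.Jy.norm_le S L T' K' L' hB' _ hU2 hUne hKU hJU
      have hRL : (S : Subgroup G).map (MulAut.conj (r * g0 * k0⁻¹)).toMonoidHom ≤ L' := by
        intro y hy
        obtain ⟨s, hsS, hsy⟩ := Subgroup.mem_map.mp hy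
        have hsy' : (r * g0 * k0⁻¹) * s * (r * g0 * k0⁻¹)⁻¹ = y := hsy
        apply hNL
        apply norm_zpowers_of_comm
        have e := Subgroup.mem_centralizer_iff.mp hz0C s hsS
        rw [hcx, ← hsy']
        calc (r * g0 * k0⁻¹) * s * (r * g0 * k0⁻¹)⁻¹ * ((r * g0 * k0⁻¹) * z0 * (r * g0 * k0⁻¹)⁻¹)
            = (r * g0 * k0⁻¹) * (s * z0) * (r * g0 * k0⁻¹)⁻¹ := by group
          _ = (r * g0 * k0⁻¹) * (z0 * s) * (r * g0 * k0⁻¹)⁻¹ := by rw [e]
          _ = _ := by group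
      have hR2 : IsPGroup 2 ↥((S : Subgroup G).map (MulAut.conj (r * g0 * k0⁻¹)).toMonoidHom) :=
        S.isPGroup'.map _
      have hcard : Nat.card ↥((S : Subgroup G).map (MulAut.conj (r * g0 * k0⁻¹)).toMonoidHom) =
          Nat.card ↥(S : Subgroup G) :=
        Subgroup.card_map_of_injective (MulAut.conj (r * g0 * k0⁻¹)).injective
      have hle := Cfsg.Agent.H7.JyNotin.card_le_sylIn
        (Cfsg.Agent.H7.JyNotin.sylIn_of_base S L T' K' L' hB') hRL hR2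
      rw [hcard] at hle
      exact hne (Subgroup.eq_of_le_of_card_ge hTS hle)

end Cfsg.Agent.H28.Jy

#print axioms Cfsg.Agent.H28.Jy.rd
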