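import Cfsg.Agent.H28.ESSimple2
import Cfsg.Agent.H92.Extra2

set_option autoImplicit false
open Cfsg

/-!
# Large extraspecial images in quotients of involution centralizers

`Q = F*(C(z))` extraspecial, `s = z^g ∈ Q`, `t ∈ Q ∩ Q^g` an involution not conjugate to `z`:
the image of `C_Q(t)` in `C(t)/⟨t⟩` is a large extraspecial 2-subgroup.
-/

namespace Cfsg.Agent.H28.LES2

open Cfsg.Agent.H92

variable {G : Type*} [Group G]

/-- The extraspecial generalized Fitting subgroup of an involution centralizer, given as a subgroup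
of `G`, is an `ESPair`. -/
theorem espair_of_map [Finite G] (z : G) (hz : orderOf z = 2) (Q : Subgroup G)
    (hQC : Q ≤ Subgroup.centralizer ({z} : Set G))
    (hF : (Cfsg.generalizedFittingSubgroup ↥(Subgroup.centralizer ({z} : Set G))).map
      (Subgroup.centralizer ({z} : Set G)).subtype = Q)
    (hQ : Cfsg.IsExtraspecial 2 ↥Q) :
    ESPair Q z ∧ (∀ x, x ∈ (Subgroup.center ↥Q).map Q.subtype ↔ x = 1 ∨ x = z) := by
  have hz1 : z ≠ 1 := by
    intro h1
    rw [h1, orderOf_one] at hz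
    omega
  have hzH : z ∈ Subgroup.centralizer ({z} : Set G) :=
    Subgroup.mem_centralizer_singleton_iff.mpr rfl
  have hcen := Cfsg.Agent.H28.centralizer_genFitting_le
    (G := ↥(Subgroup.centralizer ({z} : Set G)))
  have hFQ : ∀ f : ↥(Subgroup.centralizer ({z} : Set G)),
      f ∈ Cfsg.generalizedFittingSubgroup ↥(Subgroup.centralizer ({z} : Set G)) →
        (f : G) ∈ Q := by
    intro f hf
    rw [← hF]
    exact ⟨f, hf, rfl⟩
  have hmemF : ∀ c : G, ∀ hc : c ∈ Subgroup.centralizer ({z} : Set G),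
      (∀ q ∈ Q, q * c = c * q) →
      (⟨c, hc⟩ : ↥(Subgroup.centralizer ({z} : Set G))) ∈
        Cfsg.generalizedFittingSubgroup ↥(Subgroup.centralizer ({z} : Set G)) := by
    intro c hc hcq
    apply hcen
    rw [Subgroup.mem_centralizer_iff]
    intro f hf
    apply Subtype.ext
    exact hcq f (hFQ f hf)
  have hzQ : z ∈ Q := by
    apply hFQ ⟨z, hzH⟩
    apply hmemF z hzH
    intro q hq
    exact Subgroup.mem_centralizer_singleton_iff.mp (hQC hq)
  have hL2 : Subgroup.centralizer (Q : Set G) = (Subgroup.center ↥Q).map Q.subtype := by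
    apply le_antisymm
    · intro c hc
      have hcq : ∀ q ∈ Q, q * c = c * q := fun q hq => Subgroup.mem_centralizer_iff.mp hc q hq
      have hcz : c * z = z * c := (hcq z hzQ).symm
      have hcH : c ∈ Subgroup.centralizer ({z} : Set G) :=
        Subgroup.mem_centralizer_singleton_iff.mpr hcz
      have hcQ : c ∈ Q := hFQ ⟨c, hcH⟩ (hmemF c hcH hcq)
      refine ⟨⟨c, hcQ⟩, ?_, rfl⟩
      rw [SetLike.mem_coe, Subgroup.mem_center_iff]
      intro y
      apply Subtype.ext
      exact hcq y y.2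
    · rintro _ ⟨x, hx, rfl⟩
      rw [Subgroup.mem_centralizer_iff]
      intro y hy
      have h1 := Subgroup.mem_center_iff.mp hx ⟨y, hy⟩
      exact congrArg Subtype.val h1
  have hzZ : z ∈ (Subgroup.center ↥Q).map Q.subtype := by
    refine ⟨⟨z, hzQ⟩, ?_, rfl⟩
    rw [SetLike.mem_coe, Subgroup.mem_center_iff]
    intro y
    apply Subtype.ext
    exact Subgroup.mem_centralizer_singleton_iff.mp (hQC y.2)
  have hFn := Cfsg.Agent.H28.genFitting_normal (G := ↥(Subgroup.centralizer ({z} : Set G)))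
  have hL3 : Subgroup.centralizer (((Subgroup.center ↥Q).map Q.subtype : Subgroup G) : Set G) ≤
      Subgroup.normalizer (Q : Set G) := by
    intro c hc
    have hcz : c * z = z * c := (Subgroup.mem_centralizer_iff.mp hc z hzZ).symm
    have hcH : c ∈ Subgroup.centralizer ({z} : Set G) :=
      Subgroup.mem_centralizer_singleton_iff.mpr hcz
    apply Subgroup.mem_normalizer_fintype
    intro q hq
    have hq' : q ∈ (Cfsg.generalizedFittingSubgroup ↥(Subgroup.centralizer ({z} : Set G))).map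
        (Subgroup.centralizer ({z} : Set G)).subtype := by rw [hF]; exact hq
    obtain ⟨f, hf, rfl⟩ := hq'
    exact hFQ (⟨c, hcH⟩ * f * ⟨c, hcH⟩⁻¹) (hFn.conj_mem f hf ⟨c, hcH⟩)
  obtain ⟨z', hE, hZ'⟩ := ESPair.of_hyp Q hQ hL2 hL3
  have hzz' : z = z' := by
    rcases (hZ' z).mp hzZ with h1 | h1
    · exact absurd h1 hz1
    · exact h1
  subst hzz'
  exact ⟨hE, hZ'⟩

/-- An odd-order subgroup on which the involutions `z`, `s` act fixed-point-freely, where `s` and
`z s` are conjugate under an element normalizing it, is trivial. -/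
theorem odd_trivial_of_fpf (K : Subgroup G) [Finite K] (z s q : G)
    (hzz : z * z = 1) (hss : s * s = 1)
    (hzK : ∀ k ∈ K, z * k * z⁻¹ ∈ K) (hsK : ∀ k ∈ K, s * k * s⁻¹ ∈ K)
    (hqK : ∀ k ∈ K, q⁻¹ * k * q ∈ K)
    (hq : q * s * q⁻¹ = z * s)
    (hz : ∀ k ∈ K, z * k = k * z → k = 1) (hs : ∀ k ∈ K, s * k = k * s → k = 1) : K = ⊥ := by
  have hzi := inverts_of_fixedPointFree K z hzz hzK hz
  have hsi := inverts_of_fixedPointFree K s hss hsK hs
  rw [Subgroup.eq_bot_iff_forall]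
  intro k hk
  have h1 : (z * s) * k * (z * s)⁻¹ = k := by
    calc (z * s) * k * (z * s)⁻¹ = z * (s * k * s⁻¹) * z⁻¹ := by simp [mul_assoc]
      _ = z * k⁻¹ * z⁻¹ := by rw [hsi k hk]
      _ = k⁻¹⁻¹ := hzi k⁻¹ (K.inv_mem hk)
      _ = k := inv_inv k
  have h2 : s * (q⁻¹ * k * q) = (q⁻¹ * k * q) * s := by
    rw [← hq] at h1
    have := congrArg (fun x => q⁻¹ * x * (q * s)) h1
    simpa [mul_assoc] using this
  have h3 := hs _ (hqK k hk) h2
  have := congrArg (fun x => q * x * q⁻¹) h3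
  simpa [mul_assoc] using this

/-- Main lemma: the image of `P = C_Q(t)` in `C(t)/⟨t⟩` is large extraspecial, and `s` is
conjugate to `z` in `⟨P, C_{Q'}(t)⟩`. -/
theorem large_quot [Finite G] {Q Q' : Subgroup G} {z s t : G} (hE : ESPair Q z)
    (hE' : ESPair Q' s) (hcardQ : 32 ≤ Nat.card ↥Q) (hs : s ∈ Q) (hsz : s ≠ z) (hzQ' : z ∈ Q')
    (hsconj : IsConj z s) (htt : t * t = 1) (ht1 : t ≠ 1) (htQ : t ∈ Q) (htQ' : t ∈ Q')
    (htz : ¬ IsConj z t) (P : Subgroup G) (hPmem : ∀ x, x ∈ P ↔ x ∈ Q ∧ x * t = t * x)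
    (hCP : ∀ c : G, c * z = z * c →
      (∀ x ∈ P, c * x * c⁻¹ = x ∨ c * x * c⁻¹ = x * t) → c ∈ Q)
    (Ct : Subgroup G) (hCt : ∀ x, x ∈ Ct ↔ x * t = t * x)
    (N : Subgroup ↥Ct) [N.Normal] (hN : ∀ x : ↥Ct, x ∈ N ↔ (x : G) = 1 ∨ (x : G) = t) :
    Cfsg.IsLargeExtraspecial ((P.subgroupOf Ct).map (QuotientGroup.mk' N)) ∧
      ∃ x ∈ P ⊔ (Q' ⊓ Ct), x * s * x⁻¹ = z := by
  have htinv : t⁻¹ = t := inv_eq_of_mul_eq_one_left htt
  have hzz := hE.z_sq
  have hss := hE'.z_sq
  have hs1 := hE'.z_ne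
  have hsinv : s⁻¹ = s := inv_eq_of_mul_eq_one_left hss
  have hzs : z * s = s * z := (hE.z_central s hs).symm
  -- non-conjugacy facts
  have hN1 : ∀ c : G, c * z * c⁻¹ ≠ t := fun c h => htz (isConj_iff.mpr ⟨c, h⟩)
  have htz' : t ≠ z := fun h => hN1 1 (by simp [h])
  obtain ⟨c₀, hc₀⟩ := isConj_iff.mp hsconj
  have hts : t ≠ s := fun h => hN1 c₀ (hc₀.trans h.symm)
  obtain ⟨q₁, hq₁Q, hq₁⟩ := hE.exists_conj htQ ht1 htz'
  have hN2 : ∀ c : G, c * z * c⁻¹ ≠ z * t := by
    intro c h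
    apply hN1 (q₁⁻¹ * c)
    calc q₁⁻¹ * c * z * (q₁⁻¹ * c)⁻¹ = q₁⁻¹ * (c * z * c⁻¹) * q₁ := by simp [mul_assoc]
      _ = q₁⁻¹ * (q₁ * t * q₁⁻¹) * q₁ := by rw [h, hq₁]
      _ = t := by simp [mul_assoc]
  obtain ⟨q₂, hq₂Q, hq₂⟩ := hE'.exists_conj htQ' ht1 hts
  have hN3 : ∀ c : G, c * s * c⁻¹ ≠ s * t := by
    intro c h
    apply hN1 (q₂⁻¹ * c * c₀)
    calc q₂⁻¹ * c * c₀ * z * (q₂⁻¹ * c * c₀)⁻¹
        = q₂⁻¹ * (c * (c₀ * z * c₀⁻¹) * c⁻¹) * q₂ := by simp [mul_assoc]
      _ = q₂⁻¹ * (q₂ * t * q₂⁻¹) * q₂ := by rw [hc₀, h, hq₂]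
      _ = t := by simp [mul_assoc]
  obtain ⟨q₃, hq₃Q, hq₃⟩ := hE.exists_conj hs hs1 hsz
  have htzs : t ≠ z * s := by
    intro h
    apply hN1 (q₃ * c₀)
    calc q₃ * c₀ * z * (q₃ * c₀)⁻¹ = q₃ * (c₀ * z * c₀⁻¹) * q₃⁻¹ := by simp [mul_assoc]
      _ = z * s := by rw [hc₀, hq₃]
      _ = t := h.symm
  -- membership facts
  have hPQ : P ≤ Q := fun x hx => ((hPmem x).mp hx).1
  have hzt : z * t = t * z := (hE.z_central t htQ).symm
  have hst : s * t = t * s := (hE'.z_central t htQ').symm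
  have hzP : z ∈ P := (hPmem z).mpr ⟨hE.z_mem, hzt⟩
  have hsP : s ∈ P := (hPmem s).mpr ⟨hs, hst⟩
  have hPCt : ∀ x ∈ P, x ∈ Ct := fun x hx => (hCt x).mpr ((hPmem x).mp hx).2
  have htc : ∀ c : ↥Ct, (c : G) * t = t * c := fun c => (hCt c).mp c.2
  -- an element of `P` moving `s`
  have hexq : ∃ q ∈ P, q * s * q⁻¹ = z * s := by
    by_contra hcon
    have hall : ∀ a ∈ Q, a * t = t * a → a * s = s * a := by
      intro a ha hat
      rcases hE.conj_eq ha hs with h1 | h1
      · exact mul_inv_eq_iff_eq_mul.mp h1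
      · exact absurd ⟨a, (hPmem a).mpr ⟨ha, hat⟩, h1⟩ hcon
    rcases hE.dcent htQ ht1 htz' hs hall with h1 | h1 | h1 | h1
    · exact hs1 h1
    · exact hsz h1
    · apply hts
      have := eq_inv_of_mul_eq_one_right h1
      rw [this, hsinv]
    · apply htzs
      have h2 : t = s⁻¹ * z := by rw [← h1]; simp
      rw [h2, hsinv, hzs]
  -- the quotient
  have hπ : ∀ a b : ↥Ct, (QuotientGroup.mk' N a = QuotientGroup.mk' N b) ↔
      ((b : G) = a ∨ (b : G) = a * t) := by
    intro a b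
    rw [QuotientGroup.mk'_apply, QuotientGroup.mk'_apply, QuotientGroup.eq, hN]
    constructor
    · rintro (h | h)
      · left
        have := congrArg (fun x => (a : G) * x) h
        simpa using this
      · right
        have := congrArg (fun x => (a : G) * x) h
        simpa using this
    · rintro (h | h)
      · left; simp [h]
      · right; simp [h]
  have hPbar : ∀ y, y ∈ (P.subgroupOf Ct).map (QuotientGroup.mk' N) ↔
      ∃ x : ↥Ct, (x : G) ∈ P ∧ QuotientGroup.mk' N x = y := by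
    intro y
    rw [Subgroup.mem_map]
    constructor
    · rintro ⟨x, hx, rfl⟩; exact ⟨x, Subgroup.mem_subgroupOf.mp hx, rfl⟩
    · rintro ⟨x, hx, rfl⟩; exact ⟨x, Subgroup.mem_subgroupOf.mpr hx, rfl⟩
  -- lifting commutation
  have hQ3 : ∀ a b : ↥Ct, (a : G) ∈ Q → (b : G) ∈ Q →
      QuotientGroup.mk' N a * QuotientGroup.mk' N b =
        QuotientGroup.mk' N b * QuotientGroup.mk' N a → (a : G) * b = b * a := by
    intro a b ha hb h
    rw [← map_mul, ← map_mul, hπ] at h
    rcases h with h | h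
    · simpa using h.symm
    · exfalso
      have h' : (b : G) * a = a * b * t := by simpa using h
      have h2 : (b : G) * a * (b : G)⁻¹ * (a : G)⁻¹ = t := by
        rw [h']
        have e1 := htc a
        have e2 := htc b
        calc (a : G) * b * t * (b : G)⁻¹ * (a : G)⁻¹
            = (a : G) * ((b : G) * t) * (b : G)⁻¹ * (a : G)⁻¹ := by simp [mul_assoc]
          _ = (a : G) * (t * b) * (b : G)⁻¹ * (a : G)⁻¹ := by rw [e2]
          _ = ((a : G) * t) * (a : G)⁻¹ := by simp [mul_assoc]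
          _ = t := by rw [e1]; simp
      rcases hE.comm b hb a ha with h3 | h3
      · exact ht1 (h2.symm.trans h3)
      · exact htz' (h2.symm.trans h3)
  -- lifting centralization of `z`
  have hliftz : ∀ c : ↥Ct, QuotientGroup.mk' N ⟨z, hPCt z hzP⟩ * QuotientGroup.mk' N c =
      QuotientGroup.mk' N c * QuotientGroup.mk' N ⟨z, hPCt z hzP⟩ → (c : G) * z = z * c := by
    intro c h1
    rw [← map_mul, ← map_mul, hπ] at h1
    rcases h1 with h1 | h1
    · simpa using h1
    · exfalso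
      have h1' : (c : G) * z = z * c * t := by simpa using h1
      apply hN2 c
      rw [h1']
      have := htc c
      calc z * (c : G) * t * (c : G)⁻¹ = z * ((c : G) * t) * (c : G)⁻¹ := by simp [mul_assoc]
        _ = z * (t * c) * (c : G)⁻¹ := by rw [this]
        _ = z * t := by simp [mul_assoc]
  -- the centre of the image
  have hZ1 : ∀ c : ↥Ct, (c : G) ∈ P →
      (∀ x : ↥Ct, (x : G) ∈ P → QuotientGroup.mk' N x * QuotientGroup.mk' N c =
        QuotientGroup.mk' N c * QuotientGroup.mk' N x) →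
      QuotientGroup.mk' N c = 1 ∨ QuotientGroup.mk' N c = QuotientGroup.mk' N ⟨z, hPCt z hzP⟩ := by
    intro c hc hall
    have hcQ := hPQ hc
    have h1 : ∀ a ∈ Q, a * t = t * a → a * (c : G) = c * a := by
      intro a ha hat
      have haCt : a ∈ Ct := (hCt a).mpr hat
      exact hQ3 ⟨a, haCt⟩ c ha hcQ (hall ⟨a, haCt⟩ ((hPmem a).mpr ⟨ha, hat⟩))
    rcases hE.dcent htQ ht1 htz' hcQ h1 with h2 | h2 | h2 | h2
    · left
      have : c = 1 := Subtype.ext h2
      rw [this, map_one]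
    · right
      have : c = ⟨z, hPCt z hzP⟩ := Subtype.ext h2
      rw [this]
    · left
      have : QuotientGroup.mk' N c = QuotientGroup.mk' N 1 :=
        (hπ c 1).mpr (Or.inr (by simpa using h2.symm))
      rw [this, map_one]
    · right
      exact (hπ c ⟨z, hPCt z hzP⟩).mpr (Or.inr h2.symm)
  have hzbarP : QuotientGroup.mk' N ⟨z, hPCt z hzP⟩ ∈ (P.subgroupOf Ct).map (QuotientGroup.mk' N) :=
    (hPbar _).mpr ⟨_, hzP, rfl⟩
  have hsbarP : QuotientGroup.mk' N ⟨s, hPCt s hsP⟩ ∈ (P.subgroupOf Ct).map (QuotientGroup.mk' N) :=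
    (hPbar _).mpr ⟨_, hsP, rfl⟩
  have hzbar1 : QuotientGroup.mk' N ⟨z, hPCt z hzP⟩ ≠ 1 := by
    intro h
    have h' : QuotientGroup.mk' N ⟨z, hPCt z hzP⟩ = QuotientGroup.mk' N 1 := by rw [h, map_one]
    rcases (hπ _ _).mp h' with h1 | h1
    · exact hE.z_ne (by simpa using h1.symm)
    · apply htz'
      have h2 : z * t = 1 := by simpa using h1.symm
      have := eq_inv_of_mul_eq_one_right h2
      rw [this, hE.z_inv]
  have hzbarzz : QuotientGroup.mk' N ⟨z, hPCt z hzP⟩ * QuotientGroup.mk' N ⟨z, hPCt z hzP⟩ = 1 := by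
    rw [← map_mul]
    have : (⟨z, hPCt z hzP⟩ : ↥Ct) * ⟨z, hPCt z hzP⟩ = 1 := Subtype.ext hzz
    rw [this, map_one]
  have hsbarss : QuotientGroup.mk' N ⟨s, hPCt s hsP⟩ * QuotientGroup.mk' N ⟨s, hPCt s hsP⟩ = 1 := by
    rw [← map_mul]
    have : (⟨s, hPCt s hsP⟩ : ↥Ct) * ⟨s, hPCt s hsP⟩ = 1 := Subtype.ext hss
    rw [this, map_one]
  have hzbarc : ∀ x ∈ (P.subgroupOf Ct).map (QuotientGroup.mk' N),
      x * QuotientGroup.mk' N ⟨z, hPCt z hzP⟩ = QuotientGroup.mk' N ⟨z, hPCt z hzP⟩ * x := by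
    intro x hx
    obtain ⟨x, hxP, rfl⟩ := (hPbar _).mp hx
    rw [← map_mul, ← map_mul]
    congr 1
    exact Subtype.ext (hE.z_central x (hPQ hxP))
  -- extraspecial
  have hES : Cfsg.IsExtraspecial 2 ↥((P.subgroupOf Ct).map (QuotientGroup.mk' N)) := by
    refine isExtraspecial_two_of _ (QuotientGroup.mk' N ⟨z, hPCt z hzP⟩) hzbarP hzbar1 hzbarzz
      hzbarc ?_ ?_ ?_ ?_
    · intro x hx y hy
      obtain ⟨x, hxP, rfl⟩ := (hPbar _).mp hx
      obtain ⟨y, hyP, rfl⟩ := (hPbar _).mp hy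
      rw [← map_inv, ← map_inv, ← map_mul, ← map_mul, ← map_mul]
      rcases hE.comm x (hPQ hxP) y (hPQ hyP) with h | h
      · left
        have : x * y * x⁻¹ * y⁻¹ = 1 := Subtype.ext (by simpa using h)
        rw [this, map_one]
      · right
        have : x * y * x⁻¹ * y⁻¹ = ⟨z, hPCt z hzP⟩ := Subtype.ext (by simpa using h)
        rw [this]
    · intro x hx
      obtain ⟨x, hxP, rfl⟩ := (hPbar _).mp hx
      rw [← map_mul]
      rcases hE.sq x (hPQ hxP) with h | h
      · left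
        have : x * x = 1 := Subtype.ext (by simpa using h)
        rw [this, map_one]
      · right
        have : x * x = ⟨z, hPCt z hzP⟩ := Subtype.ext (by simpa using h)
        rw [this]
    · intro c hc hall
      obtain ⟨c, hcP, rfl⟩ := (hPbar _).mp hc
      exact hZ1 c hcP (fun x hx => hall _ ((hPbar _).mpr ⟨x, hx, rfl⟩))
    · obtain ⟨y, hyQ, hyt, hyy⟩ := hE.exists_sqrt hcardQ htQ ht1 htz'
      have hex : ∃ x ∈ Q, x * t = t * x ∧ x * y ≠ y * x := by
        by_contra hcon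
        have hall : ∀ a ∈ Q, a * t = t * a → a * y = y * a := by
          intro a ha hat
          by_contra hne
          exact hcon ⟨a, ha, hat, hne⟩
        have hy1 : y * y = 1 := by
          rcases hE.dcent htQ ht1 htz' hyQ hall with h1 | h1 | h1 | h1
          · rw [h1, one_mul]
          · rw [h1, hzz]
          · have := eq_inv_of_mul_eq_one_left h1
            rw [this, htinv, htt]
          · have h2 : y = z * t := by
              have := congrArg (fun u => u * t) h1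
              simpa [mul_assoc, htt] using this
            rw [h2]
            calc z * t * (z * t) = z * (t * z) * t := by simp [mul_assoc]
              _ = z * (z * t) * t := by rw [hzt]
              _ = (z * z) * (t * t) := by simp [mul_assoc]
              _ = 1 := by rw [hzz, htt, one_mul]
        exact hE.z_ne (hyy.symm.trans hy1)
      obtain ⟨x, hxQ, hxt, hxy⟩ := hex
      have hxCt : x ∈ Ct := (hCt x).mpr hxt
      have hyCt : y ∈ Ct := (hCt y).mpr hyt
      refine ⟨QuotientGroup.mk' N ⟨x, hxCt⟩, (hPbar _).mpr ⟨_, (hPmem x).mpr ⟨hxQ, hxt⟩, rfl⟩,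
        QuotientGroup.mk' N ⟨y, hyCt⟩, (hPbar _).mpr ⟨_, (hPmem y).mpr ⟨hyQ, hyt⟩, rfl⟩, ?_⟩
      intro h
      exact hxy (hQ3 ⟨x, hxCt⟩ ⟨y, hyCt⟩ hxQ hyQ h)
  -- the centralizer of the image
  have hL2 : Subgroup.centralizer
      (((P.subgroupOf Ct).map (QuotientGroup.mk' N) : Subgroup (↥Ct ⧸ N)) : Set (↥Ct ⧸ N)) =
      (Subgroup.center ↥((P.subgroupOf Ct).map (QuotientGroup.mk' N))).map
        ((P.subgroupOf Ct).map (QuotientGroup.mk' N)).subtype := by
    apply le_antisymm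
    · intro c' hc'
      obtain ⟨c, rfl⟩ := QuotientGroup.mk'_surjective N c'
      have hcomm : ∀ x : ↥Ct, (x : G) ∈ P → QuotientGroup.mk' N x * QuotientGroup.mk' N c =
          QuotientGroup.mk' N c * QuotientGroup.mk' N x := fun x hx =>
        Subgroup.mem_centralizer_iff.mp hc' _ ((hPbar _).mpr ⟨x, hx, rfl⟩)
      have hcz : (c : G) * z = z * c := hliftz c (hcomm _ hzP)
      have hcQ : (c : G) ∈ Q := by
        apply hCP (c : G) hcz
        intro x hx
        have h2 := hcomm ⟨x, hPCt x hx⟩ hx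
        rw [← map_mul, ← map_mul, hπ] at h2
        rcases h2 with h2 | h2
        · left
          have h2' : (c : G) * x = x * c := by simpa using h2
          rw [h2']; simp
        · right
          have h2' : (c : G) * x = x * c * t := by simpa using h2
          rw [h2']
          have := htc c
          calc x * (c : G) * t * (c : G)⁻¹ = x * ((c : G) * t) * (c : G)⁻¹ := by simp [mul_assoc]
            _ = x * (t * c) * (c : G)⁻¹ := by rw [this]
            _ = x * t := by simp [mul_assoc]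
      have hcP : (c : G) ∈ P := (hPmem _).mpr ⟨hcQ, htc c⟩
      refine ⟨⟨QuotientGroup.mk' N c, (hPbar _).mpr ⟨c, hcP, rfl⟩⟩, ?_, rfl⟩
      rw [SetLike.mem_coe, Subgroup.mem_center_iff]
      intro y
      apply Subtype.ext
      exact Subgroup.mem_centralizer_iff.mp hc' y y.2
    · rintro _ ⟨x, hx, rfl⟩
      rw [Subgroup.mem_centralizer_iff]
      intro y hy
      have h1 := Subgroup.mem_center_iff.mp hx ⟨y, hy⟩
      exact congrArg Subtype.val h1
  have hzbarZ : QuotientGroup.mk' N ⟨z, hPCt z hzP⟩ ∈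
      (Subgroup.center ↥((P.subgroupOf Ct).map (QuotientGroup.mk' N))).map
        ((P.subgroupOf Ct).map (QuotientGroup.mk' N)).subtype := by
    refine ⟨⟨_, hzbarP⟩, ?_, rfl⟩
    rw [SetLike.mem_coe, Subgroup.mem_center_iff]
    intro y
    apply Subtype.ext
    exact hzbarc y y.2
  have hZ2 : ∀ y ∈ (Subgroup.center ↥((P.subgroupOf Ct).map (QuotientGroup.mk' N))).map
        ((P.subgroupOf Ct).map (QuotientGroup.mk' N)).subtype,
      y = 1 ∨ y = QuotientGroup.mk' N ⟨z, hPCt z hzP⟩ := by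
    rintro _ ⟨y, hy, rfl⟩
    obtain ⟨c, hcP, hcy⟩ := (hPbar _).mp y.2
    have hyc := Subgroup.mem_center_iff.mp hy
    have := hZ1 c hcP (fun x hx => by
      have h1 := hyc ⟨QuotientGroup.mk' N x, (hPbar _).mpr ⟨x, hx, rfl⟩⟩
      have h2 := congrArg Subtype.val h1
      rw [hcy]
      exact h2)
    rw [hcy] at this
    exact this
  have hL3 : Subgroup.centralizer
      (((Subgroup.center ↥((P.subgroupOf Ct).map (QuotientGroup.mk' N))).map
        ((P.subgroupOf Ct).map (QuotientGroup.mk' N)).subtype : Subgroup (↥Ct ⧸ N)) :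
          Set (↥Ct ⧸ N)) ≤
      Subgroup.normalizer
        (((P.subgroupOf Ct).map (QuotientGroup.mk' N) : Subgroup (↥Ct ⧸ N)) : Set (↥Ct ⧸ N)) := by
    intro c' hc'
    obtain ⟨c, rfl⟩ := QuotientGroup.mk'_surjective N c'
    have hcz := hliftz c (Subgroup.mem_centralizer_iff.mp hc' _ hzbarZ)
    apply Subgroup.mem_normalizer_fintype
    intro x' hx'
    rw [SetLike.mem_coe, hPbar] at hx' ⊢
    obtain ⟨x, hx, rfl⟩ := hx'
    refine ⟨c * x * c⁻¹, ?_, by simp⟩
    rw [hPmem]
    refine ⟨?_, htc _⟩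
    have := hE.norm (c : G) hcz x (hPQ hx)
    simpa using this
  -- odd-order subgroups
  have hOdd : ∀ K : Subgroup (↥Ct ⧸ N), Odd (Nat.card K) →
      (P.subgroupOf Ct).map (QuotientGroup.mk' N) ≤ Subgroup.normalizer (K : Set (↥Ct ⧸ N)) →
        K = ⊥ := by
    intro K hKodd hPK
    have hPbK : (P.subgroupOf Ct).map (QuotientGroup.mk' N) ⊓ K = ⊥ :=
      inf_eq_bot_of_two_odd _ K hES.1.1 hKodd
    have hnorm : ∀ p ∈ (P.subgroupOf Ct).map (QuotientGroup.mk' N), ∀ k ∈ K, p * k * p⁻¹ ∈ K :=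
      fun p hp k hk => (Subgroup.mem_normalizer_iff.mp (hPK hp) k).mp hk
    -- `z` acts fixed-point-freely
    have hfz : ∀ k ∈ K, QuotientGroup.mk' N ⟨z, hPCt z hzP⟩ * k =
        k * QuotientGroup.mk' N ⟨z, hPCt z hzP⟩ → k = 1 := by
      intro k hk hzk
      have hkN : k ∈ Subgroup.normalizer
          (((P.subgroupOf Ct).map (QuotientGroup.mk' N) : Subgroup (↥Ct ⧸ N)) : Set (↥Ct ⧸ N)) := by
        apply hL3
        rw [Subgroup.mem_centralizer_iff]
        intro y hy
        rcases hZ2 y hy with h | h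
        · rw [h]; simp
        · rw [h]; exact hzk
      have hkC : k ∈ Subgroup.centralizer
          (((P.subgroupOf Ct).map (QuotientGroup.mk' N) : Subgroup (↥Ct ⧸ N)) : Set (↥Ct ⧸ N)) := by
        rw [Subgroup.mem_centralizer_iff]
        intro p hp
        have h1 : k * p * k⁻¹ * p⁻¹ ∈ (P.subgroupOf Ct).map (QuotientGroup.mk' N) ⊓ K := by
          refine Subgroup.mem_inf.mpr ⟨?_, ?_⟩
          · exact Subgroup.mul_mem _ ((Subgroup.mem_normalizer_iff.mp hkN p).mp hp)
              (Subgroup.inv_mem _ hp)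
          · have h2 := hnorm p hp k⁻¹ (Subgroup.inv_mem _ hk)
            have h3 := Subgroup.mul_mem _ hk h2
            have e : k * p * k⁻¹ * p⁻¹ = k * (p * k⁻¹ * p⁻¹) := by simp [mul_assoc]
            rw [e]; exact h3
        rw [hPbK, Subgroup.mem_bot] at h1
        have h2 : k * p * k⁻¹ = p := mul_inv_eq_one.mp h1
        exact (mul_inv_eq_iff_eq_mul.mp h2).symm
      rw [hL2] at hkC
      rcases hZ2 k hkC with h | h
      · exact h
      · exfalso
        apply hzbar1
        have h1 : QuotientGroup.mk' N ⟨z, hPCt z hzP⟩ ∈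
            (P.subgroupOf Ct).map (QuotientGroup.mk' N) ⊓ K :=
          Subgroup.mem_inf.mpr ⟨hzbarP, h ▸ hk⟩
        rw [hPbK, Subgroup.mem_bot] at h1
        exact h1
    have hzi := inverts_of_fixedPointFree K _ hzbarzz (hnorm _ hzbarP) hfz
    obtain ⟨q, hqP, hq⟩ := hexq
    have hqbarP : QuotientGroup.mk' N ⟨q, hPCt q hqP⟩ ∈ (P.subgroupOf Ct).map (QuotientGroup.mk' N) :=
      (hPbar _).mpr ⟨_, hqP, rfl⟩
    apply odd_trivial_of_fpf K (QuotientGroup.mk' N ⟨z, hPCt z hzP⟩)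
      (QuotientGroup.mk' N ⟨s, hPCt s hsP⟩) (QuotientGroup.mk' N ⟨q, hPCt q hqP⟩) hzbarzz hsbarss
      (hnorm _ hzbarP) (hnorm _ hsbarP) ?_ ?_ hfz ?_
    · intro k hk
      have := hnorm _ (Subgroup.inv_mem _ hqbarP) k hk
      simpa using this
    · rw [← map_inv, ← map_mul, ← map_mul, ← map_mul]
      congr 1
      exact Subtype.ext hq
    · intro k hk hsk
      obtain ⟨c, rfl⟩ := QuotientGroup.mk'_surjective N k
      have hcs : (c : G) * s = s * c := by
        rw [← map_mul, ← map_mul, hπ] at hsk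
        rcases hsk with h | h
        · simpa using h
        · exfalso
          have h' : (c : G) * s = s * c * t := by simpa using h
          apply hN3 c
          rw [h']
          have := htc c
          calc s * (c : G) * t * (c : G)⁻¹ = s * ((c : G) * t) * (c : G)⁻¹ := by simp [mul_assoc]
            _ = s * (t * c) * (c : G)⁻¹ := by rw [this]
            _ = s * t := by simp [mul_assoc]
      have h1 := hzi _ hk
      rw [← map_inv, ← map_mul, ← map_mul, ← map_inv, hπ] at h1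
      have h2 : (c : G) * (c : G) ∈ Q' := by
        have hn1 : (c : G) * z * (c : G)⁻¹ ∈ Q' := hE'.norm c hcs z hzQ'
        have hn2 : (c : G) * z * (c : G)⁻¹ * z⁻¹ ∈ Q' := Q'.mul_mem hn1 (Q'.inv_mem hzQ')
        rcases h1 with h1 | h1
        · have h1' : (c : G)⁻¹ = z * c * z⁻¹ := by simpa using h1
          have e1 : z * (c : G)⁻¹ * z⁻¹ = (c : G) := by
            have := congrArg (fun x => x⁻¹) h1'
            simpa [mul_assoc] using this.symm
          have e : (c : G) * z * (c : G)⁻¹ * z⁻¹ = (c : G) * (c : G) := by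
            calc (c : G) * z * (c : G)⁻¹ * z⁻¹ = (c : G) * (z * (c : G)⁻¹ * z⁻¹) := by
                  simp [mul_assoc]
              _ = c * c := by rw [e1]
          rw [e] at hn2; exact hn2
        · have h1' : (c : G)⁻¹ = z * c * z⁻¹ * t := by simpa using h1
          have e1 : z * (c : G)⁻¹ * z⁻¹ = t * (c : G) := by
            have := congrArg (fun x => x⁻¹) h1'
            simp only [inv_inv, mul_inv_rev] at this
            rw [htinv] at this
            have h3 : (c : G) = t * (z * (c : G)⁻¹ * z⁻¹) := by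
              rw [mul_assoc z (c : G)⁻¹ z⁻¹]; exact this
            calc z * (c : G)⁻¹ * z⁻¹ = (t * t) * (z * (c : G)⁻¹ * z⁻¹) := by rw [htt, one_mul]
              _ = t * (t * (z * (c : G)⁻¹ * z⁻¹)) := mul_assoc _ _ _
              _ = t * (c : G) := by rw [← h3]
          have e : (c : G) * z * (c : G)⁻¹ * z⁻¹ = (c : G) * (c : G) * t := by
            calc (c : G) * z * (c : G)⁻¹ * z⁻¹ = (c : G) * (z * (c : G)⁻¹ * z⁻¹) := by
                  simp [mul_assoc]
              _ = (c : G) * (t * c) := by rw [e1]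
              _ = (c : G) * ((c : G) * t) := by rw [htc c]
              _ = (c : G) * (c : G) * t := (mul_assoc _ _ _).symm
          rw [e] at hn2
          have h4 := Q'.mul_mem hn2 htQ'
          rw [mul_assoc, htt, mul_one] at h4
          exact h4
      have h8 : (QuotientGroup.mk' N c) ^ 8 = 1 := by
        have h3 : ((c : G) * c) * ((c : G) * c) * (((c : G) * c) * ((c : G) * c)) = 1 := by
          rcases hE'.sq _ h2 with h4 | h4
          · rw [h4, one_mul]
          · rw [h4, hss]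
        have h5 : c ^ 8 = 1 := by
          apply Subtype.ext
          rw [Subgroup.coe_pow, Subgroup.coe_one, ← h3]
          simp [pow_succ, mul_assoc]
        rw [← map_pow, h5, map_one]
      have hodd : (QuotientGroup.mk' N c) ^ Nat.card K = 1 := by
        have h6 : (⟨QuotientGroup.mk' N c, hk⟩ : ↥K) ^ Nat.card K = 1 := pow_card_eq_one'
        have h7 := Subtype.ext_iff.mp h6
        simpa only [Subgroup.coe_pow, Subgroup.coe_one] using h7
      have hcop : Nat.Coprime (2 ^ 3) (Nat.card K) :=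
        Nat.Coprime.pow_left 3 (Nat.coprime_two_left.mpr hKodd)
      have h9 : (QuotientGroup.mk' N c) ^ Nat.gcd (2 ^ 3) (Nat.card K) = 1 := by
        rw [pow_gcd_eq_one]
        exact ⟨h8, hodd⟩
      rw [hcop] at h9
      simpa using h9
  refine ⟨⟨hES, hL2, hL3, hOdd⟩, ?_⟩
  obtain ⟨q, hqP, hq⟩ := hexq
  have hexr : ∃ r ∈ Q', r * t = t * r ∧ r * z * r⁻¹ = s * z := by
    by_contra hcon
    have hall : ∀ a ∈ Q', a * t = t * a → a * z = z * a := by
      intro a ha hat
      rcases hE'.conj_eq ha hzQ' with h1 | h1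
      · exact mul_inv_eq_iff_eq_mul.mp h1
      · exact absurd ⟨a, ha, hat, h1⟩ hcon
    rcases hE'.dcent htQ' ht1 hts hzQ' hall with h1 | h1 | h1 | h1
    · exact hE.z_ne h1
    · exact hsz h1.symm
    · apply htz'
      have := eq_inv_of_mul_eq_one_right h1
      rw [this, hE.z_inv]
    · apply htzs
      have h2 : t = z⁻¹ * s := by rw [← h1]; simp
      rw [h2, hE.z_inv]
  obtain ⟨r, hrQ', hrt, hr⟩ := hexr
  refine ⟨r * q, Subgroup.mul_mem _
    ((le_sup_right : Q' ⊓ Ct ≤ P ⊔ (Q' ⊓ Ct)) (Subgroup.mem_inf.mpr ⟨hrQ', (hCt r).mpr hrt⟩))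
    ((le_sup_left : P ≤ P ⊔ (Q' ⊓ Ct)) hqP), ?_⟩
  have hrs : r * s * r⁻¹ = s := by rw [hE'.z_central r hrQ']; simp
  calc r * q * s * (r * q)⁻¹ = r * (q * s * q⁻¹) * r⁻¹ := by simp [mul_assoc]
    _ = r * (z * s) * r⁻¹ := by rw [hq]
    _ = (r * z * r⁻¹) * (r * s * r⁻¹) := by simp [mul_assoc]
    _ = s * z * s := by rw [hr, hrs]
    _ = z := by rw [← hzs, mul_assoc, hss, mul_one]

/-- The statement-level form. -/
theorem s5429 [Finite G] (z : G) (hz : orderOf z = 2) (Q : Subgroup G)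
    (hQC : Q ≤ Subgroup.centralizer ({z} : Set G))
    (hF : (Cfsg.generalizedFittingSubgroup ↥(Subgroup.centralizer ({z} : Set G))).map
      (Subgroup.centralizer ({z} : Set G)).subtype = Q)
    (hQ : Cfsg.IsExtraspecial 2 ↥Q) (w : ℕ) (hw : 3 ≤ w)
    (hcard : Nat.card ↥Q = 2 ^ (2 * w + 1)) (g : G) (hgQ : g * z * g⁻¹ ∈ Q)
    (hgZ : g * z * g⁻¹ ∉ ((Subgroup.center ↥Q).map Q.subtype)) (t : G) (ht : orderOf t = 2)
    (htQ : t ∈ Q ⊓ (Q).map (MulAut.conj g).toMonoidHom) (htz : ¬ IsConj z t) (P : Subgroup G)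
    (hP : P = Q ⊓ Subgroup.centralizer ({t} : Set G))
    (hCP : ∀ c ∈ Subgroup.centralizer ({z} : Set G),
      (∀ x ∈ P, ∃ y ∈ Subgroup.closure ({t, z} : Set G), c * x * c⁻¹ = x * y) ↔ c ∈ Q)
    [hn : ((Subgroup.zpowers t).subgroupOf (Subgroup.centralizer ({t} : Set G))).Normal] :
    Cfsg.IsLargeExtraspecial ((P.subgroupOf (Subgroup.centralizer ({t} : Set G))).map
      (QuotientGroup.mk' ((Subgroup.zpowers t).subgroupOf
        (Subgroup.centralizer ({t} : Set G))))) ∧
    ∃ x ∈ P ⊔ ((Q).map (MulAut.conj g).toMonoidHom ⊓ Subgroup.centralizer ({t} : Set G)),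
      x * (g * z * g⁻¹) * x⁻¹ = z := by
  obtain ⟨hE, hZ⟩ := espair_of_map z hz Q hQC hF hQ
  have hcardQ : 32 ≤ Nat.card ↥Q := by
    rw [hcard]
    calc 32 = 2 ^ 5 := by norm_num
      _ ≤ 2 ^ (2 * w + 1) := Nat.pow_le_pow_right (by norm_num) (by omega)
  have hsz : g * z * g⁻¹ ≠ z := by
    intro h
    apply hgZ
    rw [hZ]; right; exact h
  have hzQ' := hE.mem_conj hcardQ g hgQ hsz
  have hE' : ESPair (Q.map (MulAut.conj g).toMonoidHom) (g * z * g⁻¹) := hE.conj g
  have hsconj : IsConj z (g * z * g⁻¹) := isConj_iff.mpr ⟨g, rfl⟩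
  have htt : t * t = 1 := by
    have := pow_orderOf_eq_one t
    rwa [ht, pow_two] at this
  have ht1 : t ≠ 1 := by
    intro h
    rw [h, orderOf_one] at ht
    omega
  refine large_quot hE hE' hcardQ hgQ hsz hzQ' hsconj htt ht1 htQ.1 htQ.2 htz P ?_ ?_
    (Subgroup.centralizer ({t} : Set G)) (fun x => Subgroup.mem_centralizer_singleton_iff)
    ((Subgroup.zpowers t).subgroupOf (Subgroup.centralizer ({t} : Set G))) ?_
  · intro x
    rw [hP, Subgroup.mem_inf, Subgroup.mem_centralizer_singleton_iff]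
  · intro c hcz hall
    rw [← hCP c (Subgroup.mem_centralizer_singleton_iff.mpr hcz)]
    intro x hx
    rcases hall x hx with h | h
    · exact ⟨1, Subgroup.one_mem _, by rw [h, mul_one]⟩
    · exact ⟨t, Subgroup.subset_closure (Set.mem_insert _ _), h⟩
  · intro x
    rw [Subgroup.mem_subgroupOf, LES.mem_zpowers_invol htt]

end Cfsg.Agent.H28.LES2
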