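import Cfsg.Agent.H28.LargeES2
import Cfsg.Agent.H60.QuatSylow

set_option autoImplicit false
open Cfsg

/-!
# Large extraspecial images, II

`Q = F*(C(z))` extraspecial, `A ≤ C(z)` of odd order, `R = C_Q(A)`: the image of `R` in
`C(A)A/A` is a large extraspecial 2-subgroup.
-/

namespace Cfsg.Agent.H28.LES3

open Cfsg.Agent.H92

variable {G : Type*} [Group G]

/-- In an `ESPair`, every element has order dividing 4. -/
theorem pow_four_of_espair {Q : Subgroup G} {z : G} (hE : ESPair Q z) {x : G} (hx : x ∈ Q) :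
    x ^ 4 = 1 := by
  have e : x ^ 4 = (x * x) * (x * x) := by
    simp [pow_succ, mul_assoc]
  rw [e]
  rcases hE.sq x hx with h | h
  · rw [h, one_mul]
  · rw [h, hE.z_sq]

/-- An element of 2-power order of a subgroup of odd order is trivial. -/
theorem eq_one_of_pow_of_odd (A : Subgroup G) [Finite A] (hodd : Odd (Nat.card ↥A)) {a : G}
    (ha : a ∈ A) (k : ℕ) (h : a ^ 2 ^ k = 1) : a = 1 := by
  have h2 : a ^ Nat.card A = 1 := by
    have h2 : (⟨a, ha⟩ : A) ^ Nat.card A = 1 := pow_card_eq_one'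
    have := Subtype.ext_iff.mp h2
    simpa only [Subgroup.coe_pow, Subgroup.coe_one] using this
  have hcop : Nat.Coprime (2 ^ k) (Nat.card A) :=
    Nat.Coprime.pow_left k (Nat.coprime_two_left.mpr hodd)
  have h3 : a ^ Nat.gcd (2 ^ k) (Nat.card A) = 1 := by
    rw [pow_gcd_eq_one]
    exact ⟨h, h2⟩
  rw [hcop] at h3
  simpa using h3

/-- The join of two elementwise commuting subgroups is their product. -/
theorem exists_mul_of_mem_sup (H K : Subgroup G) (hHK : ∀ h ∈ H, ∀ k ∈ K, h * k = k * h) :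
    ∀ m ∈ H ⊔ K, ∃ h ∈ H, ∃ k ∈ K, m = h * k := by
  let S : Subgroup G :=
    { carrier := {m | ∃ h ∈ H, ∃ k ∈ K, m = h * k}
      one_mem' := ⟨1, H.one_mem, 1, K.one_mem, by simp⟩
      mul_mem' := by
        rintro _ _ ⟨h, hh, k, hk, rfl⟩ ⟨h', hh', k', hk', rfl⟩
        refine ⟨h * h', H.mul_mem hh hh', k * k', K.mul_mem hk hk', ?_⟩
        rw [mul_assoc, ← mul_assoc k, ← hHK h' hh' k hk, mul_assoc, mul_assoc]
      inv_mem' := by
        rintro _ ⟨h, hh, k, hk, rfl⟩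
        refine ⟨h⁻¹, H.inv_mem hh, k⁻¹, K.inv_mem hk, ?_⟩
        rw [mul_inv_rev]
        exact (hHK h⁻¹ (H.inv_mem hh) k⁻¹ (K.inv_mem hk)).symm }
  have hle : H ⊔ K ≤ S :=
    sup_le (fun h hh => ⟨h, hh, 1, K.one_mem, by simp⟩) (fun k hk => ⟨1, H.one_mem, k, hk, by simp⟩)
  intro m hm
  exact hle hm

/-- Coprime action on an `ESPair`: an element of `C_Q(A)` central in `C_Q(A)` is central in `Q`. -/
theorem center_cent_odd [Finite G] {Q : Subgroup G} {z : G} (hE : ESPair Q z) (A : Subgroup G)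
    (hA : A ≤ Subgroup.normalizer (Q : Set G)) (hAz : ∀ a ∈ A, a * z = z * a)
    (hAodd : Odd (Nat.card ↥A)) (c : G) (hcQ : c ∈ Q) (hcA : ∀ a ∈ A, a * c = c * a)
    (hc : ∀ x ∈ Q, (∀ a ∈ A, a * x = x * a) → x * c = c * x) : c = 1 ∨ c = z := by
  have : Fact (Nat.Prime 2) := ⟨Nat.prime_two⟩
  have hQ2 : IsPGroup 2 ↥Q := LES.isPGroup_of_le_ESPair hE Q le_rfl
  have hcop : (Nat.card A).Coprime (Nat.card Q) := by
    obtain ⟨n, hn⟩ := hQ2.exists_card_eq
    rw [hn]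
    exact Nat.Coprime.pow_right n (Nat.coprime_two_right.mpr hAodd)
  have hsolv : Group.IsSolvable ↥A ∨ Group.IsSolvable ↥Q := by
    right
    have := hQ2.isNilpotent
    infer_instance
  have hsup : ⁅Q, A⁆ ⊔ (Q ⊓ Subgroup.centralizer (A : Set G)) = Q :=
    Cfsg.Agent.H1.coprime_commutator_sup_centralizer A Q hA hcop hsolv
  have hcC : c ∈ Q ⊓ Subgroup.centralizer (A : Set G) :=
    Subgroup.mem_inf.mpr ⟨hcQ, Subgroup.mem_centralizer_iff.mpr hcA⟩
  generalize hCdef : Q ⊓ Subgroup.centralizer (A : Set G) = C at hsup hcC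
  have hCQ : C ≤ Q := by rw [← hsup]; exact le_sup_right
  have hCA : ∀ c ∈ C, ∀ a ∈ A, a * c = c * a := by
    intro c hc a ha
    rw [← hCdef] at hc
    have := (Subgroup.mem_inf.mp hc).2
    rw [Subgroup.mem_centralizer_iff] at this
    exact this a ha
  have hDC : ⁅⁅Q, A⁆, C⁆ = ⊥ := by
    apply Subgroup.commutator_commutator_eq_bot_of_rotate
    · have h1 : ⁅A, C⁆ = ⊥ := by
        rw [Subgroup.commutator_eq_bot_iff_le_centralizer]
        intro a ha
        rw [Subgroup.mem_centralizer_iff]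
        intro c hc
        exact (hCA c hc a ha).symm
      rw [h1]
      exact Subgroup.commutator_bot_left Q
    · rw [Subgroup.commutator_eq_bot_iff_le_centralizer, Subgroup.commutator_le]
      intro c hc q hq
      rw [Subgroup.mem_centralizer_iff]
      intro a ha
      rcases hE.comm c (hCQ hc) q hq with h | h
      · rw [commutatorElement_def, h]; simp
      · rw [commutatorElement_def, h]; exact hAz a ha
  have hDCc : ∀ x ∈ C, ∀ y ∈ ⁅Q, A⁆, x * y = y * x := by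
    intro x hx y hy
    have h1 := Subgroup.commutator_eq_bot_iff_le_centralizer.mp hDC hy
    rw [Subgroup.mem_centralizer_iff] at h1
    exact h1 x hx
  apply hE.cent
  intro q hq
  have hle : ⁅Q, A⁆ ⊔ C ≤ Subgroup.centralizer ({c} : Set G) := by
    refine sup_le ?_ ?_
    · intro x hx
      rw [Subgroup.mem_centralizer_singleton_iff]
      exact (hDCc c hcC x hx).symm
    · intro x hx
      rw [Subgroup.mem_centralizer_singleton_iff]
      exact hc x (hCQ hx) (fun a ha => hCA x hx a ha)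
  rw [hsup] at hle
  have := hle hq
  rw [Subgroup.mem_centralizer_singleton_iff] at this
  exact this

/-- Abstract criterion for a subgroup to be large extraspecial. -/
theorem large_of_abstract {X : Type*} [Group X] [Finite X] (Rb : Subgroup X) (zb sb qb : X)
    (hzR : zb ∈ Rb) (hz1 : zb ≠ 1) (hzz : zb * zb = 1) (hzc : ∀ x ∈ Rb, x * zb = zb * x)
    (hcomm : ∀ x ∈ Rb, ∀ y ∈ Rb, x * y * x⁻¹ * y⁻¹ = 1 ∨ x * y * x⁻¹ * y⁻¹ = zb)
    (hsq : ∀ x ∈ Rb, x * x = 1 ∨ x * x = zb)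
    (hnab : ∃ x ∈ Rb, ∃ y ∈ Rb, x * y ≠ y * x)
    (hcent : ∀ c : X, (∀ x ∈ Rb, x * c = c * x) → c = 1 ∨ c = zb)
    (hnorm : ∀ c : X, zb * c = c * zb → ∀ x ∈ Rb, c * x * c⁻¹ ∈ Rb)
    (hsR : sb ∈ Rb) (hss : sb * sb = 1) (hqR : qb ∈ Rb) (hq : qb * sb * qb⁻¹ = zb * sb)
    (hs8 : ∀ k : X, zb * k * zb⁻¹ = k⁻¹ → sb * k = k * sb → k ^ 2 ^ 3 = 1) :
    Cfsg.IsLargeExtraspecial Rb := by
  have hES : Cfsg.IsExtraspecial 2 ↥Rb :=
    isExtraspecial_two_of Rb zb hzR hz1 hzz hzc hcomm hsq (fun c _ h => hcent c h) hnab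
  have hZ2 : ∀ y ∈ (Subgroup.center ↥Rb).map Rb.subtype, y = 1 ∨ y = zb := by
    rintro _ ⟨y, hy, rfl⟩
    apply hcent
    intro x hx
    have h1 := Subgroup.mem_center_iff.mp hy ⟨x, hx⟩
    exact congrArg Subtype.val h1
  have hzbZ : zb ∈ (Subgroup.center ↥Rb).map Rb.subtype := by
    refine ⟨⟨zb, hzR⟩, ?_, rfl⟩
    rw [SetLike.mem_coe, Subgroup.mem_center_iff]
    intro y
    apply Subtype.ext
    exact hzc y y.2
  have hL2 : Subgroup.centralizer (Rb : Set X) = (Subgroup.center ↥Rb).map Rb.subtype := by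
    apply le_antisymm
    · intro c hc
      rcases hcent c (fun x hx => Subgroup.mem_centralizer_iff.mp hc x hx) with h | h
      · rw [h]; exact Subgroup.one_mem _
      · rw [h]; exact hzbZ
    · rintro _ ⟨x, hx, rfl⟩
      rw [Subgroup.mem_centralizer_iff]
      intro y hy
      have h1 := Subgroup.mem_center_iff.mp hx ⟨y, hy⟩
      exact congrArg Subtype.val h1
  have hL3 : Subgroup.centralizer (((Subgroup.center ↥Rb).map Rb.subtype : Subgroup X) : Set X) ≤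
      Subgroup.normalizer (Rb : Set X) := by
    intro c hc
    have hcz : zb * c = c * zb := Subgroup.mem_centralizer_iff.mp hc zb hzbZ
    apply Subgroup.mem_normalizer_fintype
    intro x hx
    exact hnorm c hcz x hx
  refine ⟨hES, hL2, hL3, ?_⟩
  intro K hKodd hPK
  have hPbK : Rb ⊓ K = ⊥ := inf_eq_bot_of_two_odd Rb K hES.1.1 hKodd
  have hnormK : ∀ p ∈ Rb, ∀ k ∈ K, p * k * p⁻¹ ∈ K :=
    fun p hp k hk => (Subgroup.mem_normalizer_iff.mp (hPK hp) k).mp hk
  have hfz : ∀ k ∈ K, zb * k = k * zb → k = 1 := by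
    intro k hk hzk
    have hkC : ∀ p ∈ Rb, p * k = k * p := by
      intro p hp
      have h1 : k * p * k⁻¹ * p⁻¹ ∈ Rb ⊓ K := by
        refine Subgroup.mem_inf.mpr ⟨?_, ?_⟩
        · exact Subgroup.mul_mem _ (hnorm k hzk p hp) (Subgroup.inv_mem _ hp)
        · have h2 := hnormK p hp k⁻¹ (Subgroup.inv_mem _ hk)
          have h3 := Subgroup.mul_mem _ hk h2
          have e : k * p * k⁻¹ * p⁻¹ = k * (p * k⁻¹ * p⁻¹) := by simp [mul_assoc]
          rw [e]; exact h3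
      rw [hPbK, Subgroup.mem_bot] at h1
      have h2 : k * p * k⁻¹ = p := mul_inv_eq_one.mp h1
      exact (mul_inv_eq_iff_eq_mul.mp h2).symm
    rcases hcent k hkC with h | h
    · exact h
    · exfalso
      apply hz1
      have h1 : zb ∈ Rb ⊓ K := Subgroup.mem_inf.mpr ⟨hzR, h ▸ hk⟩
      rw [hPbK, Subgroup.mem_bot] at h1
      exact h1
  have hzi := inverts_of_fixedPointFree K zb hzz (hnormK zb hzR) hfz
  apply LES2.odd_trivial_of_fpf K zb sb qb hzz hss (hnormK zb hzR) (hnormK sb hsR) ?_ hq hfz ?_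
  · intro k hk
    have := hnormK _ (Subgroup.inv_mem _ hqR) k hk
    simpa using this
  · intro k hk hsk
    have h8 := hs8 k (hzi k hk) hsk
    have h1 := eq_one_of_pow_of_odd K hKodd hk 3 h8
    exact h1

/-- A group `D` of order not divisible by 4 containing an involution `z`, whose odd core lies in
`A`: every element of `D` lies in `A` or in `A z`. -/
theorem mem_or_mul_mem_of_not_four_dvd [Finite G] (D : Subgroup G)
    (h4 : ¬ 4 ∣ Nat.card ↥D) (z : G) (hzD : z ∈ D) (hz : orderOf z = 2) (A : Subgroup G)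
    (hO : (Cfsg.oddCore ↥D).map D.subtype ≤ A) : ∀ d ∈ D, d ∈ A ∨ d * z ∈ A := by
  have : Fact (Nat.Prime 2) := ⟨Nat.prime_two⟩
  have hzDo : orderOf (⟨z, hzD⟩ : ↥D) = 2 := by rw [Subgroup.orderOf_mk]; exact hz
  have hP2 : IsPGroup 2 ↥(Subgroup.zpowers (⟨z, hzD⟩ : ↥D)) :=
    IsPGroup.of_card (n := 1) (by rw [Nat.card_zpowers, hzDo]; rfl)
  obtain ⟨P, hP⟩ := hP2.exists_le_sylow
  obtain ⟨k, hk⟩ := IsPGroup.iff_card.mp P.isPGroup'
  have h2 : 2 ∣ Nat.card ↥(P : Subgroup ↥D) := by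
    have := Subgroup.card_dvd_of_le hP
    rwa [Nat.card_zpowers, hzDo] at this
  have hdvd : Nat.card ↥(P : Subgroup ↥D) ∣ Nat.card ↥D := Subgroup.card_subgroup_dvd_card _
  have hk1 : k = 1 := by
    rcases Nat.lt_or_ge k 2 with hlt | hge
    · rcases Nat.eq_zero_or_pos k with h0 | hpos
      · exfalso
        rw [hk, h0] at h2
        norm_num at h2
      · omega
    · exfalso
      apply h4
      have h5 : 2 ^ 2 ∣ 2 ^ k := pow_dvd_pow 2 hge
      rw [hk] at hdvd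
      exact h5.trans hdvd
  rw [hk1, pow_one] at hk
  have hcyc : IsCyclic ↥(P : Subgroup ↥D) := isCyclic_of_prime_card hk
  obtain ⟨K, hKn, hKc⟩ := Cfsg.Agent.H60.exists_normal_complement_of_cyclic_sylow_two P hcyc
  have hcard := hKc.card_mul_card
  rw [hk] at hcard
  have hKodd : Odd (Nat.card ↥K) := by
    rcases Nat.even_or_odd (Nat.card ↥K) with he | ho
    · exfalso
      apply h4
      obtain ⟨m, hm⟩ := he
      rw [← hcard, hm]
      exact ⟨m, by ring⟩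
    · exact ho
  have hKle : K ≤ Cfsg.oddCore ↥D :=
    le_sSup ⟨hKn, Nat.coprime_two_right.mpr hKodd⟩
  have hidx : K.index = 2 := by
    have := hKc.symm.index_eq_card
    rw [this, hk]
  have hzK : (⟨z, hzD⟩ : ↥D) ∉ K := by
    intro h
    have h1 : orderOf (⟨⟨z, hzD⟩, h⟩ : ↥K) = 2 := by rw [Subgroup.orderOf_mk]; exact hzDo
    have h3 : 2 ∣ Nat.card ↥K := by rw [← h1]; exact orderOf_dvd_natCard _
    exact (Nat.not_even_iff_odd.mpr hKodd) (even_iff_two_dvd.mpr h3)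
  intro d hd
  have hKA : ∀ x : ↥D, x ∈ K → (x : G) ∈ A := fun x hx => hO ⟨x, hKle hx, rfl⟩
  by_cases hdK : (⟨d, hd⟩ : ↥D) ∈ K
  · left; exact hKA _ hdK
  · right
    have h1 : (⟨d, hd⟩ : ↥D) * ⟨z, hzD⟩ ∈ K := by
      rw [Subgroup.mul_mem_iff_of_index_two hidx]
      exact ⟨fun h => absurd h hdK, fun h => absurd h hzK⟩
    exact hKA _ h1

/-- Main lemma: the image of `R = C_Q(A)` in `M/A` (`M = C(A) A`) is large extraspecial, and `s` is
conjugate to `z` in `⟨R, C_{Q'}(A)⟩`. -/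
theorem large_quot_odd [Finite G] {Q Q' : Subgroup G} {z s : G} (hE : ESPair Q z)
    (hE' : ESPair Q' s) (hs : s ∈ Q) (hsz : s ≠ z) (hzQ' : z ∈ Q')
    (A : Subgroup G) (hAodd : Odd (Nat.card ↥A)) (hAz : ∀ a ∈ A, a * z = z * a)
    (R : Subgroup G) (hRmem : ∀ x, x ∈ R ↔ x ∈ Q ∧ ∀ a ∈ A, a * x = x * a) (hsR : s ∈ R)
    (hD : ∀ d : G, (∀ a ∈ A, a * d = d * a) → (∀ r ∈ R, r * d = d * r) → d ∈ A ∨ d * z ∈ A)
    (M : Subgroup G) (hCM : ∀ c : G, (∀ a ∈ A, a * c = c * a) → c ∈ M)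
    (hMdec : ∀ m ∈ M, ∃ c : G, (∀ a ∈ A, a * c = c * a) ∧ c⁻¹ * m ∈ A)
    (N : Subgroup ↥M) [N.Normal] (hN : ∀ x : ↥M, x ∈ N ↔ (x : G) ∈ A) :
    Cfsg.IsLargeExtraspecial ((R.subgroupOf M).map (QuotientGroup.mk' N)) ∧
      ∃ x ∈ R ⊔ (Q' ⊓ Subgroup.centralizer (A : Set G)), x * s * x⁻¹ = z := by
  have hzz := hE.z_sq
  have hss := hE'.z_sq
  have hs1 := hE'.z_ne
  have hzs : z * s = s * z := (hE.z_central s hs).symm
  have hAs : ∀ a ∈ A, a * s = s * a := ((hRmem s).mp hsR).2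
  have hAQ : A ≤ Subgroup.normalizer (Q : Set G) := by
    intro a ha
    apply Subgroup.mem_normalizer_fintype
    intro q hq
    exact hE.norm a (hAz a ha) q hq
  have hAQ' : A ≤ Subgroup.normalizer (Q' : Set G) := by
    intro a ha
    apply Subgroup.mem_normalizer_fintype
    intro q hq
    exact hE'.norm a (hAs a ha) q hq
  have hRQ : R ≤ Q := fun x hx => ((hRmem x).mp hx).1
  have hzR : z ∈ R := (hRmem z).mpr ⟨hE.z_mem, hAz⟩
  have hRM : ∀ x ∈ R, x ∈ M := fun x hx => hCM x ((hRmem x).mp hx).2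
  have hQA : ∀ x ∈ Q, x ∈ A → x = 1 := by
    intro x hxQ hxA
    have h1 := inf_eq_bot_of_two_odd Q A (LES.isPGroup_of_le_ESPair hE Q le_rfl) hAodd
    have h2 : x ∈ Q ⊓ A := Subgroup.mem_inf.mpr ⟨hxQ, hxA⟩
    rw [h1, Subgroup.mem_bot] at h2
    exact h2
  -- the 2-element trick
  have htrick : ∀ c r a' : G, r ^ 4 = 1 → a' ∈ A → r * a' = a' * r → c * r * c⁻¹ = r * a' →
      a' = 1 := by
    intro c r a' hr4 ha' hcomm hconj
    have h1 : (c * r * c⁻¹) ^ 4 = 1 := by rw [conj_pow, hr4]; simp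
    rw [hconj, (show Commute r a' from hcomm).mul_pow, hr4, one_mul] at h1
    exact eq_one_of_pow_of_odd A hAodd ha' 2 h1
  -- an element of `R` moving `s`
  have hexq : ∃ q ∈ R, q * s * q⁻¹ = z * s := by
    by_contra hcon
    have hall : ∀ x ∈ Q, (∀ a ∈ A, a * x = x * a) → x * s = s * x := by
      intro x hx hxA
      rcases hE.conj_eq hx hs with h1 | h1
      · exact mul_inv_eq_iff_eq_mul.mp h1
      · exact absurd ⟨x, (hRmem x).mpr ⟨hx, hxA⟩, h1⟩ hcon
    rcases center_cent_odd hE A hAQ hAz hAodd s hs hAs hall with h1 | h1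
    · exact hs1 h1
    · exact hsz h1
  obtain ⟨q, hqR, hq⟩ := hexq
  -- the quotient
  have hπ : ∀ a b : ↥M, (QuotientGroup.mk' N a = QuotientGroup.mk' N b) ↔
      (a : G)⁻¹ * b ∈ A := by
    intro a b
    rw [QuotientGroup.mk'_apply, QuotientGroup.mk'_apply, QuotientGroup.eq, hN]
    simp
  have hRbar : ∀ y, y ∈ (R.subgroupOf M).map (QuotientGroup.mk' N) ↔
      ∃ x : ↥M, (x : G) ∈ R ∧ QuotientGroup.mk' N x = y := by
    intro y
    rw [Subgroup.mem_map]
    constructor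
    · rintro ⟨x, hx, rfl⟩; exact ⟨x, Subgroup.mem_subgroupOf.mp hx, rfl⟩
    · rintro ⟨x, hx, rfl⟩; exact ⟨x, Subgroup.mem_subgroupOf.mpr hx, rfl⟩
  have hlift : ∀ y : ↥M ⧸ N, ∃ c : ↥M, (∀ a ∈ A, a * (c : G) = c * a) ∧
      QuotientGroup.mk' N c = y := by
    intro y
    obtain ⟨m, rfl⟩ := QuotientGroup.mk'_surjective N y
    obtain ⟨c, hc, hcm⟩ := hMdec m m.2
    exact ⟨⟨c, hCM c hc⟩, hc, (hπ _ _).mpr hcm⟩
  have hinj : ∀ x y : ↥M, (x : G) ∈ R → (y : G) ∈ R →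
      QuotientGroup.mk' N x = QuotientGroup.mk' N y → (x : G) = y := by
    intro x y hx hy h
    have h1 := (hπ x y).mp h
    have h2 := hQA _ (Q.mul_mem (Q.inv_mem (hRQ hx)) (hRQ hy)) h1
    exact inv_mul_eq_one.mp h2
  -- lifting commutation
  have hL : ∀ c : ↥M, (∀ a ∈ A, a * (c : G) = c * a) → ∀ r : ↥M, (r : G) ^ 4 = 1 →
      (∀ a ∈ A, a * (r : G) = r * a) →
      QuotientGroup.mk' N r * QuotientGroup.mk' N c =
        QuotientGroup.mk' N c * QuotientGroup.mk' N r → (r : G) * c = c * r := by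
    intro c hc r hr4 hrA h
    rw [← map_mul, ← map_mul, hπ] at h
    have h' : ((r : G) * c)⁻¹ * ((c : G) * r) ∈ A := by simpa using h
    have hconj : (c : G) * r * (c : G)⁻¹ = r * (((r : G) * c)⁻¹ * ((c : G) * r)) := by
      have e := hc _ h'
      calc (c : G) * r * (c : G)⁻¹
          = (r : G) * c * (((r : G) * c)⁻¹ * ((c : G) * r)) * (c : G)⁻¹ := by simp [mul_assoc]
        _ = (r : G) * ((((r : G) * c)⁻¹ * ((c : G) * r)) * c) * (c : G)⁻¹ := by
            rw [mul_assoc (r : G) c, ← e]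
        _ = r * (((r : G) * c)⁻¹ * ((c : G) * r)) := by simp [mul_assoc]
    have h1 := htrick c r _ hr4 h' (hrA _ h').symm hconj
    exact inv_mul_eq_one.mp h1
  have hzbarR : QuotientGroup.mk' N ⟨z, hRM z hzR⟩ ∈ (R.subgroupOf M).map (QuotientGroup.mk' N) :=
    (hRbar _).mpr ⟨_, hzR, rfl⟩
  have hz4 : z ^ 4 = 1 := pow_four_of_espair hE hE.z_mem
  have hs4 : s ^ 4 = 1 := pow_four_of_espair hE hs
  refine ⟨large_of_abstract _ (QuotientGroup.mk' N ⟨z, hRM z hzR⟩)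
    (QuotientGroup.mk' N ⟨s, hRM s hsR⟩) (QuotientGroup.mk' N ⟨q, hRM q hqR⟩) hzbarR
    ?_ ?_ ?_ ?_ ?_ ?_ ?_ ?_ ((hRbar _).mpr ⟨_, hsR, rfl⟩) ?_ ((hRbar _).mpr ⟨_, hqR, rfl⟩) ?_ ?_,
    ?_⟩
  · -- z̄ ≠ 1
    intro h
    have h' : QuotientGroup.mk' N ⟨z, hRM z hzR⟩ = QuotientGroup.mk' N 1 := by rw [h, map_one]
    have := hinj _ _ hzR R.one_mem h'
    exact hE.z_ne (by simpa using this)
  · rw [← map_mul]
    have : (⟨z, hRM z hzR⟩ : ↥M) * ⟨z, hRM z hzR⟩ = 1 := Subtype.ext hzz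
    rw [this, map_one]
  · intro x hx
    obtain ⟨x, hxR, rfl⟩ := (hRbar _).mp hx
    rw [← map_mul, ← map_mul]
    congr 1
    exact Subtype.ext (hE.z_central x (hRQ hxR))
  · intro x hx y hy
    obtain ⟨x, hxR, rfl⟩ := (hRbar _).mp hx
    obtain ⟨y, hyR, rfl⟩ := (hRbar _).mp hy
    rw [← map_inv, ← map_inv, ← map_mul, ← map_mul, ← map_mul]
    rcases hE.comm x (hRQ hxR) y (hRQ hyR) with h | h
    · left
      have : x * y * x⁻¹ * y⁻¹ = 1 := Subtype.ext (by simpa using h)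
      rw [this, map_one]
    · right
      have : x * y * x⁻¹ * y⁻¹ = ⟨z, hRM z hzR⟩ := Subtype.ext (by simpa using h)
      rw [this]
  · intro x hx
    obtain ⟨x, hxR, rfl⟩ := (hRbar _).mp hx
    rw [← map_mul]
    rcases hE.sq x (hRQ hxR) with h | h
    · left
      have : x * x = 1 := Subtype.ext (by simpa using h)
      rw [this, map_one]
    · right
      have : x * x = ⟨z, hRM z hzR⟩ := Subtype.ext (by simpa using h)
      rw [this]
  · -- nonabelian
    refine ⟨_, (hRbar _).mpr ⟨⟨q, hRM q hqR⟩, hqR, rfl⟩, _, (hRbar _).mpr ⟨⟨s, hRM s hsR⟩, hsR, rfl⟩, ?_⟩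
    intro h
    rw [← map_mul, ← map_mul] at h
    have h1 := hinj _ _ (R.mul_mem hqR hsR) (R.mul_mem hsR hqR) h
    have h2 : q * s = s * q := by simpa using h1
    have h3 : q * s * q⁻¹ = s := by rw [h2]; simp
    rw [hq] at h3
    apply hE.z_ne
    simpa using h3
  · -- the centralizer
    intro c' hc'
    obtain ⟨c, hcA, rfl⟩ := hlift c'
    have hcR : ∀ r ∈ R, r * (c : G) = c * r := by
      intro r hr
      exact hL c hcA ⟨r, hRM r hr⟩ (pow_four_of_espair hE (hRQ hr)) ((hRmem r).mp hr).2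
        (hc' _ ((hRbar _).mpr ⟨⟨r, hRM r hr⟩, hr, rfl⟩))
    rcases hD (c : G) hcA hcR with h | h
    · left
      have : QuotientGroup.mk' N c = QuotientGroup.mk' N 1 :=
        (hπ c 1).mpr (by simpa using A.inv_mem h)
      rw [this, map_one]
    · right
      apply (hπ c ⟨z, hRM z hzR⟩).mpr
      have h1 := A.inv_mem h
      have hzc : z * (c : G) = c * z := hcR z hzR
      have hzc' : (c : G)⁻¹ * z = z * (c : G)⁻¹ := by
        have := congrArg (fun x => (c : G)⁻¹ * x * (c : G)⁻¹) hzc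
        simpa [mul_assoc] using this
      have e : ((c : G) * z)⁻¹ = (c : G)⁻¹ * z := by
        rw [mul_inv_rev, hE.z_inv, hzc']
      rw [e] at h1
      exact h1
  · -- the normalizer
    intro c' hcz x hx
    obtain ⟨c, hcA, rfl⟩ := hlift c'
    obtain ⟨x, hxR, rfl⟩ := (hRbar _).mp hx
    have hzc : z * (c : G) = c * z :=
      hL c hcA ⟨z, hRM z hzR⟩ hz4 hAz hcz
    rw [hRbar]
    refine ⟨c * x * c⁻¹, ?_, by simp⟩
    rw [hRmem]
    refine ⟨?_, ?_⟩
    · have := hE.norm (c : G) hzc.symm x (hRQ hxR)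
      simpa using this
    · intro a ha
      have e1 := hcA a ha
      have e2 := ((hRmem x).mp hxR).2 a ha
      have e3 : a * (c : G)⁻¹ = (c : G)⁻¹ * a := by
        have := congrArg (fun u => (c : G)⁻¹ * u * (c : G)⁻¹) e1
        simpa [mul_assoc] using this.symm
      show a * ((c : G) * x * (c : G)⁻¹) = (c : G) * x * (c : G)⁻¹ * a
      calc a * ((c : G) * x * (c : G)⁻¹) = (a * (c : G)) * x * (c : G)⁻¹ := by simp [mul_assoc]
        _ = (c : G) * (a * x) * (c : G)⁻¹ := by rw [e1]; simp [mul_assoc]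
        _ = (c : G) * x * (a * (c : G)⁻¹) := by rw [e2]; simp [mul_assoc]
        _ = (c : G) * x * (c : G)⁻¹ * a := by rw [e3]; simp [mul_assoc]
  · rw [← map_mul]
    have : (⟨s, hRM s hsR⟩ : ↥M) * ⟨s, hRM s hsR⟩ = 1 := Subtype.ext hss
    rw [this, map_one]
  · rw [← map_inv, ← map_mul, ← map_mul, ← map_mul]
    congr 1
    exact Subtype.ext hq
  · -- the 8th power
    intro k' hzk hsk
    obtain ⟨c, hcA, rfl⟩ := hlift k'
    have hsc : s * (c : G) = c * s := hL c hcA ⟨s, hRM s hsR⟩ hs4 hAs hsk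
    rw [← map_inv, ← map_mul, ← map_mul, ← map_inv, hπ] at hzk
    have ha₁ : (z * (c : G) * z⁻¹)⁻¹ * (c : G)⁻¹ ∈ A := by simpa using hzk
    have hn1 : (c : G) * z * (c : G)⁻¹ ∈ Q' := hE'.norm c hsc.symm z hzQ'
    have hn2 : (c : G) * z * (c : G)⁻¹ * z⁻¹ ∈ Q' := Q'.mul_mem hn1 (Q'.inv_mem hzQ')
    have e1 := hcA _ ha₁
    have e : (c : G) * z * (c : G)⁻¹ * z⁻¹ =
        (c : G) * (c : G) * ((z * (c : G) * z⁻¹)⁻¹ * (c : G)⁻¹) := by
      calc (c : G) * z * (c : G)⁻¹ * z⁻¹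
          = (c : G) * (((z * (c : G) * z⁻¹)⁻¹ * (c : G)⁻¹) * (c : G)) := by simp [mul_assoc]
        _ = (c : G) * ((c : G) * ((z * (c : G) * z⁻¹)⁻¹ * (c : G)⁻¹)) := by rw [e1]
        _ = (c : G) * (c : G) * ((z * (c : G) * z⁻¹)⁻¹ * (c : G)⁻¹) := (mul_assoc _ _ _).symm
    rw [e] at hn2
    have h4 := pow_four_of_espair hE' hn2
    have hcomm : Commute ((c : G) * (c : G)) ((z * (c : G) * z⁻¹)⁻¹ * (c : G)⁻¹) := by
      show (c : G) * (c : G) * _ = _ * ((c : G) * (c : G))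
      rw [mul_assoc, ← e1, ← mul_assoc, ← e1, mul_assoc]
    rw [hcomm.mul_pow] at h4
    have h8 : (c : G) ^ 8 ∈ A := by
      have h5 : ((c : G) * (c : G)) ^ 4 = (((z * (c : G) * z⁻¹)⁻¹ * (c : G)⁻¹) ^ 4)⁻¹ :=
        eq_inv_of_mul_eq_one_left h4
      have h6 : (c : G) ^ 8 = ((c : G) * (c : G)) ^ 4 := by
        rw [← pow_two, ← pow_mul]
      rw [h6, h5]
      exact A.inv_mem (A.pow_mem ha₁ 4)
    have h9 : QuotientGroup.mk' N (c ^ 8) = QuotientGroup.mk' N 1 :=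
      (hπ _ _).mpr (by simpa using A.inv_mem h8)
    rw [map_pow, map_one] at h9
    exact h9
  · -- conjugating `s` to `z`
    have hexr : ∃ r ∈ Q', (∀ a ∈ A, a * r = r * a) ∧ r * z * r⁻¹ = s * z := by
      by_contra hcon
      have hall : ∀ x ∈ Q', (∀ a ∈ A, a * x = x * a) → x * z = z * x := by
        intro x hx hxA
        rcases hE'.conj_eq hx hzQ' with h1 | h1
        · exact mul_inv_eq_iff_eq_mul.mp h1
        · exact absurd ⟨x, hx, hxA, h1⟩ hcon
      rcases center_cent_odd hE' A hAQ' hAs hAodd z hzQ' hAz hall with h1 | h1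
      · exact hE.z_ne h1
      · exact hsz h1.symm
    obtain ⟨r, hrQ', hrA, hr⟩ := hexr
    refine ⟨r * q, Subgroup.mul_mem _
      ((le_sup_right : Q' ⊓ Subgroup.centralizer (A : Set G) ≤
        R ⊔ (Q' ⊓ Subgroup.centralizer (A : Set G)))
        (Subgroup.mem_inf.mpr ⟨hrQ', Subgroup.mem_centralizer_iff.mpr hrA⟩))
      ((le_sup_left : R ≤ R ⊔ (Q' ⊓ Subgroup.centralizer (A : Set G))) hqR), ?_⟩
    have hrs : r * s * r⁻¹ = s := by rw [hE'.z_central r hrQ']; simp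
    calc r * q * s * (r * q)⁻¹ = r * (q * s * q⁻¹) * r⁻¹ := by simp [mul_assoc]
      _ = r * (z * s) * r⁻¹ := by rw [hq]
      _ = (r * z * r⁻¹) * (r * s * r⁻¹) := by simp [mul_assoc]
      _ = s * z * s := by rw [hr, hrs]
      _ = z := by rw [← hzs, mul_assoc, hss, mul_one]

/-- The statement-level form. -/
theorem s5428 [Finite G] (z : G) (hz : orderOf z = 2) (Q : Subgroup G)
    (hQC : Q ≤ Subgroup.centralizer ({z} : Set G))
    (hF : (Cfsg.generalizedFittingSubgroup ↥(Subgroup.centralizer ({z} : Set G))).map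
      (Subgroup.centralizer ({z} : Set G)).subtype = Q)
    (hQ : Cfsg.IsExtraspecial 2 ↥Q) (A : Subgroup G)
    (hA : A ≤ Subgroup.centralizer ({z} : Set G)) (hAodd : Odd (Nat.card ↥A)) (R : Subgroup G)
    (hR : R = Q ⊓ Subgroup.centralizer (A : Set G)) (hR32 : 32 ≤ Nat.card ↥R)
    (hO : (Cfsg.oddCore ↥(Subgroup.centralizer ((A ⊔ R : Subgroup G) : Set G))).map
      (Subgroup.centralizer ((A ⊔ R : Subgroup G) : Set G)).subtype ≤ A)
    (h4 : ¬ 4 ∣ Nat.card ↥(Subgroup.centralizer ((A ⊔ R : Subgroup G) : Set G))) (g : G)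
    (hgR : g * z * g⁻¹ ∈ R) (hgZ : g * z * g⁻¹ ∉ ((Subgroup.center ↥Q).map Q.subtype))
    (M : Subgroup G) (hM : M = Subgroup.centralizer (A : Set G) ⊔ A)
    [hn : (A.subgroupOf M).Normal] :
    (M ⊓ Subgroup.centralizer ((R ⊔ A : Subgroup G) : Set G)) ⊔ A =
        A ⊔ ((Subgroup.center ↥Q).map Q.subtype) ∧
      Cfsg.IsLargeExtraspecial ((R.subgroupOf M).map (QuotientGroup.mk' (A.subgroupOf M))) ∧
      ∃ x ∈ R ⊔ ((Q).map (MulAut.conj g).toMonoidHom ⊓ Subgroup.centralizer (A : Set G)),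
        x * (g * z * g⁻¹) * x⁻¹ = z := by
  obtain ⟨hE, hZ⟩ := LES2.espair_of_map z hz Q hQC hF hQ
  have hRQ : R ≤ Q := by rw [hR]; exact inf_le_left
  have hcardQ : 32 ≤ Nat.card ↥Q := hR32.trans (Subgroup.card_le_of_le hRQ)
  have hsQ : g * z * g⁻¹ ∈ Q := hRQ hgR
  have hsz : g * z * g⁻¹ ≠ z := by
    intro h
    apply hgZ
    rw [hZ]; right; exact h
  have hzQ' := hE.mem_conj hcardQ g hsQ hsz
  have hE' : ESPair (Q.map (MulAut.conj g).toMonoidHom) (g * z * g⁻¹) := hE.conj g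
  have hAz : ∀ a ∈ A, a * z = z * a :=
    fun a ha => Subgroup.mem_centralizer_singleton_iff.mp (hA ha)
  have hRmem : ∀ x, x ∈ R ↔ x ∈ Q ∧ ∀ a ∈ A, a * x = x * a := by
    intro x
    rw [hR, Subgroup.mem_inf, Subgroup.mem_centralizer_iff]
    exact Iff.rfl
  have hDmem : ∀ d : G, (∀ a ∈ A, a * d = d * a) → (∀ r ∈ R, r * d = d * r) →
      d ∈ Subgroup.centralizer ((A ⊔ R : Subgroup G) : Set G) := by
    intro d h1 h2
    rw [Subgroup.mem_centralizer_iff]
    have hle : A ⊔ R ≤ Subgroup.centralizer ({d} : Set G) :=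
      sup_le (fun a ha => Subgroup.mem_centralizer_singleton_iff.mpr (h1 a ha))
        (fun r hr => Subgroup.mem_centralizer_singleton_iff.mpr (h2 r hr))
    intro h hh
    exact Subgroup.mem_centralizer_singleton_iff.mp (hle hh)
  have hzD : z ∈ Subgroup.centralizer ((A ⊔ R : Subgroup G) : Set G) :=
    hDmem z hAz (fun r hr => hE.z_central r (hRQ hr))
  have hD : ∀ d : G, (∀ a ∈ A, a * d = d * a) → (∀ r ∈ R, r * d = d * r) →
      d ∈ A ∨ d * z ∈ A :=
    fun d h1 h2 => mem_or_mul_mem_of_not_four_dvd _ h4 z hzD hz A hO d (hDmem d h1 h2)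
  have hCM : ∀ c : G, (∀ a ∈ A, a * c = c * a) → c ∈ M := by
    intro c hc
    rw [hM]
    exact (le_sup_left : Subgroup.centralizer (A : Set G) ≤ _)
      (Subgroup.mem_centralizer_iff.mpr hc)
  have hMdec : ∀ m ∈ M, ∃ c : G, (∀ a ∈ A, a * c = c * a) ∧ c⁻¹ * m ∈ A := by
    intro m hm
    rw [hM] at hm
    obtain ⟨c, hc, a, ha, rfl⟩ := exists_mul_of_mem_sup (Subgroup.centralizer (A : Set G)) A
      (fun h hh k hk => (Subgroup.mem_centralizer_iff.mp hh k hk).symm) m hm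
    exact ⟨c, Subgroup.mem_centralizer_iff.mp hc, by simpa using ha⟩
  have hmain := large_quot_odd hE hE' hsQ hsz hzQ' A hAodd hAz R hRmem hgR hD M hCM hMdec
    (A.subgroupOf M) (fun x => Subgroup.mem_subgroupOf)
  refine ⟨?_, hmain.1, hmain.2⟩
  have hzZ : z ∈ (Subgroup.center ↥Q).map Q.subtype := (hZ z).mpr (Or.inr rfl)
  apply le_antisymm
  · refine sup_le ?_ le_sup_left
    intro x hx
    have hxD := (Subgroup.mem_inf.mp hx).2
    rw [Subgroup.mem_centralizer_iff] at hxD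
    rcases hD x (fun a ha => hxD a ((le_sup_right : A ≤ R ⊔ A) ha))
      (fun r hr => hxD r ((le_sup_left : R ≤ R ⊔ A) hr)) with h | h
    · exact (le_sup_left : A ≤ _) h
    · have h1 : x * z * z ∈ A ⊔ (Subgroup.center ↥Q).map Q.subtype :=
        Subgroup.mul_mem _ ((le_sup_left : A ≤ _) h) ((le_sup_right : _ ≤ A ⊔ _) hzZ)
      rwa [mul_assoc, hE.z_sq, mul_one] at h1
  · refine sup_le le_sup_right ?_
    intro y hy
    rcases (hZ y).mp hy with h | h
    · rw [h]; exact Subgroup.one_mem _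
    · rw [h]
      refine (le_sup_left : M ⊓ _ ≤ _) (Subgroup.mem_inf.mpr ⟨hCM z hAz, ?_⟩)
      rw [Subgroup.mem_centralizer_iff]
      have hle : R ⊔ A ≤ Subgroup.centralizer ({z} : Set G) := sup_le (hRQ.trans hQC) hA
      intro h hh
      exact Subgroup.mem_centralizer_singleton_iff.mp (hle hh)

end Cfsg.Agent.H28.LES3
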