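import Mathlib
import Cfsg.Agent.H76.NCZDefs
import Cfsg.Agent.S1403
import Cfsg.Agent.S1350
import Cfsg.Agent.S1419
import Cfsg.Agent.H58.BG10FG
import Cfsg.Agent.H73.BG129B

set_option autoImplicit false

/-!
# NCZ-ZASM (helper28, for helper76 / S1353 + S1354)

`(Z)`: in `(NC0)`, `M ≤ C_G(A₀)`.  `M = E·M_σ` and `M_σ ≤ C(A₀)`; an element of `E` outside
`C(A₀)` can be moved into `C_E(P)` (ZB + ZA); one of minimal order has prime power order `q^k`;
`q = r` and `q ∈ τ₃(M)` are excluded by ZA, `q ∈ τ₁(M)` by ZC3.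
-/

namespace Cfsg.Agent.H28.NCKill

open Cfsg Subgroup Cfsg.Agent.H76.NCKill

universe u

variable {G : Type u} [Group G] [Finite G]

/-- (ZASM). -/
theorem zAsm (hA : StZA G) (hB : StZB G) (hC : StZC3 G) : StZ G := by
  intro hG M E A P r p _ hNC
  have hr : r.Prime := Fact.out
  have hM := hNC.coatom
  have hcompl := hNC.compl
  obtain ⟨hEM, hσM, hEσ, hprod⟩ := hNC.compl
  obtain ⟨hA1, hA2, hA3⟩ := hA hG M E A P r p hNC
  have hB' := hB hG M E A P r p hNC
  have hC' := hC hG M E A P r p hNC
  -- `M_σ ≤ C(A₀)`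
  have hσC : sigmaCore M ≤ centralizer ((A0 M A : Subgroup G) : Set G) := by
    intro x hx
    rw [mem_centralizer_iff]
    intro a ha
    have ha' : a ∈ centralizer (sigmaCore M : Set G) := ha.2
    exact (mem_centralizer_iff.mp ha' x hx).symm
  suffices hE : E ≤ centralizer ((A0 M A : Subgroup G) : Set G) by
    intro m hm
    obtain ⟨e, he, s, hs, rfl⟩ := hprod m hm
    exact Subgroup.mul_mem _ (hE he) (hσC hs)
  have hEE : ⁅E, E⁆ ≤ E := by
    rw [Subgroup.commutator_le]
    intro g₁ h₁ g₂ h₂
    rw [commutatorElement_def]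
    exact E.mul_mem (E.mul_mem (E.mul_mem h₁ h₂) (E.inv_mem h₁)) (E.inv_mem h₂)
  -- the elements of `C_E(P)` centralize `A₀`
  have key : ∀ n : ℕ, ∀ e : G, orderOf e = n → e ∈ E → e ∈ centralizer (P : Set G) →
      e ∈ centralizer ((A0 M A : Subgroup G) : Set G) := by
    intro n
    induction n using Nat.strong_induction_on with
    | _ n ih =>
      intro e hen heE heP
      by_cases hn1 : n = 1
      · rw [hn1, orderOf_eq_one_iff] at hen
        rw [hen]
        exact Subgroup.one_mem _
      have hnpos : 0 < n := by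
        rw [← hen]
        exact orderOf_pos e
      obtain ⟨q, hq, hqn⟩ := Nat.exists_prime_and_dvd hn1
      obtain ⟨k, b, hb, hnk⟩ := Nat.exists_eq_pow_mul_and_not_dvd hnpos.ne' q hq.ne_one
      have hk0 : k ≠ 0 := by
        rintro rfl
        rw [pow_zero, one_mul] at hnk
        rw [hnk] at hqn
        exact hb hqn
      have hbpos : 0 < b := by
        rcases Nat.eq_zero_or_pos b with h0 | h0
        · rw [h0, mul_zero] at hnk
          omega
        · exact h0
      by_cases hb1 : b = 1
      · -- prime power order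
        rw [hb1, mul_one] at hnk
        have hord : orderOf e = q ^ k := hen.trans hnk
        have hqE : q ∣ Nat.card E :=
          (dvd_pow_self q hk0).trans (hord ▸ Subgroup.orderOf_dvd_natCard E heE)
        have hqσ : q ∉ sigma M := by
          intro hqσ
          have h50 := (Cfsg.Agent.S1350.result hG M hM).1.2.2 q hq hqσ
          rw [← Cfsg.Agent.H73.BG12.card_eq_relIndex_of_isComplIn hcompl] at h50
          exact h50 hqE
        have h96 : Cfsg.Agent.H58.BG10.St1403 G := fun K hK hK2 hK3 =>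
          Cfsg.Agent.S1403.result hG K hK hK2 hK3
        have hq2 : PRankLE q 2 M := by
          by_contra h
          exact hqσ (Cfsg.Agent.H58.BG10.alpha_subset_sigma hG h96 hM ⟨hq, h⟩)
        have hqM : q ∣ Nat.card M := hqE.trans (Subgroup.card_dvd_of_le hEM)
        by_cases hq1 : PRankLE q 1 M
        · by_cases hqd : q ∣ Nat.card ↥⁅M, M⁆
          · exact hA3 e heE q k ⟨hq, hqσ, hqd, hq1⟩ hord
          · exact hC' e ⟨heE, heP⟩ q k ⟨hq, hqσ, hqM, hqd, hq1⟩ hord
        · have h19 := (Cfsg.Agent.S1419.result hG M hM E hcompl r hNC.tau2 hNC.nonab A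
            ⟨hNC.AE, hNC.Ael, hNC.Acard⟩).1
          have hqτ : q ∈ tau2 M := ⟨hq, hqσ, hq2, hq1⟩
          rw [h19] at hqτ
          have hqr : q = r := hqτ
          rw [hqr] at hord
          exact hA2 e heE k hord
      · -- split into two coprime parts
        have hb2 : 1 < b := by omega
        have ha2 : 1 < q ^ k := Nat.one_lt_pow hk0 hq.one_lt
        have hco : Nat.Coprime (q ^ k) b :=
          Nat.Coprime.pow_left k ((Nat.Prime.coprime_iff_not_dvd hq).mpr hb)
        have hlt1 : b < n := by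
          rw [hnk]
          calc b = 1 * b := (one_mul b).symm
            _ < q ^ k * b := Nat.mul_lt_mul_of_pos_right ha2 hbpos
        have hlt2 : q ^ k < n := by
          rw [hnk]
          calc q ^ k = q ^ k * 1 := (mul_one _).symm
            _ < q ^ k * b := Nat.mul_lt_mul_of_pos_left hb2 (by omega)
        have hpow : e ^ (q ^ k * b) = 1 := by
          rw [← hnk, ← hen]
          exact pow_orderOf_eq_one e
        have ho1 : orderOf (e ^ (q ^ k)) ≤ b := by
          apply Nat.le_of_dvd hbpos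
          apply orderOf_dvd_of_pow_eq_one
          rw [← pow_mul]
          exact hpow
        have ho2 : orderOf (e ^ b) ≤ q ^ k := by
          apply Nat.le_of_dvd (by omega)
          apply orderOf_dvd_of_pow_eq_one
          rw [← pow_mul, mul_comm]
          exact hpow
        have h1 := ih (orderOf (e ^ (q ^ k))) (lt_of_le_of_lt ho1 hlt1) (e ^ (q ^ k)) rfl
          (E.pow_mem heE _) (Subgroup.pow_mem _ heP _)
        have h2 := ih (orderOf (e ^ b)) (lt_of_le_of_lt ho2 hlt2) (e ^ b) rfl
          (E.pow_mem heE _) (Subgroup.pow_mem _ heP _)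
        have hbez := Nat.gcd_eq_gcd_ab (q ^ k) b
        rw [Nat.Coprime.gcd_eq_one hco] at hbez
        have hbez' : (1 : ℤ) = ((q ^ k : ℕ) : ℤ) * Nat.gcdA (q ^ k) b + (b : ℤ) * Nat.gcdB (q ^ k) b := by
          rw [← hbez]
          rfl
        have he : e = (e ^ (q ^ k)) ^ (Nat.gcdA (q ^ k) b) * (e ^ b) ^ (Nat.gcdB (q ^ k) b) := by
          rw [← zpow_natCast e (q ^ k), ← zpow_natCast e b, ← zpow_mul, ← zpow_mul, ← zpow_add,
            ← hbez', zpow_one]
        rw [he]
        exact Subgroup.mul_mem _ (Subgroup.zpow_mem _ h1 _) (Subgroup.zpow_mem _ h2 _)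
  intro e heE
  obtain ⟨c, hc, hec⟩ := hB' e heE
  have h1 := key _ (e * c) rfl (E.mul_mem heE (hEE hc)) hec
  have h2 : e = e * c * c⁻¹ := by group
  rw [h2]
  exact Subgroup.mul_mem _ h1 (Subgroup.inv_mem _ (hA1 hc))

example (hA : Cfsg.Agent.H76.NCKill.StZA G) (hB : Cfsg.Agent.H76.NCKill.StZB G)
    (hC : Cfsg.Agent.H76.NCKill.StZC3 G) : Cfsg.Agent.H76.NCKill.StZ G := zAsm hA hB hC

end Cfsg.Agent.H28.NCKill

#print axioms Cfsg.Agent.H28.NCKill.zAsm
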