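import Cfsg.Agent.H90.NSMain
import Cfsg.Agent.H86.FusNormal
import Cfsg.Agent.H87.NormalSub

set_option autoImplicit false

/-!
Piece A13 of the team project S5121 (helper90): every map of `E` is a map of `F_T(H)`.
-/

namespace Cfsg.Agent.H28.NS

open Cfsg Cfsg.FusionSystem Cfsg.Agent.H86 Cfsg.Agent.H87 Cfsg.Agent.H90.NS

universe u

theorem a13 : A13Stmt.{u} := by
  intro G _ _ p _ S T E hyp hRn hrnc hHn hSH hle hreal P f hf
  obtain ⟨-, hTS, hN⟩ := hyp
  obtain ⟨⟨hEsat, hFsat, hinv⟩, -⟩ := hN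
  have hTp : IsPGroup p T := S.isPGroup'.to_le hTS
  have hsyl : IsSylIn p T (hSub p T E) := sylow_of_inf_le p S T _ hTS le_sup_right hHn hSH
  have hEHsat : (fusionSystemOfSubgroup (hSub p T E) T le_sup_right).IsSaturated p :=
    fusionSystemOfSubgroup_saturated le_sup_right hsyl
  have hle' : fusionSystemOfSubgroup (hSub p T E) T le_sup_right ≤ E := fusionSystem_le_iff.2 hle
  obtain ⟨hRnorm, hRcen⟩ := hrnc
  obtain ⟨hRT, hext⟩ := isNormal_iff.1 hRnorm
  obtain ⟨f', hf', hf'f, hf'R⟩ := hext P f hf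
  have hf'Rm : Mor E (rSub p T) f' := hf'.restrict le_sup_right
  obtain ⟨h, hh, hhf⟩ := hreal f' hf'Rm
  have hEH_R : Mor (fusionSystemOfSubgroup (hSub p T E) T le_sup_right) (rSub p T) f' := by
    exact mor_fusionSystemOfSubgroup_iff.2 ⟨hRT, fun x hx => hf'Rm.mem hx, h, hh, hhf⟩
  have hfin := Cfsg.Agent.H90.mor_of_centric_restrict hTp hEsat hEHsat hle' hf' le_sup_right hRcen hEH_R
  exact (hfin.restrict le_sup_left).congr (fun x hx => hf'f x hx)

end Cfsg.Agent.H28.NS
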