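import Cfsg.Agent.H90.NSDefs
import Cfsg.Agent.H87.Invariant

set_option autoImplicit false

/-!
Piece A4 of the team project S5121 (helper90): `Aut_E(P)` is normalized by `Aut_F(P)` for `P ≤ T`,
when `E` over `T` is normal in `F = F_S(G)`.
-/

namespace Cfsg.Agent.H28.NS

open Cfsg Cfsg.FusionSystem Cfsg.Agent.H86 Cfsg.Agent.H87 Cfsg.Agent.H90.NS

universe u

/-- General form: for a strongly invariant subsystem `E` over `T` of `F` over `S`, the automizer in `E`
of `P ≤ T` is normalized by the automizer in `F`. -/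
theorem autGroup_conj_mem_of_strongInv {Ω : Type u} [Group Ω] {S T : Subgroup Ω}
    {E : FusionSystem T} {F : FusionSystem S} (hTS : T ≤ S) (hSI : StrongInv E F)
    (P : Subgroup Ω) (hPT : P ≤ T) :
    ∀ α ∈ E.autGroup P, ∀ β ∈ F.autGroup P, β * α * β⁻¹ ∈ E.autGroup P := by
  intro α hα β hβ
  have hβm : Mor F P (autFun P β) := (mem_autGroup_iff (hPT.trans hTS) β).1 hβ
  have hαm : Mor E P (autFun P α) := (mem_autGroup_iff hPT α).1 hα
  have himg : imgS P (autFun P β) = P := imgS_autFun hβm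
  obtain ⟨χ, hχ, hχeq⟩ := hSI P P (autFun P α) (autFun P β) le_rfl hPT hαm
    (fun x hx => autFun_mem α hx) hβm
  rw [himg] at hχ
  rw [mem_autGroup_iff hPT]
  refine hχ.congr (fun y hy => ?_)
  have hy' : autFun P β⁻¹ y ∈ P := autFun_mem _ hy
  have h1 := hχeq _ hy'
  rw [autFun_apply_inv β hy] at h1
  rw [h1, autFun_mul _ _ hy, autFun_mul _ _ hy']

theorem a4 : A4Stmt.{u} := by
  intro G _ _ p _ S T E hyp P hPT α hα β hβ
  obtain ⟨-, hTS, hN⟩ := hyp
  obtain ⟨⟨-, hFsat, hinv⟩, -⟩ := hN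
  obtain ⟨hEF, hcl, -, -⟩ := (isInvariantIn_iff hTS).1 hinv
  have hSI : StrongInv E (groupFusionSystem (S : Subgroup G)) :=
    (invariant_iff_strongInv S.isPGroup' hFsat hEF hcl).1 hinv
  exact autGroup_conj_mem_of_strongInv hTS hSI P hPT α hα β hβ

end Cfsg.Agent.H28.NS
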