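import Mathlib
import Cfsg.Agent.H86.NdDefs
import Cfsg.Agent.H95.OhFin
import Cfsg.Agent.H89.Ev2SpanNd
import Cfsg.Agent.H27.Ev2IsoGen
import Cfsg.Agent.H28.OhCntOrb

/-!
# ND-CNTORB (helper28, for helper86 / S5989 + S5991)

If the fixed space `K` of `x` (`x ^ r = 1`) has dimension `< c`, the number of members of the set
(nondegenerate `m`-spaces isometric to `W₀`) inside `K` (`1 ≤ m < dim K`) is prime to `r`:
the isometries fixing `R = range (x - 1)` pointwise act transitively on them (Witt,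
`StNdOrbTrans`), and their group has order prime to `r` (Cauchy and O-MODC).
-/

set_option autoImplicit false

namespace Cfsg.Agent.H28.Nd

open Cfsg.Agent.H45 Cfsg.Agent.H42.Spd Cfsg.Agent.H42.Ti Cfsg.Agent.H14.Ot Cfsg.Agent.H95.Oh
  Cfsg.Agent.H86.Ev2 Cfsg.Agent.H86.Nd Cfsg.Agent.H28.Oh Module

universe u

section gen

variable {F : Type u} [Field F] {ι : Type} [Fintype ι] [DecidableEq ι]

theorem isomQ_apply (Q : QuadraticForm F (ι → F)) (g : Matrix.GeneralLinearGroup ι F)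
    (hg : g ∈ Cfsg.isometryGroup F ⇑Q) (v : ι → F) :
    Q (Matrix.toLin' (g : Matrix ι ι F) v) = Q v :=
  (Cfsg.Agent.H49.mem_isometryGroup_iff.mp hg) v

theorem toLin_gl_injective (g : Matrix.GeneralLinearGroup ι F) :
    Function.Injective (Matrix.toLin' (g : Matrix ι ι F)) := by
  intro a b hab
  have h := congrArg (Matrix.toLin' ((g⁻¹ : Matrix.GeneralLinearGroup ι F) : Matrix ι ι F)) hab
  rw [toLin_inv_apply, toLin_inv_apply] at h
  exact h

/-- The image of a subspace under an isometry is isometric to it. -/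
theorem isomFor_map (Q : QuadraticForm F (ι → F)) (g : Matrix.GeneralLinearGroup ι F)
    (hg : g ∈ Cfsg.isometryGroup F ⇑Q) (W : Submodule F (ι → F)) :
    Cfsg.Geo.AreIsometricFor ⇑Q (W.map (Matrix.toLin' (g : Matrix ι ι F))) W := by
  refine ⟨(Submodule.equivMapOfInjective _ (toLin_gl_injective g) W).symm, fun y => ?_⟩
  have h1 : (y : ι → F) = Matrix.toLin' (g : Matrix ι ι F)
      (((Submodule.equivMapOfInjective _ (toLin_gl_injective g) W).symm y : ↥W) : ι → F) := by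
    rw [← Submodule.coe_equivMapOfInjective_apply _ (toLin_gl_injective g) W,
      LinearEquiv.apply_symm_apply]
  conv_rhs => rw [h1]
  rw [isomQ_apply Q g hg]

theorem isomFor_trans (Qf : (ι → F) → F) {W₁ W₂ W₃ : Submodule F (ι → F)}
    (h12 : Cfsg.Geo.AreIsometricFor Qf W₁ W₂) (h23 : Cfsg.Geo.AreIsometricFor Qf W₂ W₃) :
    Cfsg.Geo.AreIsometricFor Qf W₁ W₃ := by
  obtain ⟨e, he⟩ := h12
  obtain ⟨f, hf⟩ := h23
  exact ⟨e.trans f, fun w => (hf (e w)).trans (he w)⟩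

theorem isomFor_symm (Qf : (ι → F) → F) {W₁ W₂ : Submodule F (ι → F)}
    (h12 : Cfsg.Geo.AreIsometricFor Qf W₁ W₂) : Cfsg.Geo.AreIsometricFor Qf W₂ W₁ := by
  obtain ⟨e, he⟩ := h12
  refine ⟨e.symm, fun w => ?_⟩
  have h := he (e.symm w)
  rw [LinearEquiv.apply_symm_apply] at h
  exact h.symm

/-- A `Q`-isometry of subspaces is a `B`-isometry (polarization). -/
theorem isomB_of_isomFor {Q : QuadraticForm F (ι → F)} {B : (ι → F) →ₗ[F] (ι → F) →ₗ[F] F}
    (hB : Bridge Q B) {W W' : Submodule F (ι → F)}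
    (h : Cfsg.Geo.AreIsometricFor ⇑Q W W') :
    ∃ e : ↥W ≃ₗ[F] ↥W', ∀ x y : ↥W,
      B (e x : ι → F) (e y : ι → F) = B (x : ι → F) (y : ι → F) := by
  obtain ⟨e, he⟩ := h
  refine ⟨e, fun x y => ?_⟩
  rw [hB.pol, hB.pol]
  unfold QuadraticMap.polar
  have h1 := he (x + y)
  rw [map_add, Submodule.coe_add, Submodule.coe_add] at h1
  rw [h1, he x, he y]

/-- The members of the set are permuted by the isometries. -/
theorem isNW_map {Q : QuadraticForm F (ι → F)} {B : (ι → F) →ₗ[F] (ι → F) →ₗ[F] F}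
    (hB : Bridge Q B) (g : Matrix.GeneralLinearGroup ι F) (hg : g ∈ Cfsg.isometryGroup F ⇑Q)
    (m : ℕ) (W₀ W : Submodule F (ι → F)) (hW : IsNW ⇑Q m W₀ W) :
    IsNW ⇑Q m W₀ (W.map (Matrix.toLin' (g : Matrix ι ι F))) := by
  obtain ⟨hWd, hWnd, hWiso⟩ := hW
  refine ⟨?_, (hB.ndW _).mpr (nd_map_gl B g ((hB.iso g).mp hg) W ((hB.ndW W).mp hWnd)),
    isomFor_trans _ (isomFor_map Q g hg W) hWiso⟩
  rw [finrank_map_gl, hWd]

end gen

theorem ndCntOrb (hT : StNdOrbTrans.{u}) : StNdCntOrb.{u} := by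
  intro F _ _ p _ _ ι _ _ Q B h2 hBr r m hr hr2 hrp hm1 W₀ hW₀ x hx hxr hmK hKc
  classical
  have hBsymm := hBr.symm
  have hBnd := hBr.nd
  have hrF : (r : F) ≠ 0 := by
    intro h0
    have h1 := (CharP.cast_eq_zero_iff F p r).mp h0
    exact hrp ((Nat.prime_dvd_prime_iff_eq (Fact.out : p.Prime) hr).mp h1).symm
  obtain ⟨T, hT'⟩ : ∃ T : Module.End F (ι → F), T = Matrix.toLin' (x : Matrix ι ι F) :=
    ⟨_, rfl⟩
  rw [← hT'] at hmK hKc ⊢
  have hTr : T ^ r = 1 := by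
    rw [hT', ← Matrix.toLin'_pow, ← Units.val_pow_eq_pow_val, hxr, Units.val_one,
      Matrix.toLin'_one]
    rfl
  have hTiso : ∀ u v, B (T u) (T v) = B u v := by
    rw [hT']
    exact (hBr.iso x).mp hx
  obtain ⟨hKR, hKRtop, -⟩ := fin_split.{u, u} F (ι → F) r T hrF hTr
  obtain ⟨K, hK⟩ : ∃ K : Submodule F (ι → F), K = LinearMap.ker (T - 1) := ⟨_, rfl⟩
  obtain ⟨R, hR⟩ : ∃ R : Submodule F (ι → F), R = LinearMap.range (T - 1) := ⟨_, rfl⟩
  rw [← hK] at hmK hKc hKR hKRtop ⊢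
  rw [← hR] at hKR hKRtop
  have hTsurj : Function.Surjective T := by
    intro y
    refine ⟨Matrix.toLin' ((x⁻¹ : Matrix.GeneralLinearGroup ι F) : Matrix ι ι F) y, ?_⟩
    rw [hT']
    exact toLin_apply_inv x y
  have memK : ∀ u, u ∈ K ↔ T u = u := by
    intro u
    rw [hK, LinearMap.mem_ker, LinearMap.sub_apply, Module.End.one_apply, sub_eq_zero]
  -- `K = R^⊥`
  have hKperp : ∀ u, u ∈ K ↔ u ∈ perp B R := by
    intro u
    constructor
    · intro hu v hv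
      rw [hR] at hv
      obtain ⟨w, rfl⟩ := hv
      have hu' := (memK u).mp hu
      rw [LinearMap.sub_apply, Module.End.one_apply, map_sub, LinearMap.sub_apply]
      nth_rewrite 1 [← hu']
      rw [hTiso, sub_self]
    · intro hu
      rw [memK]
      have h1 : ∀ z, B (u - T u) z = 0 := by
        intro z
        obtain ⟨w, rfl⟩ := hTsurj z
        have h3 : B ((T - 1) w) u = 0 := hu _ (by rw [hR]; exact ⟨w, rfl⟩)
        rw [LinearMap.sub_apply, Module.End.one_apply, map_sub, LinearMap.sub_apply] at h3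
        rw [map_sub, LinearMap.sub_apply, hTiso, hBsymm u (T w), hBsymm u w]
        linear_combination h3
      have h4 := hBnd _ h1
      exact (sub_eq_zero.mp h4).symm
  have hRnd : R ⊓ perp B R = ⊥ := by
    rw [eq_bot_iff]
    intro u hu
    have h1 : u ∈ K ⊓ R := ⟨(hKperp u).mpr hu.2, hu.1⟩
    rw [hKR] at h1
    exact h1
  have hKnd : K ⊓ perp B K = ⊥ := by
    rw [eq_bot_iff]
    intro u hu
    rw [Submodule.mem_bot]
    apply hBnd
    intro z
    have hz : z ∈ K ⊔ R := by rw [hKRtop]; exact Submodule.mem_top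
    obtain ⟨k, hk, v, hv, rfl⟩ := Submodule.mem_sup.mp hz
    rw [hBsymm, map_add, LinearMap.add_apply, hu.2 k hk, ((hKperp u).mp hu.1) v hv, add_zero]
  have hdim : finrank F K + finrank F R = finrank F (ι → F) := by
    have h1 := Submodule.finrank_sup_add_finrank_inf_eq K R
    rw [hKRtop, hKR, finrank_top, finrank_bot] at h1
    omega
  -- the group of isometries fixing `R` pointwise
  obtain ⟨G', hG'⟩ : ∃ G' : Subgroup (Matrix.GeneralLinearGroup ι F),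
      ∀ g, g ∈ G' ↔ (g ∈ Cfsg.isometryGroup F ⇑Q ∧ ∀ v ∈ R,
        Matrix.toLin' (g : Matrix ι ι F) v = v) :=
    ⟨fixSub ⇑Q R, fun g => Iff.rfl⟩
  -- a base point inside `K`
  obtain ⟨v, hv, hvW⟩ := hBr.exists_ortho fin_ortho.{u, u} h2 m W₀ hW₀
  have hδ : (∏ a, B (v a) (v a)) ≠ 0 := Finset.prod_ne_zero_iff.mpr (fun a _ => hv.2 a)
  obtain ⟨w, hwK, hwo, hwn, hwsq⟩ := fin_subdisc.{u, u} F (ι → F) B h2 hBsymm K hKnd m
    (∏ a, B (v a) (v a)) hm1 (by omega) hδ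
  have hw : OrthoFam B w := ⟨hwo, hwn⟩
  obtain ⟨W₁, hW₁⟩ : ∃ W₁ : Submodule F (ι → F), W₁ = Submodule.span F (Set.range w) :=
    ⟨_, rfl⟩
  obtain ⟨hfr, hnd⟩ : finrank F ↥W₁ = m ∧ W₁ ⊓ perp B W₁ = ⊥ := by
    rw [hW₁]
    exact (Cfsg.Agent.H89.Ev2.spanNd.{u, u} F (ι → F) B hBsymm m w hw).2
  obtain ⟨e, he⟩ : ∃ e : ↥W₁ ≃ₗ[F] ↥(Submodule.span F (Set.range v)),
      ∀ x y, B (e x : ι → F) (e y : ι → F) = B (x : ι → F) (y : ι → F) := by
    rw [hW₁]
    exact Cfsg.Agent.H27.Ev2.isoGen.{u, u} F (ι → F) B h2 hBsymm m w v hw hv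
      (by rw [mul_comm]; exact hwsq)
  have hW₁K : W₁ ≤ K := by
    rw [hW₁]
    refine Submodule.span_le.mpr ?_
    rintro _ ⟨a, rfl⟩
    exact hwK a
  have hW₁N : IsNW ⇑Q m W₀ W₁ := by
    refine ⟨hfr, (hBr.ndW _).mpr hnd, e.trans (LinearEquiv.ofEq _ _ hvW), fun y => ?_⟩
    have h1 := he y y
    rw [hBr.diag, hBr.diag] at h1
    have h3 : ((e.trans (LinearEquiv.ofEq _ _ hvW)) y : ι → F) = (e y : ι → F) := rfl
    rw [h3]
    exact mul_left_cancel₀ h2 h1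
  let _ : MulAction (Matrix.GeneralLinearGroup ι F) (Submodule F (ι → F)) := subAct F ι
  have hX : {W : Submodule F (ι → F) | IsNW ⇑Q m W₀ W ∧ W ≤ K} = MulAction.orbit ↥G' W₁ := by
    ext W
    constructor
    · rintro ⟨hWN, hWK⟩
      have hperp : ∀ W' : Submodule F (ι → F), W' ≤ K → W' ≤ perp B R :=
        fun W' hW' u hu => (hKperp u).mp (hW' hu)
      obtain ⟨g, hgiso, hgR, hgW⟩ := hT F ι Q B h2 hBr R W₁ W hRnd hnd
        ((hBr.ndW W).mp hWN.2.1) (hperp W₁ hW₁K) (hperp W hWK)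
        (isomB_of_isomFor hBr (isomFor_trans _ hW₁N.2.2 (isomFor_symm _ hWN.2.2)))
      exact ⟨⟨g, (hG' g).mpr ⟨hgiso, hgR⟩⟩, hgW⟩
    · rintro ⟨g, rfl⟩
      have hg := (hG' g.1).mp g.2
      have hgB := (hBr.iso g.1).mp hg.1
      show IsNW ⇑Q m W₀ (W₁.map (Matrix.toLin'
          ((g : Matrix.GeneralLinearGroup ι F) : Matrix ι ι F))) ∧
        W₁.map (Matrix.toLin' ((g : Matrix.GeneralLinearGroup ι F) : Matrix ι ι F)) ≤ K
      refine ⟨isNW_map hBr g.1 hg.1 m W₀ W₁ hW₁N, ?_⟩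
      rintro _ ⟨w', hw', rfl⟩
      rw [hKperp]
      intro v' hv'
      have h1 := hgB v' w'
      rw [hg.2 v' hv'] at h1
      rw [h1]
      exact ((hKperp w').mp (hW₁K hw')) v' hv'
  show ¬ r ∣ Nat.card ↥{W : Submodule F (ι → F) | IsNW ⇑Q m W₀ W ∧ W ≤ K}
  rw [hX, Nat.card_coe_set_eq, ← MulAction.index_stabilizer]
  intro hdvd
  have hdvd' : r ∣ Nat.card ↥G' := hdvd.trans (Subgroup.index_dvd_card _)
  have : Fact r.Prime := ⟨hr⟩
  obtain ⟨g, hg⟩ := exists_prime_orderOf_dvd_card' r hdvd'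
  have hgm := (hG' g.1).mp g.2
  obtain ⟨Tg, hTg⟩ : ∃ Tg : Module.End F (ι → F),
      Tg = Matrix.toLin' ((g : Matrix.GeneralLinearGroup ι F) : Matrix ι ι F) := ⟨_, rfl⟩
  have hgr : g ^ r = 1 := by rw [← hg]; exact pow_orderOf_eq_one g
  have hTgr : Tg ^ r = 1 := by
    have h1 : ((g : Matrix.GeneralLinearGroup ι F)) ^ r = 1 := by
      rw [← Subgroup.coe_pow, hgr, Subgroup.coe_one]
    rw [hTg, ← Matrix.toLin'_pow, ← Units.val_pow_eq_pow_val, h1, Units.val_one,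
      Matrix.toLin'_one]
    rfl
  have hO : OCtx r B Tg := by
    refine ⟨hr, hr2, hrF, h2, hBsymm, hBnd, ?_, hTgr⟩
    rw [hTg]
    exact (hBr.iso g.1).mp hgm.1
  obtain ⟨s, hs⟩ := fin_omodc.{u, u} F (ι → F) r B Tg hO
  have hRle : R ≤ ⊤ ⊓ LinearMap.ker (Tg - 1) := by
    intro v hv
    refine ⟨Submodule.mem_top, ?_⟩
    show v ∈ LinearMap.ker (Tg - 1)
    rw [LinearMap.mem_ker, LinearMap.sub_apply, Module.End.one_apply, hTg, hgm.2 v hv, sub_self]
  have hkk : finrank F R ≤ kk Tg ⊤ := Submodule.finrank_mono hRle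
  have hs0 : s = 0 := by
    by_contra hne
    have h1 : cc F r ≤ cc F r * s := Nat.le_mul_of_pos_right _ (Nat.pos_of_ne_zero hne)
    omega
  rw [hs0, mul_zero, add_zero] at hs
  have htop : (⊤ : Submodule F (ι → F)) ⊓ LinearMap.ker (Tg - 1) = ⊤ :=
    Submodule.eq_top_of_finrank_eq hs.symm
  have hTg1 : Tg = 1 := by
    apply LinearMap.ext
    intro v
    have h1 : v ∈ (⊤ : Submodule F (ι → F)) ⊓ LinearMap.ker (Tg - 1) := by
      rw [htop]; exact Submodule.mem_top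
    have h3 : v ∈ LinearMap.ker (Tg - 1) := h1.2
    rw [LinearMap.mem_ker, LinearMap.sub_apply, sub_eq_zero] at h3
    exact h3
  have hg1 : g = 1 := by
    apply Subtype.ext
    apply Units.ext
    apply Matrix.toLin'.injective
    rw [← hTg, hTg1, Subgroup.coe_one, Units.val_one, Matrix.toLin'_one]
    rfl
  rw [hg1, orderOf_one] at hg
  exact hr.one_lt.ne hg

example (hT : Cfsg.Agent.H86.Nd.StNdOrbTrans.{u}) : Cfsg.Agent.H86.Nd.StNdCntOrb.{u} :=
  ndCntOrb hT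

end Cfsg.Agent.H28.Nd

#print axioms Cfsg.Agent.H28.Nd.ndCntOrb
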