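import Mathlib
import Cfsg.Agent.H28.NdCntOrb

/-!
# ND-CNT (helper28, for helper86 / S5989 + S5991)

If the fixed space `K` of `x` (`x ^ r = 1`) has dimension `< c` and `1 ≤ m < dim K`, `m < c`, the
number of all members of the set (nondegenerate `m`-spaces isometric to `W₀`) is prime to `r`:
`x` permutes them, the fixed members are invariant, hence inside `K` (S5992-FWD), and their
number is prime to `r` (ND-CNTORB).
-/

set_option autoImplicit false

namespace Cfsg.Agent.H28.Nd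

open Cfsg.Agent.H45 Cfsg.Agent.H42.Spd Cfsg.Agent.H42.Ti Cfsg.Agent.H14.Ot Cfsg.Agent.H95.Oh
  Cfsg.Agent.H86.Ev2 Cfsg.Agent.H86.Nd Cfsg.Agent.H28.Oh Module

universe u

theorem ndCnt (hC : StNdCntOrb.{u}) : StNdCnt.{u} := by
  intro F _ _ p _ _ ι _ _ Q B h2 hBr r m hr hr2 hrp hm1 hmc W₀ hW₀ x hx hxr hmK hKc
  classical
  have hOrb' := hC F p ι Q B h2 hBr r m hr hr2 hrp hm1 W₀ hW₀ x hx hxr hmK hKc
  have hNWmap : ∀ W : Submodule F (ι → F), IsNW ⇑Q m W₀ W →
      IsNW ⇑Q m W₀ (W.map (Matrix.toLin' (x : Matrix ι ι F))) :=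
    fun W hW => isNW_map hBr x hx m W₀ W hW
  obtain ⟨T, hT⟩ : ∃ T : Module.End F (ι → F), T = Matrix.toLin' (x : Matrix ι ι F) :=
    ⟨_, rfl⟩
  rw [← hT] at hmK hKc hOrb' hNWmap
  have hTiso : ∀ a b, B (T a) (T b) = B a b := by
    rw [hT]
    exact (hBr.iso x).mp hx
  have hTpow : T ^ r = 1 := by
    rw [hT, ← Matrix.toLin'_pow, ← Units.val_pow_eq_pow_val, hxr, Units.val_one,
      Matrix.toLin'_one]
    rfl
  have hrF : (r : F) ≠ 0 := by
    intro h0
    have h1 := (CharP.cast_eq_zero_iff F p r).mp h0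
    exact hrp ((Nat.prime_dvd_prime_iff_eq Fact.out hr).mp h1).symm
  have hO : OCtx r B T := ⟨hr, hr2, hrF, h2, hBr.symm, hBr.nd, hTiso, hTpow⟩
  have hmapk : ∀ (k : ℕ) (W : Submodule F (ι → F)),
      (W.map T).map (T ^ k) = W.map (T ^ (k + 1)) := by
    intro k W
    rw [pow_succ, Module.End.mul_eq_comp, Submodule.map_comp]
  have hmapr : ∀ W : Submodule F (ι → F), W.map (T ^ r) = W := by
    intro W
    rw [hTpow, Module.End.one_eq_id, Submodule.map_id]
  obtain ⟨τ, hτ⟩ : ∃ τ : {W : Submodule F (ι → F) // IsNW ⇑Q m W₀ W} →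
      {W : Submodule F (ι → F) // IsNW ⇑Q m W₀ W},
      ∀ W, (τ W).1 = W.1.map T := ⟨fun W => ⟨W.1.map T, hNWmap W.1 W.2⟩, fun _ => rfl⟩
  have hiter : ∀ (k : ℕ) (W : {W : Submodule F (ι → F) // IsNW ⇑Q m W₀ W}),
      (τ^[k] W).1 = W.1.map (T ^ k) := by
    intro k
    induction k with
    | zero =>
      intro W
      rw [Function.iterate_zero, id, pow_zero, Module.End.one_eq_id, Submodule.map_id]
    | succ k ih =>
      intro W
      rw [Function.iterate_succ_apply, ih, hτ, hmapk]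
  have hτr : ∀ W, τ^[r] W = W := by
    intro W
    apply Subtype.ext
    rw [hiter, hmapr]
  have hfinS : Finite (Submodule F (ι → F)) :=
    Finite.of_injective (fun W : Submodule F (ι → F) => (W : Set (ι → F)))
      SetLike.coe_injective
  have hmod := Cfsg.Agent.H25.Oh.cnt_card_modEq_fix τ r hr hτr
  -- the fixed points are the members inside `ker (T - 1)`
  have hfixle : ∀ W : Submodule F (ι → F), IsNW ⇑Q m W₀ W →
      W.map T = W → W ≤ LinearMap.ker (T - 1) := by
    intro W hW hfix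
    obtain ⟨h1, h2', -⟩ := hW
    have hWinv : W ∈ T.invtSubmodule := by
      rw [Module.End.mem_invtSubmodule]
      intro v hv
      rw [Submodule.mem_comap, ← hfix]
      exact ⟨v, hv, rfl⟩
    obtain ⟨j, hj1, -, -⟩ := fin_fwd.{u, u} F _ r B T hO W hWinv ((hBr.ndW W).mp h2')
    have hj0 : j = 0 := by
      by_contra hne
      have h3 : cc F r * 1 ≤ cc F r * j := Nat.mul_le_mul_left _ (Nat.pos_of_ne_zero hne)
      omega
    rw [hj0, mul_zero, add_zero] at hj1
    have h4 : finrank F ↥(W ⊓ LinearMap.ker (T - 1)) = finrank F W := hj1.symm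
    have h5 : W ⊓ LinearMap.ker (T - 1) = W := Submodule.eq_of_le_of_finrank_eq inf_le_left h4
    exact inf_eq_left.mp h5
  have hlefix : ∀ W : Submodule F (ι → F), W ≤ LinearMap.ker (T - 1) → W.map T = W := by
    intro W hle
    have hfixv : ∀ w ∈ W, T w = w := by
      intro w hw
      have h1 := LinearMap.mem_ker.mp (hle hw)
      rw [LinearMap.sub_apply, Module.End.one_apply, sub_eq_zero] at h1
      exact h1
    apply le_antisymm
    · rintro _ ⟨w, hw, rfl⟩
      rw [hfixv w hw]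
      exact hw
    · intro w hw
      exact ⟨w, hw, hfixv w hw⟩
  have hcard : Nat.card {W : {W : Submodule F (ι → F) // IsNW ⇑Q m W₀ W} // τ W = W} =
      Nat.card {W : Submodule F (ι → F) // IsNW ⇑Q m W₀ W ∧ W ≤ LinearMap.ker (T - 1)} := by
    apply Nat.card_congr
    refine ⟨fun W => ⟨W.1.1, W.1.2, hfixle W.1.1 W.1.2 ?_⟩,
      fun W => ⟨⟨W.1, W.2.1⟩, Subtype.ext ?_⟩, fun W => rfl, fun W => rfl⟩
    · rw [← hτ]
      exact congrArg Subtype.val W.2
    · rw [hτ]
      exact hlefix W.1 W.2.2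
  intro hdvd
  apply hOrb'
  rw [← hcard]
  exact (hmod.dvd_iff (dvd_refl r)).mp hdvd

example (hC : Cfsg.Agent.H86.Nd.StNdCntOrb.{u}) : Cfsg.Agent.H86.Nd.StNdCnt.{u} := ndCnt hC

/-- The two pieces combined. -/
theorem ndCnt_of_orbTrans (hT : StNdOrbTrans.{u}) : StNdCnt.{u} := ndCnt (ndCntOrb hT)

end Cfsg.Agent.H28.Nd

#print axioms Cfsg.Agent.H28.Nd.ndCnt
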