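import Mathlib
import Cfsg.Agent.H74.W2PDefs

set_option autoImplicit false

/-!
# S4707-W4 (helper28, for helper74): `wch_rat`

A sum of `p`-th roots of unity with integer coefficients that is fixed by all Galois shifts
`ζ ↦ ζ ^ k` (`k ≠ 0`) is rational.
-/

namespace Cfsg.Agent.H28.PD

open Equiv MulAction Cfsg.Agent.H74.W2P

variable {Ω : Type*} [Fintype Ω] [DecidableEq Ω]

theorem zeta_isPrimitiveRoot' {p : ℕ} (hp : p ≠ 0) : IsPrimitiveRoot (zeta p) p := by
  unfold zeta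
  exact Complex.isPrimitiveRoot_exp p hp

/-- the sum of `ζ ^ (k z)` over the nonzero `k : ZMod p` -/
theorem sum_zeta_erase {p : ℕ} [Fact p.Prime] (z : ℕ) (hz : z < p) :
    ∑ k ∈ (Finset.univ : Finset (ZMod p)).erase 0, zeta p ^ (k.val * z) =
      if z = 0 then (p : ℂ) - 1 else -1 := by
  have hp : p.Prime := Fact.out
  split_ifs with h0
  · subst h0
    simp only [mul_zero, pow_zero, Finset.sum_const, nsmul_eq_mul, mul_one]
    rw [Finset.card_erase_of_mem (Finset.mem_univ _), Finset.card_univ, ZMod.card]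
    rw [Nat.cast_sub hp.one_lt.le]
    simp
  · have hprim : IsPrimitiveRoot (zeta p ^ z) p := by
      apply (zeta_isPrimitiveRoot' hp.ne_zero).pow_of_coprime
      exact Nat.Coprime.symm ((Nat.Prime.coprime_iff_not_dvd hp).2
        (Nat.not_dvd_of_pos_of_lt (Nat.pos_of_ne_zero h0) hz))
    have hgeom := hprim.geom_sum_eq_zero hp.one_lt
    have hall : ∑ k : ZMod p, zeta p ^ (k.val * z) = 0 := by
      rw [← hgeom]
      refine Finset.sum_nbij' (fun k : ZMod p => k.val) (fun j : ℕ => (j : ZMod p)) ?_ ?_ ?_ ?_ ?_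
      · intro k _
        exact Finset.mem_range.2 (ZMod.val_lt k)
      · intro j _
        exact Finset.mem_univ _
      · intro k _
        exact ZMod.natCast_zmod_val k
      · intro j hj
        exact ZMod.val_natCast_of_lt (Finset.mem_range.1 hj)
      · intro k _
        rw [← pow_mul, mul_comm]
    have := Finset.add_sum_erase (Finset.univ : Finset (ZMod p))
      (fun k : ZMod p => zeta p ^ (k.val * z)) (Finset.mem_univ (0 : ZMod p))
    rw [hall] at this
    simp only [ZMod.val_zero, zero_mul, pow_zero] at this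
    linear_combination this

theorem sig_int (x : Perm Ω) (a₀ ω : Ω) : ∃ n : ℤ, sig x a₀ ω = (n : ℂ) := by
  unfold sig
  split_ifs
  · exact ⟨1, by simp⟩
  · exact ⟨-1, by simp⟩

theorem wch_rat {p : ℕ} (hp : p.Prime) (x : Perm Ω) (a₀ b₀ : Ω) (A : Matrix Ω Ω ℤ)
    (hE : ∀ k : ZMod p, k ≠ 0 →
      wch x a₀ b₀ p (A.map (Int.cast : ℤ → ℂ)) k = wch x a₀ b₀ p (A.map (Int.cast : ℤ → ℂ)) 1) :
    ∃ q : ℚ, wch x a₀ b₀ p (A.map (Int.cast : ℤ → ℂ)) 1 = (q : ℂ) := by
  haveI : Fact p.Prime := ⟨hp⟩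
  choose s hs using sig_int x a₀
  -- the integer `N` with `(p - 1) * wch 1 = N`
  obtain ⟨N, hN⟩ : ∃ N : ℤ, ((p : ℂ) - 1) * wch x a₀ b₀ p (A.map (Int.cast : ℤ → ℂ)) 1 = (N : ℂ) := by
    refine ⟨(∑ z ∈ Finset.range p, (A a₀ ((x ^ z) a₀) + A b₀ ((x ^ z) b₀)) *
        (if z = 0 then (p : ℤ) - 1 else -1)) - ((p : ℤ) - 1) * ∑ j, A a₀ j * s j, ?_⟩
    have h1 : ∑ k ∈ (Finset.univ : Finset (ZMod p)).erase 0,
        wch x a₀ b₀ p (A.map (Int.cast : ℤ → ℂ)) k =
        ((p : ℂ) - 1) * wch x a₀ b₀ p (A.map (Int.cast : ℤ → ℂ)) 1 := by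
      rw [Finset.sum_congr rfl (fun k hk => hE k (Finset.ne_of_mem_erase hk))]
      rw [Finset.sum_const, Finset.card_erase_of_mem (Finset.mem_univ _), Finset.card_univ,
        ZMod.card, nsmul_eq_mul, Nat.cast_sub hp.one_lt.le]
      simp
    rw [← h1]
    unfold wch
    rw [Finset.sum_sub_distrib, Finset.sum_comm]
    have h2 : ∀ z ∈ Finset.range p,
        ∑ k ∈ (Finset.univ : Finset (ZMod p)).erase 0,
          ((A.map (Int.cast : ℤ → ℂ)) a₀ ((x ^ z) a₀) +
            (A.map (Int.cast : ℤ → ℂ)) b₀ ((x ^ z) b₀)) * zeta p ^ (k.val * z) =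
        (((A a₀ ((x ^ z) a₀) + A b₀ ((x ^ z) b₀)) *
          (if z = 0 then (p : ℤ) - 1 else -1) : ℤ) : ℂ) := by
      intro z hz
      rw [← Finset.mul_sum, sum_zeta_erase z (Finset.mem_range.1 hz)]
      simp only [Matrix.map_apply]
      split_ifs <;> push_cast <;> ring
    rw [Finset.sum_congr rfl h2]
    rw [Finset.sum_const, Finset.card_erase_of_mem (Finset.mem_univ _), Finset.card_univ,
      ZMod.card, nsmul_eq_mul, Nat.cast_sub hp.one_lt.le]
    have h3 : ∑ j, (A.map (Int.cast : ℤ → ℂ)) a₀ j * sig x a₀ j =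
        ((∑ j, A a₀ j * s j : ℤ) : ℂ) := by
      push_cast
      refine Finset.sum_congr rfl (fun j _ => ?_)
      rw [hs j]
      simp
    rw [h3]
    push_cast
    ring
  have hp1 : ((p : ℂ) - 1) ≠ 0 := by
    have h2 : (2 : ℝ) ≤ (p : ℝ) := by exact_mod_cast hp.two_le
    intro h
    have h' : (p : ℂ) = 1 := by linear_combination h
    have h'' : (p : ℝ) = 1 := by exact_mod_cast h'
    linarith
  refine ⟨(N : ℚ) / ((p : ℚ) - 1), ?_⟩
  push_cast
  rw [eq_div_iff hp1, mul_comm]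
  exact hN

end Cfsg.Agent.H28.PD
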