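import Mathlib
import Cfsg.Agent.H97.Pres120

/-!
# `SL(2,5)` has at most `120` automorphisms (S0689-AUT, helper28)

An automorphism is determined by the images of the generators `mX` (order `3`) and `mY`
(order `5`); the possible pairs of images are counted on matrix entries.
-/

set_option autoImplicit false

namespace Cfsg.Agent.H28.Reg

open Matrix MatrixGroups
open Cfsg.Agent.H97.Ord120

/-- The four entries of a `2 × 2` matrix over `ZMod 5`. -/
abbrev E5 : Type := ZMod 5 × ZMod 5 × ZMod 5 × ZMod 5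

/-- Matrix multiplication on entries. -/
def mulE (x y : E5) : E5 :=
  (x.1 * y.1 + x.2.1 * y.2.2.1, x.1 * y.2.1 + x.2.1 * y.2.2.2,
   x.2.2.1 * y.1 + x.2.2.2 * y.2.2.1, x.2.2.1 * y.2.1 + x.2.2.2 * y.2.2.2)

/-- The identity matrix. -/
def oneE : E5 := (1, 0, 0, 1)

/-- The determinant. -/
def detE (x : E5) : ZMod 5 := x.1 * x.2.2.2 - x.2.1 * x.2.2.1

/-- The entries of an element of `SL(2,5)`. -/
def toE (M : SL(2, ZMod 5)) : E5 := (M.1 0 0, M.1 0 1, M.1 1 0, M.1 1 1)

theorem toE_mul (M N : SL(2, ZMod 5)) : toE (M * N) = mulE (toE M) (toE N) := by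
  simp [toE, mulE, Matrix.mul_apply, Fin.sum_univ_two]

theorem toE_one : toE 1 = oneE := by
  simp [toE, oneE]

theorem detE_toE (M : SL(2, ZMod 5)) : detE (toE M) = 1 := by
  have h := M.2
  rw [Matrix.det_fin_two] at h
  exact h

theorem toE_injective : Function.Injective toE := by
  intro M N h
  simp only [toE, Prod.mk.injEq] at h
  apply Subtype.ext
  ext i j
  fin_cases i <;> fin_cases j
  · exact h.1
  · exact h.2.1
  · exact h.2.2.1
  · exact h.2.2.2

/-- The condition on the image of `mY`. -/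
def PY (y : E5) : Prop :=
  detE y = 1 ∧ y ≠ oneE ∧ mulE y (mulE y (mulE y (mulE y y))) = oneE

/-- The condition on the image of `mX`, given the image of `mY`. -/
def PX (y x : E5) : Prop :=
  detE x = 1 ∧ x ≠ oneE ∧ mulE x (mulE x x) = oneE ∧
    mulE (mulE x y) (mulE x y) ≠ oneE ∧
    mulE (mulE (mulE x y) (mulE x y)) (mulE (mulE x y) (mulE x y)) = oneE

instance : DecidablePred PY := fun y => by
  unfold PY
  infer_instance

instance (y : E5) : DecidablePred (PX y) := fun x => by
  unfold PX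
  infer_instance

theorem count_le :
    ∑ y ∈ Finset.univ.filter PY, (Finset.univ.filter (PX y)).card ≤ 120 := by
  decide +kernel

theorem mY_facts : mY ≠ 1 ∧ mY * (mY * (mY * (mY * mY))) = 1 := by
  decide

theorem mX_facts : mX ≠ 1 ∧ mX * (mX * mX) = 1 ∧ (mX * mY) * (mX * mY) ≠ 1 ∧
    ((mX * mY) * (mX * mY)) * ((mX * mY) * (mX * mY)) = 1 := by
  decide

theorem pY_aut (σ : MulAut SL(2, ZMod 5)) : PY (toE (σ mY)) := by
  refine ⟨detE_toE _, ?_, ?_⟩
  · intro h
    rw [← toE_one] at h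
    have h1 := toE_injective h
    rw [MulEquiv.map_eq_one_iff] at h1
    exact mY_facts.1 h1
  · have h := congrArg σ mY_facts.2
    rw [map_mul, map_mul, map_mul, map_mul, map_one] at h
    rw [← toE_mul, ← toE_mul, ← toE_mul, ← toE_mul, h, toE_one]

theorem pX_aut (σ : MulAut SL(2, ZMod 5)) : PX (toE (σ mY)) (toE (σ mX)) := by
  refine ⟨detE_toE _, ?_, ?_, ?_, ?_⟩
  · intro h
    rw [← toE_one] at h
    have h1 := toE_injective h
    rw [MulEquiv.map_eq_one_iff] at h1
    exact mX_facts.1 h1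
  · have h := congrArg σ mX_facts.2.1
    rw [map_mul, map_mul, map_one] at h
    rw [← toE_mul, ← toE_mul, h, toE_one]
  · intro h
    rw [← toE_mul, ← toE_mul, ← toE_one] at h
    have h1 := toE_injective h
    rw [← map_mul, ← map_mul, MulEquiv.map_eq_one_iff] at h1
    exact mX_facts.2.2.1 h1
  · have h := congrArg σ mX_facts.2.2.2
    rw [map_mul, map_mul, map_mul, map_one] at h
    rw [← toE_mul, ← toE_mul, ← toE_mul, h, toE_one]

theorem aut_ext (σ τ : MulAut SL(2, ZMod 5)) (hX : σ mX = τ mX) (hY : σ mY = τ mY) :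
    σ = τ := by
  have hx : phi5 px = mX := toGrp_px _ _ _ _ _ _ _ _ _
  have hy : phi5 py = mY := toGrp_py _ _ _ _ _ _ _ _ _
  have hz : phi5 pz = (mX * mY) ^ 2 := by
    rw [← pxy2, map_pow, map_mul, hx, hy]
  have hcomp : (σ.toMonoidHom.comp phi5) = (τ.toMonoidHom.comp phi5) := by
    apply PresentedGroup.ext
    intro i
    fin_cases i
    · show σ (phi5 px) = τ (phi5 px)
      rw [hx, hX]
    · show σ (phi5 py) = τ (phi5 py)
      rw [hy, hY]
    · show σ (phi5 pz) = τ (phi5 pz)
      rw [hz, map_pow, map_pow, map_mul, map_mul, hX, hY]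
  apply MulEquiv.ext
  intro g
  obtain ⟨w, rfl⟩ := phi5_surj g
  exact DFunLike.congr_fun hcomp w

/-- **S0689-AUT.** -/
theorem card_mulAut_le :
    Nat.card (MulAut (Matrix.SpecialLinearGroup (Fin 2) (ZMod 5))) ≤ 120 := by
  classical
  obtain ⟨S, hS⟩ : ∃ S : Finset (Σ _ : E5, E5),
      S = (Finset.univ.filter PY).sigma (fun y => Finset.univ.filter (PX y)) := ⟨_, rfl⟩
  have hcard : S.card ≤ 120 := by
    rw [hS, Finset.card_sigma]
    exact count_le
  have hmem : ∀ σ : MulAut SL(2, ZMod 5), (⟨toE (σ mY), toE (σ mX)⟩ : Σ _ : E5, E5) ∈ S := by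
    intro σ
    rw [hS, Finset.mem_sigma, Finset.mem_filter, Finset.mem_filter]
    exact ⟨⟨Finset.mem_univ _, pY_aut σ⟩, Finset.mem_univ _, pX_aut σ⟩
  have hinj : Function.Injective
      (fun σ : MulAut SL(2, ZMod 5) => (⟨_, hmem σ⟩ : S)) := by
    intro σ τ h
    have h1 := congrArg Subtype.val h
    simp only [Sigma.mk.injEq, heq_eq_eq] at h1
    exact aut_ext σ τ (toE_injective h1.2) (toE_injective h1.1)
  calc Nat.card (MulAut SL(2, ZMod 5)) ≤ Nat.card S := Nat.card_le_card_of_injective _ hinj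
    _ = S.card := by rw [Nat.card_eq_fintype_card, Fintype.card_coe]
    _ ≤ 120 := hcard

end Cfsg.Agent.H28.Reg
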