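import Mathlib

/-!
# S0689-PERF (helper28): a non-solvable regular linear group contains a normal `SL(2,5)`
(given Zassenhaus' theorem as a hypothesis).
-/

set_option autoImplicit false

namespace Cfsg.Agent.H28.Reg

universe u

/-- The action of a linear automorphism on the multiplicative copy of the vector space. -/
def toMulAut {p : ℕ} {V : Type u} [AddCommGroup V] [Module (ZMod p) V] :
    (V ≃ₗ[ZMod p] V) →* MulAut (Multiplicative V) where
  toFun g := AddEquiv.toMultiplicative g.toAddEquiv
  map_one' := rfl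
  map_mul' _ _ := rfl

theorem toMulAut_apply {p : ℕ} {V : Type u} [AddCommGroup V] [Module (ZMod p) V]
    (g : V ≃ₗ[ZMod p] V) (k : Multiplicative V) :
    toMulAut g k = Multiplicative.ofAdd (g (Multiplicative.toAdd k)) := rfl

theorem toMulAut_injective {p : ℕ} {V : Type u} [AddCommGroup V] [Module (ZMod p) V] :
    Function.Injective (toMulAut (p := p) (V := V)) := by
  intro g h hgh
  ext x
  have := congrArg (fun φ : MulAut (Multiplicative V) => φ (Multiplicative.ofAdd x)) hgh
  exact this

/-- **S0689-PERF.** -/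
theorem exists_sl25
    (hZ : ∀ {K : Type u} [Group K] [Finite K] (G : Subgroup (MulAut K)),
      (∀ φ ∈ G, φ ≠ 1 → ∀ k : K, φ k = k → k = 1) → commutator G = ⊤ → G ≠ ⊥ →
      Nonempty (G ≃* Matrix.SpecialLinearGroup (Fin 2) (ZMod 5)))
    {p : ℕ} [Fact p.Prime] {V : Type u} [AddCommGroup V] [Module (ZMod p) V] [Finite V]
    (H : Subgroup (V ≃ₗ[ZMod p] V))
    (hreg : ∀ v w : V, v ≠ 0 → w ≠ 0 → ∃! h : H, (h : V ≃ₗ[ZMod p] V) v = w)
    (hsolv : ¬ Group.IsSolvable H) :
    ∃ R : Subgroup H, R.Normal ∧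
      Nonempty (R ≃* Matrix.SpecialLinearGroup (Fin 2) (ZMod 5)) := by
  classical
  have hfinE : Finite (V ≃ₗ[ZMod p] V) :=
    Finite.of_injective (fun f : V ≃ₗ[ZMod p] V => (f : V → V)) DFunLike.coe_injective
  have hfinH : Finite H := inferInstance
  -- the derived series stabilises
  obtain ⟨n, hn⟩ : ∃ n, ∀ m, Nat.card (derivedSeries H n) ≤ Nat.card (derivedSeries H m) := by
    have hne : (Set.range (fun n => Nat.card (derivedSeries H n))).Nonempty :=
      Set.range_nonempty _
    obtain ⟨n, hn⟩ := Nat.sInf_mem hne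
    refine ⟨n, fun m => ?_⟩
    have hn' : Nat.card (derivedSeries H n) =
        sInf (Set.range (fun n => Nat.card (derivedSeries H n))) := hn
    rw [hn']
    exact Nat.sInf_le ⟨m, rfl⟩
  obtain ⟨R, hR⟩ : ∃ R : Subgroup H, R = derivedSeries H n := ⟨_, rfl⟩
  have hRR : ⁅R, R⁆ = R := by
    have h1 : derivedSeries H (n + 1) ≤ derivedSeries H n :=
      derivedSeries_antitone H (Nat.le_succ n)
    have h2 := Subgroup.eq_of_le_of_card_ge h1 (hn (n + 1))
    rw [derivedSeries_succ] at h2
    rw [hR]
    exact h2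
  have hRne : R ≠ ⊥ := by
    intro h
    rw [hR] at h
    exact hsolv ((Group.isSolvable_def H).2 ⟨n, h⟩)
  have hRnorm : R.Normal := hR ▸ derivedSeries_normal H n
  have hcommR : commutator R = ⊤ := by
    apply Subgroup.map_injective R.subtype_injective
    rw [Subgroup.map_subtype_commutator, hRR, ← MonoidHom.range_eq_map, Subgroup.range_subtype]
  -- the embedding into `MulAut (Multiplicative V)`
  obtain ⟨j, hj⟩ : ∃ j : R →* MulAut (Multiplicative V),
      ∀ x : R, j x = toMulAut ((x : H) : V ≃ₗ[ZMod p] V) :=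
    ⟨(toMulAut (p := p) (V := V)).comp (H.subtype.comp R.subtype), fun x => rfl⟩
  have hjinj : Function.Injective j := by
    intro x y hxy
    rw [hj, hj] at hxy
    exact Subtype.ext (Subtype.ext (toMulAut_injective hxy))
  have hfinV : Finite (Multiplicative V) := inferInstance
  -- the three hypotheses of Zassenhaus' theorem for `j.range`
  have hfpf : ∀ φ ∈ j.range, φ ≠ 1 → ∀ k : Multiplicative V, φ k = k → k = 1 := by
    rintro _ ⟨x, rfl⟩ hx1 k hk
    by_contra hk1
    apply hx1
    have hv : Multiplicative.toAdd k ≠ 0 := fun h => hk1 (by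
      have : k = Multiplicative.ofAdd (Multiplicative.toAdd k) := rfl
      rw [this, h]
      rfl)
    obtain ⟨h0, -, huniq⟩ := hreg _ _ hv hv
    have e1 : ((x : H) : V ≃ₗ[ZMod p] V) (Multiplicative.toAdd k) = Multiplicative.toAdd k := by
      rw [hj, toMulAut_apply] at hk
      exact congrArg Multiplicative.toAdd hk
    have e2 : (((1 : H) : H) : V ≃ₗ[ZMod p] V) (Multiplicative.toAdd k) = Multiplicative.toAdd k :=
      rfl
    have hx : (x : H) = 1 := (huniq _ e1).trans (huniq _ e2).symm
    have hx' : x = 1 := Subtype.ext hx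
    rw [hx', map_one]
  have hcommG : commutator j.range = ⊤ := by
    have hsurj : Function.Surjective j.rangeRestrict := j.rangeRestrict_surjective
    rw [commutator_def, ← Subgroup.map_top_of_surjective j.rangeRestrict hsurj,
      ← Subgroup.map_commutator, ← commutator_def, hcommR]
  have hGne : j.range ≠ ⊥ := by
    intro h
    apply hRne
    rw [Subgroup.eq_bot_iff_forall]
    intro x hx
    have h1 : j ⟨x, hx⟩ ∈ j.range := ⟨_, rfl⟩
    rw [h, Subgroup.mem_bot] at h1
    have h2 : (⟨x, hx⟩ : R) = 1 := hjinj (h1.trans (map_one j).symm)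
    exact congrArg Subtype.val h2
  obtain ⟨e⟩ := hZ j.range hfpf hcommG hGne
  exact ⟨R, hRnorm, ⟨(MonoidHom.ofInjective hjinj).trans e⟩⟩

end Cfsg.Agent.H28.Reg
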