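import Mathlib

/-!
# S0689-PROD (helper28): a group which is the product of a subgroup `R` and a central element of
prime order `r` not dividing `|R|` is `R × C_r`.
-/

set_option autoImplicit false

namespace Cfsg.Agent.H28.Reg

/-- **S0689-PROD.** -/
theorem prod_of_central_prime {H : Type*} [Group H] [Finite H] (R : Subgroup H) (m : H)
    (r : ℕ) [Fact r.Prime] (hm : orderOf m = r) (hcomm : ∀ x ∈ R, m * x = x * m)
    (hcop : ¬ r ∣ Nat.card R) (hcard : Nat.card H = Nat.card R * r) :
    Nonempty (H ≃* R × Multiplicative (ZMod r)) := by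
  classical
  have hr : r.Prime := Fact.out
  obtain ⟨M, hM⟩ : ∃ M : Subgroup H, M = Subgroup.zpowers m := ⟨_, rfl⟩
  have hMcard : Nat.card M = r := by
    rw [hM, Nat.card_zpowers, hm]
  have hcommRM : ∀ (x : R) (y : M), Commute (R.subtype x) (M.subtype y) := by
    intro x y
    have hy : (y : H) ∈ Subgroup.zpowers m := hM ▸ y.2
    obtain ⟨k, hk⟩ := Subgroup.mem_zpowers_iff.1 hy
    show Commute (x : H) (y : H)
    rw [← hk]
    exact Commute.zpow_right (hcomm x x.2).symm k
  have hdisj : R ⊓ M = ⊥ := by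
    apply Disjoint.eq_bot
    apply Subgroup.disjoint_of_coprime_natCard
    rw [hMcard]
    exact ((Nat.Prime.coprime_iff_not_dvd hr).2 hcop).symm
  have hinj : Function.Injective (MonoidHom.noncommCoprod R.subtype M.subtype hcommRM) := by
    rw [injective_iff_map_eq_one]
    rintro ⟨x, y⟩ hxy
    have hxy' : (x : H) * (y : H) = 1 := hxy
    have hx : (x : H) ∈ R ⊓ M := by
      refine ⟨x.2, ?_⟩
      rw [eq_inv_of_mul_eq_one_left hxy']
      exact M.inv_mem y.2
    rw [hdisj, Subgroup.mem_bot] at hx
    have hy : (y : H) = 1 := by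
      rw [hx, one_mul] at hxy'
      exact hxy'
    exact Prod.ext (Subtype.ext hx) (Subtype.ext hy)
  have hbij : Function.Bijective (MonoidHom.noncommCoprod R.subtype M.subtype hcommRM) := by
    rw [Nat.bijective_iff_injective_and_card]
    refine ⟨hinj, ?_⟩
    rw [Nat.card_prod, hMcard, hcard]
  have hZcard : Nat.card (Multiplicative (ZMod r)) = r := by
    have : Nat.card (Multiplicative (ZMod r)) = Nat.card (ZMod r) := rfl
    rw [this, Nat.card_zmod]
  exact ⟨(MulEquiv.ofBijective _ hbij).symm.trans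
    (MulEquiv.prodCongr (MulEquiv.refl R) (mulEquivOfPrimeCardEq hMcard hZcard))⟩

end Cfsg.Agent.H28.Reg
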