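import Mathlib

/-!
# An element of order `n` in `SL_n(q)` with a two-dimensional fixed space (S5970-BAD, helper28)
-/

set_option autoImplicit false

open scoped MatrixGroups
open Matrix

namespace Cfsg.Agent.H28.Singer

/-- **S5970-BAD.** -/
theorem exists_bad_element {F : Type*} [Field F] [Fintype F] {p : ℕ} [Fact p.Prime] [CharP F p]
    (n : ℕ) (hn : n.Prime) (hn3 : 3 < n) (hnp : n ≠ p)
    (hord : orderOf ((Fintype.card F : ℕ) : ZMod n) ≠ n - 1) :
    ∃ x : Matrix.SpecialLinearGroup (Fin n) F,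
      ((x ^ n : Matrix.SpecialLinearGroup (Fin n) F) : Matrix (Fin n) (Fin n) F) = 1 ∧
      (∀ z : F, (x : Matrix (Fin n) (Fin n) F) ≠ z • (1 : Matrix (Fin n) (Fin n) F)) ∧
      ∃ v w : Fin n → F, LinearIndependent F ![v, w] ∧
        (x : Matrix (Fin n) (Fin n) F) *ᵥ v = v ∧ (x : Matrix (Fin n) (Fin n) F) *ᵥ w = w := by
  classical
  have : Fact n.Prime := ⟨hn⟩
  obtain ⟨f, hp, hqf⟩ := FiniteField.card F p
  have hq0 : ((Fintype.card F : ℕ) : ZMod n) ≠ 0 := by
    rw [Ne, ZMod.natCast_eq_zero_iff, hqf]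
    intro h
    have := hn.dvd_of_dvd_pow h
    exact hnp ((Nat.prime_dvd_prime_iff_eq hn hp).mp this)
  have hidvd : orderOf ((Fintype.card F : ℕ) : ZMod n) ∣ n - 1 :=
    orderOf_dvd_of_pow_eq_one (ZMod.pow_card_sub_one_eq_one hq0)
  obtain ⟨i, hi⟩ : ∃ i, i = orderOf ((Fintype.card F : ℕ) : ZMod n) := ⟨_, rfl⟩
  rw [← hi] at hidvd hord
  have hi1 : 1 ≤ i := Nat.pos_of_dvd_of_pos hidvd (by omega)
  have hile : i ≤ n - 3 := by
    obtain ⟨c, hc⟩ := hidvd
    have hc2 : 2 ≤ c := by
      rcases c with _ | _ | c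
      · omega
      · exfalso
        apply hord
        omega
      · omega
    have h2 : 2 * i ≤ n - 1 := by
      rw [hc]
      nlinarith
    omega
  have hqi : n ∣ Fintype.card F ^ i - 1 := by
    have h1 : ((Fintype.card F : ℕ) : ZMod n) ^ i = 1 := by
      rw [hi]
      exact pow_orderOf_eq_one _
    rw [← ZMod.natCast_eq_zero_iff]
    have hpos : 1 ≤ Fintype.card F ^ i := Nat.one_le_pow _ _ Fintype.card_pos
    rw [Nat.cast_sub hpos, Nat.cast_pow, h1]
    simp
  obtain ⟨m, hm⟩ : ∃ m, m = n - 3 := ⟨_, rfl⟩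
  have hmn : m + 3 = n := by omega
  have hcardGL : n ∣ Nat.card (GL (Fin m) F) := by
    rw [Matrix.card_GL_field]
    have hj : m - i < m := by omega
    refine dvd_trans ?_ (Finset.dvd_prod_of_mem _ (Finset.mem_univ (⟨m - i, hj⟩ : Fin m)))
    have hfac : Fintype.card F ^ m - Fintype.card F ^ (m - i) =
        Fintype.card F ^ (m - i) * (Fintype.card F ^ i - 1) := by
      rw [Nat.mul_sub, mul_one, ← pow_add]
      congr 2
      omega
    show n ∣ Fintype.card F ^ m - Fintype.card F ^ (m - i)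
    rw [hfac]
    exact dvd_mul_of_dvd_right hqi _
  obtain ⟨A, hA⟩ := exists_prime_orderOf_dvd_card' (G := GL (Fin m) F) n hcardGL
  set e : Fin m ⊕ Fin 3 ≃ Fin n := finSumFinEquiv.trans (finCongr hmn) with he
  set Am : Matrix (Fin m) (Fin m) F := (A : Matrix (Fin m) (Fin m) F) with hAm
  have hdetA : Am.det ≠ 0 := by
    have h := (Matrix.GeneralLinearGroup.det A).ne_zero
    exact h
  set d : Fin 3 → F := ![(Am.det)⁻¹, 1, 1] with hd
  set M : Matrix (Fin m ⊕ Fin 3) (Fin m ⊕ Fin 3) F :=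
    Matrix.fromBlocks Am 0 0 (Matrix.diagonal d) with hM
  set X : Matrix (Fin n) (Fin n) F := Matrix.reindex e e M with hX
  have hXapp : ∀ a b, X (e a) (e b) = M a b := by
    intro a b
    rw [hX, Matrix.reindex_apply, Matrix.submatrix_apply, Equiv.symm_apply_apply,
      Equiv.symm_apply_apply]
  have hdetM : M.det = 1 := by
    rw [hM, Matrix.det_fromBlocks_zero₁₂, Matrix.det_diagonal, Fin.prod_univ_three]
    simp [hd, hdetA]
  have hdetX : X.det = 1 := by
    rw [hX, Matrix.det_reindex_self]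
    exact hdetM
  have hd1 : Matrix.diagonal (1 : Fin 3 → F) = 1 := Matrix.diagonal_one
  have hMpow : ∀ k : ℕ, M ^ k = Matrix.fromBlocks (Am ^ k) 0 0 (Matrix.diagonal (d ^ k)) := by
    intro k
    induction k with
    | zero =>
      rw [pow_zero, pow_zero, pow_zero, hd1, Matrix.fromBlocks_one]
    | succ k ih =>
      rw [pow_succ, ih, hM, Matrix.fromBlocks_multiply]
      simp [pow_succ, Matrix.diagonal_mul_diagonal]
  have hAn : Am ^ n = 1 := by
    have h := pow_orderOf_eq_one A
    rw [hA] at h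
    have h' := congrArg (fun g : GL (Fin m) F => (g : Matrix (Fin m) (Fin m) F)) h
    simpa using h'
  have hdn : d ^ n = 1 := by
    have h1 : Am.det ^ n = 1 := by rw [← Matrix.det_pow, hAn, Matrix.det_one]
    funext j
    fin_cases j <;> simp [hd, h1]
  have hMn : M ^ n = 1 := by
    rw [hMpow, hAn, hdn, hd1, Matrix.fromBlocks_one]
  have hXpow : X ^ n = 1 := by
    have h : X ^ n = Matrix.reindex e e (M ^ n) :=
      (map_pow (Matrix.reindexAlgEquiv F F e) M n).symm
    rw [h, hMn]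
    exact map_one (Matrix.reindexAlgEquiv F F e)
  have hA1 : Am ≠ 1 := by
    intro h
    have hA' : A = 1 := Units.ext h
    rw [hA', orderOf_one] at hA
    exact hn.one_lt.ne hA
  have hfix : ∀ c : Fin 3, d c = 1 →
      X *ᵥ (Pi.single (e (Sum.inr c)) (1 : F)) = Pi.single (e (Sum.inr c)) (1 : F) := by
    intro c hc
    rw [Matrix.mulVec_single_one]
    funext j
    obtain ⟨a, rfl⟩ := e.surjective j
    rw [Matrix.col_apply, hXapp]
    rcases a with a | a
    · rw [hM, Matrix.fromBlocks_apply₁₂, Pi.single_apply]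
      simp
    · rw [hM, Matrix.fromBlocks_apply₂₂, Matrix.diagonal_apply, Pi.single_apply]
      by_cases hac : a = c
      · subst hac
        simp [hc]
      · have : e (Sum.inr a) ≠ e (Sum.inr c) := fun h => hac (Sum.inr_injective (e.injective h))
        simp [hac, this]
  obtain ⟨x, hx⟩ : ∃ x : Matrix.SpecialLinearGroup (Fin n) F,
      (x : Matrix (Fin n) (Fin n) F) = X := ⟨⟨X, hdetX⟩, rfl⟩
  refine ⟨x, ?_, ?_, Pi.single (e (Sum.inr 1)) 1, Pi.single (e (Sum.inr 2)) 1, ?_, ?_, ?_⟩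
  · rw [Matrix.SpecialLinearGroup.coe_pow, hx]
    exact hXpow
  · intro z hz
    have hz' : X = z • (1 : Matrix (Fin n) (Fin n) F) := hx ▸ hz
    have h22 := hXapp (Sum.inr 2) (Sum.inr 2)
    rw [hz'] at h22
    have hz1 : z = 1 := by
      simpa [hM, hd] using h22
    apply hA1
    ext a b
    have hab := hXapp (Sum.inl a) (Sum.inl b)
    rw [hz', hz1, one_smul, hM, Matrix.fromBlocks_apply₁₁] at hab
    rw [← hab, Matrix.one_apply, Matrix.one_apply]
    simp [e.injective.eq_iff]
  · rw [LinearIndependent.pair_iff]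
    intro s t hst
    have hne : e (Sum.inr (1 : Fin 3)) ≠ e (Sum.inr (2 : Fin 3)) := by
      intro h
      have := Sum.inr_injective (e.injective h)
      exact absurd this (by decide)
    have h1 := congrFun hst (e (Sum.inr 1))
    have h2 := congrFun hst (e (Sum.inr 2))
    simp [Pi.single_apply, hne, hne.symm] at h1 h2
    exact ⟨h1, h2⟩
  · rw [hx]
    exact hfix 1 (by simp [hd])
  · rw [hx]
    exact hfix 2 (by simp [hd])

end Cfsg.Agent.H28.Singer
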