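import Mathlib

/-!
# Two matrices of order dividing `n` with cyclic vectors are conjugate (S5970-CONJ, helper28)
-/

set_option autoImplicit false

open scoped MatrixGroups
open Matrix

namespace Cfsg.Agent.H28.Singer

/-- **S5970-CONJ.** -/
theorem conj_of_cyclic {F : Type*} [Field F] (n : ℕ) (y y' : Matrix (Fin n) (Fin n) F)
    (hy : y ^ n = 1) (hy' : y' ^ n = 1) (u u' : Fin n → F)
    (hu : LinearIndependent F (fun j : Fin n => (y ^ (j : ℕ)) *ᵥ u))
    (hu' : LinearIndependent F (fun j : Fin n => (y' ^ (j : ℕ)) *ᵥ u')) :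
    ∃ R : GL (Fin n) F, y * (R : Matrix (Fin n) (Fin n) F) = (R : Matrix (Fin n) (Fin n) F) * y' := by
  classical
  rcases Nat.eq_zero_or_pos n with rfl | hpos
  · exact ⟨1, Subsingleton.elim _ _⟩
  haveI : Nonempty (Fin n) := ⟨⟨0, hpos⟩⟩
  have hcard : Fintype.card (Fin n) = Module.finrank F (Fin n → F) := by simp
  set b := basisOfLinearIndependentOfCardEqFinrank hu hcard with hb
  set b' := basisOfLinearIndependentOfCardEqFinrank hu' hcard with hb'
  have hbj : ∀ j : Fin n, b j = (y ^ (j : ℕ)) *ᵥ u := fun j => by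
    rw [hb, coe_basisOfLinearIndependentOfCardEqFinrank]
  have hb'j : ∀ j : Fin n, b' j = (y' ^ (j : ℕ)) *ᵥ u' := fun j => by
    rw [hb', coe_basisOfLinearIndependentOfCardEqFinrank]
  set e : (Fin n → F) ≃ₗ[F] (Fin n → F) := b'.equiv b (Equiv.refl _) with he
  have hej : ∀ j, e (b' j) = b j := fun j => by
    rw [he, Module.Basis.equiv_apply]
    rfl
  set Rm : Matrix (Fin n) (Fin n) F :=
    LinearMap.toMatrix' (e : (Fin n → F) →ₗ[F] (Fin n → F)) with hRm
  set Ri : Matrix (Fin n) (Fin n) F :=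
    LinearMap.toMatrix' (e.symm : (Fin n → F) →ₗ[F] (Fin n → F)) with hRi
  have h1 : Rm * Ri = 1 := by
    rw [hRm, hRi, ← LinearMap.toMatrix'_comp]
    simp
  have h2 : Ri * Rm = 1 := by
    rw [hRm, hRi, ← LinearMap.toMatrix'_comp]
    simp
  have hRlin : Matrix.toLin' Rm = (e : (Fin n → F) →ₗ[F] (Fin n → F)) :=
    Matrix.toLin'_toMatrix' _
  refine ⟨⟨Rm, Ri, h1, h2⟩, ?_⟩
  show y * Rm = Rm * y'
  apply Matrix.toLin'.injective
  apply b'.ext
  intro j
  rw [Matrix.toLin'_mul, Matrix.toLin'_mul, hRlin]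
  simp only [LinearMap.comp_apply, Matrix.toLin'_apply, LinearEquiv.coe_coe]
  rw [hej, hbj, hb'j, Matrix.mulVec_mulVec, Matrix.mulVec_mulVec, ← pow_succ', ← pow_succ']
  by_cases hj : (j : ℕ) + 1 < n
  · have e1 : (y' ^ ((j : ℕ) + 1)) *ᵥ u' = b' ⟨(j : ℕ) + 1, hj⟩ := by rw [hb'j]
    rw [e1, hej, hbj]
  · have hjn : (j : ℕ) + 1 = n := by
      have := j.2
      omega
    have e1 : (y' ^ ((j : ℕ) + 1)) *ᵥ u' = b' ⟨0, hpos⟩ := by
      rw [hb'j, hjn, hy']
      simp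
    rw [e1, hej, hbj, hjn, hy]
    simp

end Cfsg.Agent.H28.Singer
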