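import Cfsg.Agent.H48.SpUDefs

set_option autoImplicit false

/-!
# S2316-FITU (helper28, for helper48): Fitting decomposition count for `Sp` w.r.t. `g - 1`.
Also the abstract fibre count `card_fit` and matrix helper lemmas reused by `SpUFitA`.
-/

open Matrix

namespace Cfsg.Agent.H28.SpU

open Cfsg.Agent.H48.SpU

universe u

/-- Abstract fibre count. -/
theorem card_fit {𝕄 𝕄₁ 𝕄₂ : Type*} [Monoid 𝕄] [Monoid 𝕄₁] [Monoid 𝕄₂]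
    (b : 𝕄₁ → 𝕄₂ → 𝕄) (S R : Set 𝕄) (S₁ P₁ : Set 𝕄₁) (S₂ P₂ : Set 𝕄₂)
    (hinv : ∀ h ∈ S, ∃ h' ∈ S, h * h' = 1 ∧ h' * h = 1)
    (hmul : ∀ h ∈ S, ∀ k ∈ S, h * k ∈ S)
    (hbmul : ∀ x₁ x₂ y₁ y₂, b x₁ x₂ * b y₁ y₂ = b (x₁ * y₁) (x₂ * y₂))
    (hbinj : ∀ x₁ x₂ y₁ y₂, b x₁ x₂ = b y₁ y₂ → x₁ = y₁ ∧ x₂ = y₂)
    (hSb : ∀ d₁ ∈ S₁, ∀ d₂ ∈ S₂, b d₁ d₂ ∈ S)
    (hinv₁ : ∀ d ∈ S₁, ∃ d', d * d' = 1 ∧ d' * d = 1 ∧ ∀ x ∈ P₁, d' * x * d ∈ P₁)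
    (hinv₂ : ∀ d ∈ S₂, ∃ d', d * d' = 1 ∧ d' * d = 1 ∧ ∀ x ∈ P₂, d' * x * d ∈ P₂)
    (H1 : ∀ h ∈ S, ∀ h', h * h' = 1 → h' * h = 1 → ∀ x₁ ∈ P₁, ∀ x₂ ∈ P₂,
      h * b x₁ x₂ * h' ∈ R)
    (H2 : ∀ g ∈ R, ∃ h ∈ S, ∃ x₁ ∈ P₁, ∃ x₂ ∈ P₂, g * h = h * b x₁ x₂)
    (H5 : ∀ d ∈ S, ∀ x₁ ∈ P₁, ∀ x₂ ∈ P₂, ∀ y₁ ∈ P₁, ∀ y₂ ∈ P₂,
      d * b y₁ y₂ = b x₁ x₂ * d → ∃ d₁ ∈ S₁, ∃ d₂ ∈ S₂, d = b d₁ d₂) :
    Nat.card R * (Nat.card S₁ * Nat.card S₂) = Nat.card S * (Nat.card P₁ * Nat.card P₂) := by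
  classical
  choose hh hhS x1 hx1 x2 hx2 hgh using H2
  choose i1 hi1 hi1' hi1P using hinv₁
  choose i2 hi2 hi2' hi2P using hinv₂
  have key : ∀ g (hg : g ∈ R) d₁ (hd₁ : d₁ ∈ S₁) d₂ (hd₂ : d₂ ∈ S₂),
      g * (hh g hg * b d₁ d₂) = (hh g hg * b d₁ d₂) *
        b (i1 d₁ hd₁ * x1 g hg * d₁) (i2 d₂ hd₂ * x2 g hg * d₂) := by
    intro g hg d₁ hd₁ d₂ hd₂
    have e1 : d₁ * (i1 d₁ hd₁ * x1 g hg * d₁) = x1 g hg * d₁ := by
      rw [← mul_assoc, ← mul_assoc, hi1, one_mul]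
    have e2 : d₂ * (i2 d₂ hd₂ * x2 g hg * d₂) = x2 g hg * d₂ := by
      rw [← mul_assoc, ← mul_assoc, hi2, one_mul]
    rw [← mul_assoc, hgh g hg, mul_assoc, mul_assoc, hbmul, hbmul, e1, e2]
  let ψ : ↥R × (↥S₁ × ↥S₂) → ↥S × (↥P₁ × ↥P₂) := fun t =>
    (⟨hh t.1.1 t.1.2 * b t.2.1.1 t.2.2.1, hmul _ (hhS _ _) _ (hSb _ t.2.1.2 _ t.2.2.2)⟩,
     ⟨i1 t.2.1.1 t.2.1.2 * x1 t.1.1 t.1.2 * t.2.1.1, hi1P _ _ _ (hx1 _ _)⟩,
     ⟨i2 t.2.2.1 t.2.2.2 * x2 t.1.1 t.1.2 * t.2.2.1, hi2P _ _ _ (hx2 _ _)⟩)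
  have hψ : Function.Bijective ψ := by
    constructor
    · rintro ⟨⟨g, hg⟩, ⟨d₁, hd₁⟩, ⟨d₂, hd₂⟩⟩ ⟨⟨g', hg'⟩, ⟨d₁', hd₁'⟩, ⟨d₂', hd₂'⟩⟩ heq
      simp only [ψ, Prod.mk.injEq, Subtype.mk.injEq] at heq
      obtain ⟨e1, e2, e3⟩ := heq
      have k1 := key g hg d₁ hd₁ d₂ hd₂
      have k2 := key g' hg' d₁' hd₁' d₂' hd₂'
      rw [← e1, ← e2, ← e3] at k2
      have hHS : hh g hg * b d₁ d₂ ∈ S := hmul _ (hhS _ _) _ (hSb _ hd₁ _ hd₂)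
      obtain ⟨Hi, -, hHi, -⟩ := hinv _ hHS
      have hgg : g = g' := by
        calc g = g * (hh g hg * b d₁ d₂) * Hi := by rw [mul_assoc, hHi, mul_one]
          _ = g' * (hh g hg * b d₁ d₂) * Hi := by rw [k1, k2]
          _ = g' := by rw [mul_assoc, hHi, mul_one]
      subst hgg
      obtain ⟨hi, -, -, hhi⟩ := hinv _ (hhS g hg)
      have hb : b d₁ d₂ = b d₁' d₂' := by
        calc b d₁ d₂ = hi * (hh g hg * b d₁ d₂) := by rw [← mul_assoc, hhi, one_mul]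
          _ = hi * (hh g hg * b d₁' d₂') := by rw [e1]
          _ = b d₁' d₂' := by rw [← mul_assoc, hhi, one_mul]
      obtain ⟨r1, r2⟩ := hbinj _ _ _ _ hb
      subst r1
      subst r2
      rfl
    · rintro ⟨⟨k, hk⟩, ⟨y₁, hy₁⟩, ⟨y₂, hy₂⟩⟩
      obtain ⟨k', -, hkk', hk'k⟩ := hinv k hk
      have hgR := H1 k hk k' hkk' hk'k y₁ hy₁ y₂ hy₂
      obtain ⟨g, hgdef⟩ : ∃ g, g = k * b y₁ y₂ * k' := ⟨_, rfl⟩
      rw [← hgdef] at hgR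
      have hgk : g * k = k * b y₁ y₂ := by
        rw [hgdef, mul_assoc, hk'k, mul_one]
      obtain ⟨h', hh'S, hhh', hh'h⟩ := hinv _ (hhS g hgR)
      have hdS : h' * k ∈ S := hmul _ hh'S _ hk
      have hh'g : h' * g = b (x1 g hgR) (x2 g hgR) * h' := by
        calc h' * g = h' * g * (hh g hgR * h') := by rw [hhh', mul_one]
          _ = h' * (g * hh g hgR) * h' := by simp only [mul_assoc]
          _ = h' * (hh g hgR * b (x1 g hgR) (x2 g hgR)) * h' := by rw [hgh g hgR]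
          _ = (h' * hh g hgR) * b (x1 g hgR) (x2 g hgR) * h' := by simp only [mul_assoc]
          _ = b (x1 g hgR) (x2 g hgR) * h' := by rw [hh'h, one_mul]
      have hd : (h' * k) * b y₁ y₂ = b (x1 g hgR) (x2 g hgR) * (h' * k) := by
        rw [mul_assoc, ← hgk, ← mul_assoc, hh'g, mul_assoc]
      obtain ⟨d₁, hd₁, d₂, hd₂, hdb⟩ :=
        H5 _ hdS (x1 g hgR) (hx1 g hgR) (x2 g hgR) (hx2 g hgR) y₁ hy₁ y₂ hy₂ hd
      rw [hdb, hbmul, hbmul] at hd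
      obtain ⟨q1, q2⟩ := hbinj _ _ _ _ hd
      refine ⟨(⟨g, hgR⟩, ⟨d₁, hd₁⟩, ⟨d₂, hd₂⟩), ?_⟩
      simp only [ψ, Prod.mk.injEq, Subtype.mk.injEq]
      refine ⟨?_, ?_, ?_⟩
      · rw [← hdb, ← mul_assoc, hhh', one_mul]
      · rw [mul_assoc, ← q1, ← mul_assoc, hi1', one_mul]
      · rw [mul_assoc, ← q2, ← mul_assoc, hi2', one_mul]
  have hc := Nat.card_eq_of_bijective ψ hψ
  rw [Nat.card_prod, Nat.card_prod, Nat.card_prod, Nat.card_prod] at hc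
  exact hc

theorem conj_pow' {𝕄 : Type*} [Monoid 𝕄] (h h' X : 𝕄) (h1 : h * h' = 1) (h2 : h' * h = 1)
    (k : ℕ) : (h * X * h') ^ k = h * X ^ k * h' := by
  induction k with
  | zero => simp [h1]
  | succ k ih =>
    rw [pow_succ, ih, pow_succ]
    calc h * X ^ k * h' * (h * X * h') = h * X ^ k * (h' * h) * X * h' := by
          simp only [mul_assoc]
      _ = h * (X ^ k * X) * h' := by rw [h2, mul_one]; simp only [mul_assoc]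

section mat

variable {F : Type*} [Field F]
variable {ι : Type*} [Fintype ι] [DecidableEq ι]
variable {ι₁ ι₂ : Type*} [Fintype ι₁] [DecidableEq ι₁] [Fintype ι₂] [DecidableEq ι₂]

theorem sp_mul (M : Matrix ι ι F) {h k : Matrix ι ι F} (hh : h ∈ SpSet M) (hk : k ∈ SpSet M) :
    h * k ∈ SpSet M := by
  have h1 : hᵀ * M * h = M := hh
  have h2 : kᵀ * M * k = M := hk
  show (h * k)ᵀ * M * (h * k) = M
  calc (h * k)ᵀ * M * (h * k) = kᵀ * (hᵀ * M * h) * k := by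
        rw [Matrix.transpose_mul]; simp only [Matrix.mul_assoc]
    _ = M := by rw [h1, h2]

theorem sp_inv_of (M : Matrix ι ι F) {h h' : Matrix ι ι F} (hh : h ∈ SpSet M)
    (h1 : h * h' = 1) : h' ∈ SpSet M := by
  have h0 : hᵀ * M * h = M := hh
  show h'ᵀ * M * h' = M
  calc h'ᵀ * M * h' = h'ᵀ * (hᵀ * M * h) * h' := by rw [h0]
    _ = (h * h')ᵀ * M * (h * h') := by
        rw [Matrix.transpose_mul]; simp only [Matrix.mul_assoc]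
    _ = M := by rw [h1]; simp

theorem sp_det (M : Matrix ι ι F) (hM : M.det ≠ 0) {h : Matrix ι ι F} (hh : h ∈ SpSet M) :
    IsUnit h.det := by
  have h0 : hᵀ * M * h = M := hh
  have h1 := congrArg Matrix.det h0
  rw [Matrix.det_mul, Matrix.det_mul, Matrix.det_transpose] at h1
  have h2 : h.det * h.det = 1 := by
    have : M.det * (h.det * h.det) = M.det * 1 := by rw [mul_one]; linear_combination h1
    exact mul_left_cancel₀ hM this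
  exact isUnit_iff_ne_zero.2 (left_ne_zero_of_mul_eq_one h2)

theorem sp_exists_inv (M : Matrix ι ι F) (hM : M.det ≠ 0) {h : Matrix ι ι F}
    (hh : h ∈ SpSet M) : ∃ h' ∈ SpSet M, h * h' = 1 ∧ h' * h = 1 := by
  have hd := sp_det M hM hh
  have h1 : h * h⁻¹ = 1 := Matrix.mul_nonsing_inv h hd
  have h2 : h⁻¹ * h = 1 := Matrix.nonsing_inv_mul h hd
  exact ⟨h⁻¹, sp_inv_of M hh h1, h1, h2⟩

theorem blk_mul (A A' : Matrix ι₁ ι₁ F) (D D' : Matrix ι₂ ι₂ F) :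
    fromBlocks A 0 0 D * fromBlocks A' 0 0 D' = fromBlocks (A * A') 0 0 (D * D') := by
  rw [Matrix.fromBlocks_multiply]; simp

theorem blk_pow (A : Matrix ι₁ ι₁ F) (D : Matrix ι₂ ι₂ F) (k : ℕ) :
    (fromBlocks A 0 0 D) ^ k = fromBlocks (A ^ k) 0 0 (D ^ k) := by
  induction k with
  | zero => simp [Matrix.fromBlocks_one]
  | succ k ih => rw [pow_succ, ih, blk_mul, ← pow_succ, ← pow_succ]

theorem blk_sub_one (A : Matrix ι₁ ι₁ F) (D : Matrix ι₂ ι₂ F) :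
    fromBlocks A 0 0 D - 1 = fromBlocks (A - 1) 0 0 (D - 1) := by
  ext (i | i) (j | j) <;> simp [Matrix.one_apply]

theorem blk_add_one (A : Matrix ι₁ ι₁ F) (D : Matrix ι₂ ι₂ F) :
    fromBlocks A 0 0 D + 1 = fromBlocks (A + 1) 0 0 (D + 1) := by
  ext (i | i) (j | j) <;> simp [Matrix.one_apply]

theorem blk_inj (A A' : Matrix ι₁ ι₁ F) (D D' : Matrix ι₂ ι₂ F)
    (h : fromBlocks A 0 0 D = fromBlocks A' 0 0 D') : A = A' ∧ D = D' := by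
  rw [Matrix.fromBlocks_inj] at h
  exact ⟨h.1, h.2.2.2⟩

theorem blk_sp (M₁ : Matrix ι₁ ι₁ F) (M₂ : Matrix ι₂ ι₂ F) (A : Matrix ι₁ ι₁ F)
    (D : Matrix ι₂ ι₂ F) :
    fromBlocks A 0 0 D ∈ SpSet (fromBlocks M₁ 0 0 M₂) ↔ A ∈ SpSet M₁ ∧ D ∈ SpSet M₂ := by
  show (fromBlocks A 0 0 D)ᵀ * fromBlocks M₁ 0 0 M₂ * fromBlocks A 0 0 D =
    fromBlocks M₁ 0 0 M₂ ↔ Aᵀ * M₁ * A = M₁ ∧ Dᵀ * M₂ * D = M₂
  rw [Matrix.fromBlocks_transpose, Matrix.transpose_zero, Matrix.transpose_zero, blk_mul,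
    blk_mul]
  constructor
  · intro h
    exact blk_inj _ _ _ _ h
  · rintro ⟨h1, h2⟩
    rw [h1, h2]

theorem det_blk (M₁ : Matrix ι₁ ι₁ F) (M₂ : Matrix ι₂ ι₂ F) (h1 : M₁.det ≠ 0)
    (h2 : M₂.det ≠ 0) : (fromBlocks M₁ 0 0 M₂).det ≠ 0 := by
  rw [Matrix.det_fromBlocks_zero₂₁]
  exact mul_ne_zero h1 h2

theorem rank_conj (h h' X : Matrix ι ι F) (h1 : h * h' = 1) (h2 : h' * h = 1) :
    (h * X * h').rank = X.rank := by
  apply le_antisymm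
  · calc (h * X * h').rank ≤ (h * X).rank := Matrix.rank_mul_le_left _ _
      _ ≤ X.rank := Matrix.rank_mul_le_right _ _
  · have e : X = h' * (h * X * h') * h := by
      calc X = (h' * h) * X * (h' * h) := by rw [h2]; simp
        _ = h' * (h * X * h') * h := by simp only [Matrix.mul_assoc]
    calc X.rank = (h' * (h * X * h') * h).rank := congrArg Matrix.rank e
      _ ≤ (h' * (h * X * h')).rank := Matrix.rank_mul_le_left _ _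
      _ ≤ (h * X * h').rank := Matrix.rank_mul_le_right _ _

theorem rank_blk_zero_unit (E : Matrix ι₂ ι₂ F) (hE : IsUnit E) :
    (fromBlocks (0 : Matrix ι₁ ι₁ F) 0 0 E).rank = Fintype.card ι₂ := by
  apply le_antisymm
  · have e : fromBlocks (0 : Matrix ι₁ ι₁ F) 0 0 E =
        Matrix.fromRows (0 : Matrix ι₁ ι₂ F) E *
          Matrix.fromCols (0 : Matrix ι₂ ι₁ F) (1 : Matrix ι₂ ι₂ F) := by
      rw [Matrix.fromRows_mul_fromCols]; simp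
    rw [e]
    exact (Matrix.rank_mul_le_right _ _).trans (Matrix.rank_le_card_height _)
  · have e : E = (fromBlocks (0 : Matrix ι₁ ι₁ F) 0 0 E).submatrix Sum.inr Sum.inr := by
      ext i j; simp
    calc Fintype.card ι₂ = E.rank := (Matrix.rank_of_isUnit E hE).symm
      _ = ((fromBlocks (0 : Matrix ι₁ ι₁ F) 0 0 E).submatrix Sum.inr Sum.inr).rank :=
          congrArg Matrix.rank e
      _ ≤ _ := Matrix.rank_submatrix_le _ _ _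

theorem nil_pow (N : Matrix ι ι F) (hN : IsNilpotent N) (n : ℕ) (hn : Fintype.card ι ≤ n) :
    N ^ n = 0 := by
  have hc : N.charpoly = Polynomial.X ^ (Fintype.card ι) := by
    have h0 := (Matrix.isNilpotent_charpoly_sub_pow_of_isNilpotent hN).eq_zero
    exact sub_eq_zero.1 h0
  have h1 : N ^ (Fintype.card ι) = 0 := by
    have h := Matrix.aeval_self_charpoly N
    rw [hc] at h
    simpa using h
  obtain ⟨k, rfl⟩ := Nat.exists_eq_add_of_le hn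
  rw [pow_add, h1, zero_mul]

theorem intw_pow (q : Matrix ι₁ ι₂ F) (X : Matrix ι₁ ι₁ F) (Y : Matrix ι₂ ι₂ F)
    (h : q * Y = X * q) (k : ℕ) : q * Y ^ k = X ^ k * q := by
  induction k with
  | zero => simp
  | succ k ih =>
    rw [pow_succ, ← Matrix.mul_assoc, ih, Matrix.mul_assoc, h, ← Matrix.mul_assoc, ← pow_succ]

theorem intw_zero_left (q : Matrix ι₁ ι₂ F) (X : Matrix ι₁ ι₁ F) (Y : Matrix ι₂ ι₂ F)
    (h : q * Y = X * q) (hX : IsNilpotent X) (hY : IsUnit Y) : q = 0 := by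
  obtain ⟨k, hk⟩ := hX
  have h1 := intw_pow q X Y h k
  rw [hk, Matrix.zero_mul] at h1
  obtain ⟨U, hU⟩ := hY.pow k
  calc q = q * (Y ^ k * ((U⁻¹ : (Matrix ι₂ ι₂ F)ˣ) : Matrix ι₂ ι₂ F)) := by
        rw [← hU]; simp
    _ = (q * Y ^ k) * ((U⁻¹ : (Matrix ι₂ ι₂ F)ˣ) : Matrix ι₂ ι₂ F) := by
        rw [Matrix.mul_assoc]
    _ = 0 := by rw [h1, Matrix.zero_mul]

theorem intw_zero_right (q : Matrix ι₁ ι₂ F) (X : Matrix ι₁ ι₁ F) (Y : Matrix ι₂ ι₂ F)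
    (h : q * Y = X * q) (hX : IsUnit X) (hY : IsNilpotent Y) : q = 0 := by
  obtain ⟨k, hk⟩ := hY
  have h1 := intw_pow q X Y h k
  rw [hk, Matrix.mul_zero] at h1
  obtain ⟨U, hU⟩ := hX.pow k
  calc q = (((U⁻¹ : (Matrix ι₁ ι₁ F)ˣ) : Matrix ι₁ ι₁ F) * X ^ k) * q := by
        rw [← hU]; simp
    _ = ((U⁻¹ : (Matrix ι₁ ι₁ F)ˣ) : Matrix ι₁ ι₁ F) * (X ^ k * q) := by
        rw [Matrix.mul_assoc]
    _ = 0 := by rw [← h1, Matrix.mul_zero]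

theorem isUnit_of_inv {h h' : Matrix ι ι F} (h1 : h * h' = 1) (h2 : h' * h = 1) : IsUnit h :=
  ⟨⟨h, h', h1, h2⟩, rfl⟩

/-- a block matrix commuting with `fromBlocks 0 0 0 T₂` (`T₂` a unit) is block diagonal. -/
theorem blk_of_comm (g : Matrix (ι₁ ⊕ ι₂) (ι₁ ⊕ ι₂) F) (T₂ : Matrix ι₂ ι₂ F) (hT : IsUnit T₂)
    (hc : g * fromBlocks 0 0 0 T₂ = fromBlocks 0 0 0 T₂ * g) :
    ∃ a d, g = fromBlocks a 0 0 d := by
  obtain ⟨a, b, c, d, hg⟩ : ∃ a b c d, g = fromBlocks a b c d :=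
    ⟨_, _, _, _, (Matrix.fromBlocks_toBlocks g).symm⟩
  rw [hg, Matrix.fromBlocks_multiply, Matrix.fromBlocks_multiply, Matrix.fromBlocks_inj] at hc
  obtain ⟨-, h12, h21, -⟩ := hc
  have hb : b * T₂ = 0 := by simpa using h12
  have hc' : T₂ * c = 0 := by simpa using h21.symm
  have hb0 : b = 0 := by
    obtain ⟨U, hU⟩ := hT
    calc b = (b * T₂) * ((U⁻¹ : (Matrix ι₂ ι₂ F)ˣ) : Matrix ι₂ ι₂ F) := by
          rw [Matrix.mul_assoc, ← hU]; simp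
      _ = 0 := by rw [hb, Matrix.zero_mul]
  have hc0 : c = 0 := by
    obtain ⟨U, hU⟩ := hT
    calc c = ((U⁻¹ : (Matrix ι₂ ι₂ F)ˣ) : Matrix ι₂ ι₂ F) * (T₂ * c) := by
          rw [← Matrix.mul_assoc, ← hU]; simp
      _ = 0 := by rw [hc', Matrix.mul_zero]
  exact ⟨a, d, by rw [hg, hb0, hc0]⟩

/-- intertwining block matrices. -/
theorem blk_intw (d : Matrix (ι₁ ⊕ ι₂) (ι₁ ⊕ ι₂) F) (x₁ y₁ : Matrix ι₁ ι₁ F)
    (x₂ y₂ : Matrix ι₂ ι₂ F) (h : d * fromBlocks y₁ 0 0 y₂ = fromBlocks x₁ 0 0 x₂ * d) :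
    ∃ p q r s, d = fromBlocks p q r s ∧ q * y₂ = x₁ * q ∧ r * y₁ = x₂ * r := by
  obtain ⟨p, q, r, s, hd⟩ : ∃ p q r s, d = fromBlocks p q r s :=
    ⟨_, _, _, _, (Matrix.fromBlocks_toBlocks d).symm⟩
  rw [hd, Matrix.fromBlocks_multiply, Matrix.fromBlocks_multiply, Matrix.fromBlocks_inj] at h
  obtain ⟨-, h12, h21, -⟩ := h
  exact ⟨p, q, r, s, hd, by simpa using h12, by simpa using h21⟩

end mat

/-- S2316-FITU. -/
theorem fitU (hA : AdaptStmt.{u}) (hP : PerpUStmt.{u}) (hF : FittStmt.{u}) : FitUStmt.{u} := by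
  intro F _ _ ι₁ ι₂ _ _ _ _ M₁ M₂ n hM₁ hM₂ hn
  have hdetM : (fromBlocks M₁ 0 0 M₂).det ≠ 0 := det_blk M₁ M₂ hM₁.2 hM₂.2
  refine card_fit (fun A D => fromBlocks A 0 0 D) (SpSet (fromBlocks M₁ 0 0 M₂))
    (SpR (fromBlocks M₁ 0 0 M₂) n (Fintype.card ι₂)) (SpSet M₁) (USet M₁) (SpSet M₂) (ESet M₂)
    ?_ ?_ ?_ ?_ ?_ ?_ ?_ ?_ ?_ ?_
  · intro h hh
    exact sp_exists_inv _ hdetM hh
  · intro h hh k hk
    exact sp_mul _ hh hk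
  · intro x₁ x₂ y₁ y₂
    exact blk_mul _ _ _ _
  · intro x₁ x₂ y₁ y₂ h
    exact blk_inj _ _ _ _ h
  · intro d₁ hd₁ d₂ hd₂
    exact (blk_sp M₁ M₂ d₁ d₂).2 ⟨hd₁, hd₂⟩
  · intro d hd
    obtain ⟨d', hd'S, h1, h2⟩ := sp_exists_inv M₁ hM₁.2 hd
    refine ⟨d', h1, h2, ?_⟩
    rintro x ⟨hx1, hx2⟩
    refine ⟨sp_mul _ (sp_mul _ hd'S hx1) hd, ?_⟩
    have e : d' * x * d - 1 = d' * (x - 1) * d := by
      rw [Matrix.mul_sub, Matrix.sub_mul, Matrix.mul_one, h2]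
    obtain ⟨k, hk⟩ := hx2
    refine ⟨k, ?_⟩
    rw [e, conj_pow' d' d (x - 1) h2 h1 k, hk]
    simp
  · intro d hd
    obtain ⟨d', hd'S, h1, h2⟩ := sp_exists_inv M₂ hM₂.2 hd
    refine ⟨d', h1, h2, ?_⟩
    rintro x ⟨hx1, hx2⟩
    refine ⟨sp_mul _ (sp_mul _ hd'S hx1) hd, ?_⟩
    have e : d' * x * d - 1 = d' * (x - 1) * d := by
      rw [Matrix.mul_sub, Matrix.sub_mul, Matrix.mul_one, h2]
    rw [e]
    exact ((isUnit_of_inv h2 h1).mul hx2).mul (isUnit_of_inv h1 h2)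
  · -- H1
    intro h hh h' h1 h2 x₁ hx₁ x₂ hx₂
    obtain ⟨hx1, hx1n⟩ := hx₁
    obtain ⟨hx2, hx2u⟩ := hx₂
    have hh' : h' ∈ SpSet (fromBlocks M₁ 0 0 M₂) := sp_inv_of _ hh h1
    refine ⟨sp_mul _ (sp_mul _ hh ((blk_sp M₁ M₂ x₁ x₂).2 ⟨hx1, hx2⟩)) hh', ?_⟩
    have e : h * fromBlocks x₁ 0 0 x₂ * h' - 1 = h * (fromBlocks x₁ 0 0 x₂ - 1) * h' := by
      rw [Matrix.mul_sub, Matrix.sub_mul, Matrix.mul_one, h1]
    rw [e, conj_pow' h h' _ h1 h2 n, rank_conj h h' _ h1 h2, blk_sub_one, blk_pow,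
      nil_pow _ hx1n n (le_trans (Nat.le_add_right _ _) hn)]
    exact rank_blk_zero_unit _ (hx2u.pow n)
  · -- H2
    rintro g ⟨hg, hgr⟩
    have hperp := hP F (ι₁ ⊕ ι₂) (fromBlocks M₁ 0 0 M₂) g n hdetM hg
    have hfit : ((g - 1) ^ n * (g - 1) ^ n).rank = ((g - 1) ^ n).rank :=
      hF F (ι₁ ⊕ ι₂) (g - 1) n (by rw [Fintype.card_sum]; exact hn)
    obtain ⟨h, hh, T₂, hT₂, hTh⟩ := hA F ι₁ ι₂ M₁ M₂ ((g - 1) ^ n) hM₁ hM₂ hperp hgr hfit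
    have hhS : h ∈ SpSet (fromBlocks M₁ 0 0 M₂) := hh
    obtain ⟨h', hh'S, h1, h2⟩ := sp_exists_inv _ hdetM hhS
    have hg'S : h' * g * h ∈ SpSet (fromBlocks M₁ 0 0 M₂) := sp_mul _ (sp_mul _ hh'S hg) hhS
    have e : h' * g * h - 1 = h' * (g - 1) * h := by
      rw [Matrix.mul_sub, Matrix.sub_mul, Matrix.mul_one, h2]
    have hpow : (h' * g * h - 1) ^ n = fromBlocks 0 0 0 T₂ := by
      rw [e, conj_pow' h' h (g - 1) h2 h1 n, Matrix.mul_assoc, hTh, ← Matrix.mul_assoc, h2,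
        Matrix.one_mul]
    have hcomm : (h' * g * h) * fromBlocks 0 0 0 T₂ = fromBlocks 0 0 0 T₂ * (h' * g * h) := by
      rw [← hpow]
      exact (((Commute.refl (h' * g * h)).sub_right (Commute.one_right _)).pow_right n).eq
    obtain ⟨a, d, had⟩ := blk_of_comm _ T₂ hT₂ hcomm
    rw [had] at hg'S hpow
    obtain ⟨haS, hdS⟩ := (blk_sp M₁ M₂ a d).1 hg'S
    rw [blk_sub_one, blk_pow] at hpow
    rw [Matrix.fromBlocks_inj] at hpow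
    obtain ⟨hp1, -, -, hp2⟩ := hpow
    have hdu : IsUnit (d - 1) := by
      rcases Nat.eq_zero_or_pos n with h0 | h0
      · have hc : Fintype.card ι₂ = 0 := by omega
        haveI : IsEmpty ι₂ := Fintype.card_eq_zero_iff.1 hc
        exact isUnit_of_subsingleton _
      · have : IsUnit ((d - 1) ^ n) := by rw [hp2]; exact hT₂
        exact (isUnit_pow_iff (Nat.pos_iff_ne_zero.1 h0)).1 this
    refine ⟨h, hhS, a, ⟨haS, ⟨n, hp1⟩⟩, d, ⟨hdS, hdu⟩, ?_⟩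
    show g * h = h * fromBlocks a 0 0 d
    rw [← had, ← Matrix.mul_assoc, ← Matrix.mul_assoc, h1, Matrix.one_mul]
  · -- H5
    rintro d hd x₁ ⟨-, hx1n⟩ x₂ ⟨-, hx2u⟩ y₁ ⟨-, hy1n⟩ y₂ ⟨-, hy2u⟩ hdd
    obtain ⟨p, q, r, s, hdef, hq, hr⟩ := blk_intw d x₁ y₁ x₂ y₂ hdd
    have hq' : q * (y₂ - 1) = (x₁ - 1) * q := by
      rw [Matrix.mul_sub, Matrix.sub_mul, Matrix.mul_one, Matrix.one_mul, hq]
    have hr' : r * (y₁ - 1) = (x₂ - 1) * r := by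
      rw [Matrix.mul_sub, Matrix.sub_mul, Matrix.mul_one, Matrix.one_mul, hr]
    have hq0 : q = 0 := intw_zero_left q _ _ hq' hx1n hy2u
    have hr0 : r = 0 := intw_zero_right r _ _ hr' hx2u hy1n
    rw [hq0, hr0] at hdef
    rw [hdef] at hd
    obtain ⟨hpS, hsS⟩ := (blk_sp M₁ M₂ p s).1 hd
    exact ⟨p, hpS, s, hsS, hdef⟩

example (hA : AdaptStmt.{u}) (hP : PerpUStmt.{u}) (hF : FittStmt.{u}) : FitUStmt.{u} :=
  fitU hA hP hF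

end Cfsg.Agent.H28.SpU
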