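import Cfsg.Agent.H51.SyDefs
import Cfsg.Agent.H14.SxStruct
import Cfsg.Agent.H84.SpGLPA

set_option autoImplicit false
set_option linter.unusedVariables false

/-! SY-GENS (helper28, for helper51's S2949 project): Glauberman's structure theorem S0617 in the
holomorph of `V` shows that every element of odd order of `J(X)` lies in the subgroup generated
by the component elements and `C_X(V)`.  The set-up is helper14's (`H14/SxStruct.lean`,
`H14/SnGL.lean`); the generation by squares of the factors is helper84's `glpa_odd_mem`. -/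

open Cfsg
open scoped commutatorElement Pointwise

namespace Cfsg.Agent.H28.Sy

open Cfsg.Agent.H14.Holo

universe u

theorem sl22_sq_cube : ∀ A : Matrix.SpecialLinearGroup (Fin 2) (ZMod 2),
    (A * A) ^ 3 = 1 := by
  decide

/-- The holomorph-level statement: the elements of odd order of `H` are generated by elements
`s` of order 3, normalized up to inversion by `H`, with `[V, s]` inside a four-group. -/
theorem genS_core {Y : Type u} [Group Y] [Finite Y] (V H : Subgroup Y)
    (hV : IsElementaryAbelian 2 V) (hHV : H ≤ Subgroup.normalizer (V : Set Y))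
    (hf : H ⊓ Subgroup.centralizer (V : Set Y) = ⊥)
    (hS1 : Subgroup.centralizer (pPrimeCore 2 ↥H : Set ↥H) ≤ pPrimeCore 2 ↥H)
    (hS3 : H = ⨆ A : {A : Subgroup Y // A ≤ H ∧ IsBestOffenderOn 2 V A}, (A : Subgroup Y))
    (hH1 : H ≠ ⊥) :
    ∀ z ∈ H, Odd (orderOf z) → z ∈ Subgroup.closure {s : Y | s ∈ H ∧ s ≠ 1 ∧ s ^ 3 = 1 ∧
      (∀ g ∈ H, g * s * g⁻¹ = s ∨ g * s * g⁻¹ = s⁻¹) ∧
      ∃ W : Subgroup Y, W ≤ V ∧ Nat.card ↥W = 4 ∧ ∀ v ∈ V, s * v * s⁻¹ * v⁻¹ ∈ W} := by
  have : Fact (Nat.Prime 2) := ⟨Nat.prime_two⟩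
  obtain ⟨-, hE, hind, hsup, -, -⟩ := Cfsg.Agent.S0617.result V H hV hHV hf hS1 hS3 hH1
  intro z hz hoz
  have hmem := Cfsg.Agent.H84.Sn.glpa_odd_mem _ H (fun i => (hE i).1) hind hsup z hz hoz
  refine (Subgroup.closure_le _).mpr ?_ hmem
  rintro s ⟨i, e, he, rfl⟩
  by_cases hs1 : e * e = 1
  · rw [hs1]
    exact Subgroup.one_mem _
  · apply Subgroup.subset_closure
    obtain ⟨hEnorm, ⟨eq⟩, hEcard⟩ := hE i
    have hEH : (i : Subgroup Y) ≤ H := le_of_le_of_eq (le_iSup _ i) hsup
    have hcube : ∀ e' : ↥(i : Subgroup Y), (e' * e') ^ 3 = 1 := by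
      intro e'
      apply eq.injective
      rw [map_pow, map_mul, map_one]
      exact sl22_sq_cube (eq e')
    obtain ⟨y, hy1, hy3, hyb, hyz⟩ := Cfsg.Agent.H14.Sx.s3_facts eq
    have hz1 := hyz (⟨e, he⟩ * ⟨e, he⟩) (by
      intro h
      apply hs1
      exact congrArg Subtype.val h) (hcube ⟨e, he⟩)
    refine ⟨hEH ((i : Subgroup Y).mul_mem he he), hs1, ?_, ?_, ?_⟩
    · have := congrArg Subtype.val (hcube ⟨e, he⟩)
      simpa using this
    · intro g hg
      have hgn := hEnorm hg
      rw [Subgroup.mem_normalizer_iff] at hgn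
      have hge : g * e * g⁻¹ ∈ (i : Subgroup Y) := (hgn e).mp he
      have e1 : g * (e * e) * g⁻¹ = (g * e * g⁻¹) * (g * e * g⁻¹) := by group
      have hz2 := hyz (⟨g * e * g⁻¹, hge⟩ * ⟨g * e * g⁻¹, hge⟩) (by
        intro h
        apply hs1
        have h' : (g * e * g⁻¹) * (g * e * g⁻¹) = 1 := congrArg Subtype.val h
        have h'' : e * e = g⁻¹ * ((g * e * g⁻¹) * (g * e * g⁻¹)) * g := by group
        rw [h'', h']
        group) (hcube ⟨g * e * g⁻¹, hge⟩)
      rw [e1]
      have hv1 : (e * e : Y) = ((⟨e, he⟩ * ⟨e, he⟩ : ↥(i : Subgroup Y)) : Y) := rfl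
      have hv2 : ((g * e * g⁻¹) * (g * e * g⁻¹) : Y) =
          ((⟨g * e * g⁻¹, hge⟩ * ⟨g * e * g⁻¹, hge⟩ : ↥(i : Subgroup Y)) : Y) := rfl
      rw [hv1, hv2]
      rcases hz1 with h1 | h1 <;> rcases hz2 with h2 | h2
      · left
        rw [h1, h2]
      · right
        rw [h1, h2, Subgroup.coe_inv]
      · right
        rw [h1, h2, Subgroup.coe_inv, inv_inv]
      · left
        rw [h1, h2]
    · refine ⟨⁅V, (i : Subgroup Y)⁆, ?_, ?_, ?_⟩
      · rw [Subgroup.commutator_le]
        intro v hv g hg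
        have hgn := hHV (hEH hg)
        rw [Subgroup.mem_normalizer_iff] at hgn
        have h1 : g * v⁻¹ * g⁻¹ ∈ V := (hgn v⁻¹).mp (V.inv_mem hv)
        have : ⁅v, g⁆ = v * (g * v⁻¹ * g⁻¹) := by
          rw [commutatorElement_def]
          group
        rw [this]
        exact V.mul_mem hv h1
      · exact hEcard.trans (by norm_num)
      · intro v hv
        have h1 : ⁅(e * e : Y), v⁆ ∈ ⁅(i : Subgroup Y), V⁆ :=
          Subgroup.commutator_mem_commutator ((i : Subgroup Y).mul_mem he he) hv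
        rw [Subgroup.commutator_comm] at h1
        rw [commutatorElement_def] at h1
        exact h1

theorem genS : Cfsg.Agent.H51.Sy.StGenS.{u} := by
  intro X _ _ V _ hV hsep hO y hy hoy
  haveI : Fact (Nat.Prime 2) := ⟨Nat.prime_two⟩
  haveI hJn := thompsonSubgroup_normal 2 X
  have hV' := Vh_elemAb V hV
  have hHV : (thompsonSubgroup 2 X).map (psi V) ≤
      Subgroup.normalizer ((Vh V : Subgroup (Hol V)) : Set (Hol V)) := by
    haveI := Vh_normal V
    rw [Subgroup.normalizer_eq_top]
    exact le_top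
  have hHR : (thompsonSubgroup 2 X).map (psi V) ≤ (psi V).range := by
    rintro _ ⟨j, -, rfl⟩
    exact ⟨j, rfl⟩
  have hf : (thompsonSubgroup 2 X).map (psi V) ⊓
      Subgroup.centralizer ((Vh V : Subgroup (Hol V)) : Set (Hol V)) = ⊥ := by
    rw [eq_bot_iff, ← range_faithful V]
    exact inf_le_inf_right _ hHR
  have hnorm : (psi V).range ≤
      Subgroup.normalizer (((thompsonSubgroup 2 X).map (psi V) : Subgroup (Hol V)) :
        Set (Hol V)) := by
    rintro _ ⟨g, rfl⟩
    rw [Subgroup.mem_normalizer_iff]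
    intro h
    constructor
    · rintro ⟨j, hj, rfl⟩
      refine ⟨g * j * g⁻¹, hJn.conj_mem j hj g, ?_⟩
      simp
    · rintro ⟨j, hj, hjh⟩
      refine ⟨g⁻¹ * j * g, ?_, ?_⟩
      · have := hJn.conj_mem j hj g⁻¹
        simpa using this
      · rw [map_mul, map_mul, hjh, map_inv]
        group
  have hS1 := hS1_of_normal (p := 2) (psi V).range ((thompsonSubgroup 2 X).map (psi V)) hHR
    hnorm (range_isPSolvable V hsep) (range_pCore_eq_bot V hO)
  have hS3 : (thompsonSubgroup 2 X).map (psi V) = ⨆ A : {A : Subgroup (Hol V) //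
      A ≤ (thompsonSubgroup 2 X).map (psi V) ∧ IsBestOffenderOn 2 (Vh V) A},
      (A : Subgroup (Hol V)) := by
    apply le_antisymm
    · conv_lhs => unfold Cfsg.thompsonSubgroup
      rw [Subgroup.map_le_iff_le_comap]
      apply sSup_le
      intro A hA
      rw [← Subgroup.map_le_iff_le_comap]
      exact le_iSup (fun A : {A : Subgroup (Hol V) //
        A ≤ (thompsonSubgroup 2 X).map (psi V) ∧ IsBestOffenderOn 2 (Vh V) A} =>
          (A : Subgroup (Hol V)))
        ⟨A.map (psi V), Subgroup.map_mono (le_sSup hA), bestOffender_map V hV hA⟩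
    · exact iSup_le fun A => A.2.1
  have hyH : psi V y ∈ (thompsonSubgroup 2 X).map (psi V) := Subgroup.mem_map_of_mem _ hy
  by_cases hH1 : (thompsonSubgroup 2 X).map (psi V) = ⊥
  · apply Subgroup.mem_sup_right
    rw [← psi_ker, MonoidHom.mem_ker]
    rw [hH1, Subgroup.mem_bot] at hyH
    exact hyH
  · have hcore := genS_core (Vh V) _ hV' hHV hf hS1 hS3 hH1 (psi V y) hyH
      (Odd.of_dvd_nat hoy (orderOf_map_dvd (psi V) y))
    have hle : Subgroup.closure {s : Hol V | s ∈ (thompsonSubgroup 2 X).map (psi V) ∧ s ≠ 1 ∧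
        s ^ 3 = 1 ∧
        (∀ g ∈ (thompsonSubgroup 2 X).map (psi V), g * s * g⁻¹ = s ∨ g * s * g⁻¹ = s⁻¹) ∧
        ∃ W : Subgroup (Hol V), W ≤ Vh V ∧ Nat.card ↥W = 4 ∧
          ∀ v ∈ Vh V, s * v * s⁻¹ * v⁻¹ ∈ W} ≤
        (Subgroup.closure {k : X | Cfsg.Agent.H51.Sy.IsCompElt V k}).map (psi V) := by
      rw [Subgroup.closure_le]
      rintro s ⟨hsH, hs1, hs3, hsg, W, hWV, hW4, hWs⟩
      obtain ⟨k, hk, rfl⟩ := hsH
      refine Subgroup.mem_map_of_mem _ (Subgroup.subset_closure ?_)
      refine ⟨hk, ?_, ?_, ?_, ?_⟩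
      · intro hkC
        apply hs1
        rw [← psi_ker, MonoidHom.mem_ker] at hkC
        exact hkC
      · rw [← psi_ker, MonoidHom.mem_ker, map_pow]
        exact hs3
      · intro g hg
        rcases hsg (psi V g) (Subgroup.mem_map_of_mem _ hg) with h | h
        · left
          rw [← psi_ker, MonoidHom.mem_ker, map_mul, map_mul, map_mul, map_inv, map_inv, h]
          group
        · right
          rw [← psi_ker, MonoidHom.mem_ker, map_mul, map_mul, map_mul, map_inv, h]
          group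
      · refine ⟨(W.comap (SemidirectProduct.inl : ↥V →* Hol V)).map V.subtype, ?_, ?_⟩
        · have e1 : Nat.card ↥((W.comap (SemidirectProduct.inl : ↥V →* Hol V)).map V.subtype) =
              Nat.card ↥(W.comap (SemidirectProduct.inl : ↥V →* Hol V)) :=
            Nat.card_congr ((W.comap (SemidirectProduct.inl : ↥V →* Hol V)).equivMapOfInjective _
              V.subtype_injective).symm.toEquiv
          have e2 : Nat.card ↥(W.comap (SemidirectProduct.inl : ↥V →* Hol V)) = Nat.card ↥W := by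
            apply Nat.card_congr
            refine Equiv.ofBijective
              (fun v : ↥(W.comap (SemidirectProduct.inl : ↥V →* Hol V)) =>
                (⟨SemidirectProduct.inl (v : ↥V), Subgroup.mem_comap.mp v.2⟩ : ↥W)) ⟨?_, ?_⟩
            · intro v1 v2 h12
              have h3 : (SemidirectProduct.inl (v1 : ↥V) : Hol V) =
                  SemidirectProduct.inl (v2 : ↥V) := congrArg Subtype.val h12
              exact Subtype.ext (SemidirectProduct.inl_injective h3)
            · intro w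
              obtain ⟨v, hv⟩ := hWV w.2
              refine ⟨⟨v, ?_⟩, ?_⟩
              · rw [Subgroup.mem_comap, hv]
                exact w.2
              · exact Subtype.ext hv
          rw [e1, e2, hW4]
        · intro v hv
          have h1 := hWs (SemidirectProduct.inl (⟨v, hv⟩ : ↥V)) ⟨_, rfl⟩
          rw [psi_conj, ← map_inv, ← map_mul] at h1
          refine ⟨MulAut.conjNormal k (⟨v, hv⟩ : ↥V) * (⟨v, hv⟩ : ↥V)⁻¹, ?_, ?_⟩
          · exact h1
          · rw [Subgroup.coe_subtype, Subgroup.coe_mul, MulAut.conjNormal_apply,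
              Subgroup.coe_inv]
    obtain ⟨w, hw, hwy⟩ := hle hcore
    have hyw : y = w * (w⁻¹ * y) := by group
    rw [hyw]
    refine Subgroup.mul_mem_sup hw ?_
    rw [← psi_ker, MonoidHom.mem_ker, map_mul, map_inv, hwy]
    group

example : Cfsg.Agent.H51.Sy.StGenS.{u} := genS

end Cfsg.Agent.H28.Sy

#print axioms Cfsg.Agent.H28.Sy.genS
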