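import Mathlib
import Cfsg.Prelude.Def_ClassificationK
import Cfsg.Agent.H92.Extra
import Cfsg.Agent.H28.LargeES

set_option autoImplicit false
open Cfsg

/-!
Element-wise package for a 2-subgroup `Q` of symplectic type and exponent dividing 4 of a group `G`
which contains its own centralizer and which is normalized by the centralizer of its central
involution `z` (a generalization of the extraspecial package of seat helper92).
-/

namespace Cfsg.Agent.H28.Symp

/-- `Q` is a "symplectic pair" with central involution `z`: commutators and squares of elements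
of `Q` lie in `{1, z}`, the centralizer of `Q` in `G` lies in `Q` and its only involution is `z`,
and the centralizer of `z` normalizes `Q`. -/
structure SPair {G : Type*} [Group G] (Q : Subgroup G) (z : G) : Prop where
  z_mem : z ∈ Q
  z_ne : z ≠ 1
  z_sq : z * z = 1
  z_central : ∀ q ∈ Q, q * z = z * q
  comm : ∀ x ∈ Q, ∀ y ∈ Q, x * y * x⁻¹ * y⁻¹ = 1 ∨ x * y * x⁻¹ * y⁻¹ = z
  sq : ∀ x ∈ Q, x * x = 1 ∨ x * x = z
  cent : ∀ c : G, (∀ q ∈ Q, q * c = c * q) → c ∈ Q ∧ (c * c = 1 → c = 1 ∨ c = z)
  norm : ∀ c : G, c * z = z * c → ∀ q ∈ Q, c * q * c⁻¹ ∈ Q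

/-- Conjugation transports an `SPair`. -/
theorem SPair.conj {G : Type*} [Group G] {Q : Subgroup G} {z : G} (h : SPair Q z) (g : G) :
    SPair (Q.map (MulAut.conj g).toMonoidHom) (g * z * g⁻¹) := by
  have hmem : ∀ x, x ∈ Q.map (MulAut.conj g).toMonoidHom ↔ g⁻¹ * x * g ∈ Q :=
    Cfsg.Agent.H92.mem_map_conj_iff Q g
  refine ⟨?_, ?_, ?_, ?_, ?_, ?_, ?_, ?_⟩
  · rw [hmem]; simpa [mul_assoc] using h.z_mem
  · intro h1
    apply h.z_ne
    have := congrArg (fun t => g⁻¹ * t * g) h1
    simpa [mul_assoc] using this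
  · calc g * z * g⁻¹ * (g * z * g⁻¹) = g * (z * z) * g⁻¹ := by simp [mul_assoc]
      _ = 1 := by rw [h.z_sq]; simp
  · intro q hq
    rw [hmem] at hq
    have := h.z_central _ hq
    have := congrArg (fun t => g * t * g⁻¹) this
    simpa [mul_assoc] using this
  · intro x hx y hy
    rw [hmem] at hx hy
    have e : g⁻¹ * (x * y * x⁻¹ * y⁻¹) * g =
        (g⁻¹ * x * g) * (g⁻¹ * y * g) * (g⁻¹ * x * g)⁻¹ * (g⁻¹ * y * g)⁻¹ := by
      simp [mul_assoc]
    rcases h.comm _ hx _ hy with h1 | h1
    · left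
      rw [← e] at h1
      have := congrArg (fun t => g * t * g⁻¹) h1
      simpa [mul_assoc] using this
    · right
      rw [← e] at h1
      have := congrArg (fun t => g * t * g⁻¹) h1
      simpa [mul_assoc] using this
  · intro x hx
    rw [hmem] at hx
    have e : g⁻¹ * (x * x) * g = (g⁻¹ * x * g) * (g⁻¹ * x * g) := by simp [mul_assoc]
    rcases h.sq _ hx with h1 | h1
    · left
      rw [← e] at h1
      have := congrArg (fun t => g * t * g⁻¹) h1
      simpa [mul_assoc] using this
    · right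
      rw [← e] at h1
      have := congrArg (fun t => g * t * g⁻¹) h1
      simpa [mul_assoc] using this
  · intro c hc
    have hc' : ∀ q ∈ Q, q * (g⁻¹ * c * g) = (g⁻¹ * c * g) * q := by
      intro q hq
      have hq' : g * q * g⁻¹ ∈ Q.map (MulAut.conj g).toMonoidHom := by
        rw [hmem]; simpa [mul_assoc] using hq
      have := hc _ hq'
      have := congrArg (fun t => g⁻¹ * t * g) this
      simpa [mul_assoc] using this
    obtain ⟨h1, h2⟩ := h.cent _ hc'
    refine ⟨(hmem c).mpr h1, ?_⟩
    intro hcc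
    have e : (g⁻¹ * c * g) * (g⁻¹ * c * g) = 1 := by
      calc (g⁻¹ * c * g) * (g⁻¹ * c * g) = g⁻¹ * (c * c) * g := by simp [mul_assoc]
        _ = 1 := by rw [hcc]; simp
    rcases h2 e with h1 | h1
    · left
      have := congrArg (fun t => g * t * g⁻¹) h1
      simpa [mul_assoc] using this
    · right
      have := congrArg (fun t => g * t * g⁻¹) h1
      simpa [mul_assoc] using this
  · intro c hc q hq
    rw [hmem] at hq ⊢
    have hc' : (g⁻¹ * c * g) * z = z * (g⁻¹ * c * g) := by
      have := congrArg (fun t => g⁻¹ * t * g) hc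
      simpa [mul_assoc] using this
    have := h.norm _ hc' _ hq
    simpa [mul_assoc] using this

namespace SPair

variable {G : Type*} [Group G] {Q : Subgroup G} {z : G}

theorem z_inv (h : SPair Q z) : z⁻¹ = z := inv_eq_of_mul_eq_one_left h.z_sq

/-- conjugates of `s` within `Q` are `s` or `z * s`. -/
theorem conj_eq (h : SPair Q z) {x s : G} (hx : x ∈ Q) (hs : s ∈ Q) :
    x * s * x⁻¹ = s ∨ x * s * x⁻¹ = z * s := by
  rcases h.comm x hx s hs with h1 | h1
  · left
    have := congrArg (fun t => t * s) h1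
    simpa [mul_assoc] using this
  · right
    have := congrArg (fun t => t * s) h1
    simpa [mul_assoc] using this

/-- a noncentral involution `s` of `Q` is conjugate in `Q` to `z * s`. -/
theorem exists_conj (h : SPair Q z) {s : G} (hs : s ∈ Q) (hss : s * s = 1) (hs1 : s ≠ 1)
    (hsz : s ≠ z) : ∃ q ∈ Q, q * s * q⁻¹ = z * s := by
  by_contra hcon
  have : ∀ q ∈ Q, q * s = s * q := by
    intro q hq
    rcases h.conj_eq hq hs with h1 | h1
    · have := congrArg (fun t => t * q) h1
      simpa [mul_assoc] using this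
    · exact absurd ⟨q, hq, h1⟩ hcon
  rcases (h.cent s this).2 hss with h1 | h1
  · exact hs1 h1
  · exact hsz h1

/-- `Q = C_Q(s) ∪ q C_Q(s)` when `q s q⁻¹ = z s`. -/
theorem coset (h : SPair Q z) {s q : G} (hq : q * s * q⁻¹ = z * s) {x : G} (hx : x ∈ Q)
    (hs : s ∈ Q) : x * s = s * x ∨ (q⁻¹ * x) * s = s * (q⁻¹ * x) := by
  rcases h.conj_eq hx hs with h1 | h1
  · left
    have := congrArg (fun t => t * x) h1
    simpa [mul_assoc] using this
  · right
    have h2 : x * s * x⁻¹ = q * s * q⁻¹ := by rw [h1, hq]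
    have := congrArg (fun t => q⁻¹ * t * x) h2
    simpa [mul_assoc] using this

/-- an element of `G` commuting with `q` and with `C_Q(s)` centralizes `Q` (`q s q⁻¹ = z s`). -/
theorem central_of_comm (h : SPair Q z) {s q t : G} (hs : s ∈ Q) (hqQ : q ∈ Q)
    (hq : q * s * q⁻¹ = z * s)
    (htq : q * t = t * q) (htA : ∀ a ∈ Q, a * s = s * a → a * t = t * a) :
    ∀ x ∈ Q, x * t = t * x := by
  intro x hx
  rcases h.coset hq hx hs with h1 | h1
  · exact htA x hx h1
  · have h2 := htA (q⁻¹ * x) (Q.mul_mem (Q.inv_mem hqQ) hx) h1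
    have h3 : q⁻¹ * t = t * q⁻¹ := by
      have := congrArg (fun u => q⁻¹ * u * q⁻¹) htq
      simpa [mul_assoc] using this.symm
    calc x * t = q * (q⁻¹ * x * t) := by simp [mul_assoc]
      _ = q * (t * (q⁻¹ * x)) := by rw [h2]
      _ = (q * t) * q⁻¹ * x := by simp [mul_assoc]
      _ = t * x := by rw [htq]; simp [mul_assoc]

/-- Double centralizer: for an element `t` of `Q` commuting with `C_Q(s)`, `t` or `t s`
centralizes `Q`. -/
theorem dcent (h : SPair Q z) {s t : G} (hs : s ∈ Q) (hss : s * s = 1) (hs1 : s ≠ 1)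
    (hsz : s ≠ z) (ht : t ∈ Q)
    (htA : ∀ a ∈ Q, a * s = s * a → a * t = t * a) :
    (∀ x ∈ Q, x * t = t * x) ∨ (∀ x ∈ Q, x * (t * s) = (t * s) * x) := by
  obtain ⟨q, hqQ, hq⟩ := h.exists_conj hs hss hs1 hsz
  rcases h.conj_eq hqQ ht with h1 | h1
  · have htq : q * t = t * q := by
      have := congrArg (fun u => u * q) h1
      simpa [mul_assoc] using this
    exact Or.inl (h.central_of_comm hs hqQ hq htq htA)
  · -- q (t s) q⁻¹ = t s
    have hzt : t * z = z * t := h.z_central t ht
    have h2 : q * (t * s) = (t * s) * q := by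
      have e : q * (t * s) * q⁻¹ = (q * t * q⁻¹) * (q * s * q⁻¹) := by simp [mul_assoc]
      have e2 : q * (t * s) * q⁻¹ = t * s := by
        rw [e, h1, hq]
        calc z * t * (z * s) = (z * (t * z)) * s := by simp [mul_assoc]
          _ = (z * (z * t)) * s := by rw [hzt]
          _ = t * s := by rw [← mul_assoc z z t, h.z_sq, one_mul]
      have := congrArg (fun u => u * q) e2
      simpa [mul_assoc] using this
    have h3 : ∀ a ∈ Q, a * s = s * a → a * (t * s) = (t * s) * a := by
      intro a ha has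
      rw [← mul_assoc, htA a ha has, mul_assoc, has, mul_assoc]
    exact Or.inr (h.central_of_comm hs hqQ hq h2 h3)

/-- Either the centralizer in `Q` of a noncentral involution `s` contains a square root of `z`,
or it is `{1, z, s, z s}`. -/
theorem sqrt_or_small (h : SPair Q z) {s : G} (hs : s ∈ Q) (hss : s * s = 1)
    (hs1 : s ≠ 1) (hsz : s ≠ z) :
    (∃ y ∈ Q, y * s = s * y ∧ y * y = z) ∨
      (∀ b ∈ Q, b * s = s * b → b = 1 ∨ b = z ∨ b = s ∨ b = z * s) := by
  by_cases hno : ∃ y ∈ Q, y * s = s * y ∧ y * y = z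
  · exact Or.inl hno
  right
  have hsq1 : ∀ y ∈ Q, y * s = s * y → y * y = 1 := by
    intro y hy hys
    rcases h.sq y hy with h1 | h1
    · exact h1
    · exact absurd ⟨y, hy, hys, h1⟩ hno
  -- C_Q(s) is abelian
  have hab : ∀ a ∈ Q, a * s = s * a → ∀ b ∈ Q, b * s = s * b → a * b = b * a := by
    intro a ha has b hb hbs
    have h1 := hsq1 a ha has
    have h2 := hsq1 b hb hbs
    have h3 : (a * b) * (a * b) = 1 := by
      apply hsq1 _ (Q.mul_mem ha hb)
      rw [mul_assoc, hbs, ← mul_assoc, has, mul_assoc]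
    have ha' : a⁻¹ = a := inv_eq_of_mul_eq_one_left h1
    have hb' : b⁻¹ = b := inv_eq_of_mul_eq_one_left h2
    have h4 : (a * b)⁻¹ = a * b := inv_eq_of_mul_eq_one_left h3
    rw [mul_inv_rev, ha', hb'] at h4
    exact h4.symm
  intro b hb hbs
  have hsinv : s⁻¹ = s := inv_eq_of_mul_eq_one_left hss
  rcases h.dcent hs hss hs1 hsz hb (fun a ha has => hab a ha has b hb hbs) with h1 | h1
  · rcases (h.cent b h1).2 (hsq1 b hb hbs) with h2 | h2
    · exact Or.inl h2
    · exact Or.inr (Or.inl h2)
  · have hbsQ : b * s ∈ Q := Q.mul_mem hb hs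
    have hbss : (b * s) * s = s * (b * s) := by
      rw [mul_assoc, hss, mul_one, ← mul_assoc, ← hbs, mul_assoc, hss, mul_one]
    rcases (h.cent (b * s) h1).2 (hsq1 _ hbsQ hbss) with h2 | h2
    · right; right; left
      have := eq_inv_of_mul_eq_one_left h2
      rw [this, hsinv]
    · right; right; right
      have := congrArg (fun t => t * s) h2
      simpa [mul_assoc, hss] using this

/-- If a conjugate `s = g z g⁻¹ ≠ z` of `z` lies in `Q`, then `z` lies in `g Q g⁻¹`. -/
theorem mem_conj (h : SPair Q z) (g : G)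
    (hs : g * z * g⁻¹ ∈ Q) (hsz : g * z * g⁻¹ ≠ z) :
    z ∈ Q.map (MulAut.conj g).toMonoidHom := by
  have hP : SPair (Q.map (MulAut.conj g).toMonoidHom) (g * z * g⁻¹) := h.conj g
  have hmemP : ∀ x, x ∈ Q.map (MulAut.conj g).toMonoidHom ↔ g⁻¹ * x * g ∈ Q :=
    Cfsg.Agent.H92.mem_map_conj_iff Q g
  generalize hsdef : g * z * g⁻¹ = s at hs hsz hP
  generalize hPdef : Q.map (MulAut.conj g).toMonoidHom = P at hP hmemP ⊢
  by_contra hzP
  have hs1 : s ≠ 1 := hP.z_ne
  have hss : s * s = 1 := hP.z_sq
  have hsinv : s⁻¹ = s := inv_eq_of_mul_eq_one_left hss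
  have hzs : z * s = s * z := (h.z_central s hs).symm
  have hzinv : z⁻¹ = z := h.z_inv
  -- (a) Q ∩ P = {1, s}
  have clA : ∀ e, e ∈ Q → e ∈ P → e = 1 ∨ e = s := by
    intro e heQ heP
    have hdc : ∀ a ∈ Q, a * s = s * a → a * e = e * a := by
      intro a ha has
      rcases h.comm a ha e heQ with h1 | h1
      · have := congrArg (fun t => t * e * a) h1
        simpa [mul_assoc] using this
      · exfalso
        apply hzP
        rw [← h1]
        exact P.mul_mem (hP.norm a has e heP) (P.inv_mem heP)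
    rcases h.dcent hs hss hs1 hsz heQ hdc with h1 | h1
    · obtain ⟨-, h2⟩ := h.cent e h1
      rcases h.sq e heQ with h3 | h3
      · rcases h2 h3 with h4 | h4
        · exact Or.inl h4
        · exact absurd (h4 ▸ heP) hzP
      · exact absurd (h3 ▸ P.mul_mem heP heP) hzP
    · obtain ⟨-, h2⟩ := h.cent (e * s) h1
      have hesP : e * s ∈ P := P.mul_mem heP hP.z_mem
      rcases h.sq (e * s) (Q.mul_mem heQ hs) with h3 | h3
      · rcases h2 h3 with h4 | h4
        · right
          have := eq_inv_of_mul_eq_one_left h4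
          rw [this, hsinv]
        · exact absurd (h4 ▸ hesP) hzP
      · exact absurd (h3 ▸ P.mul_mem hesP hesP) hzP
  -- (b)
  have clB : ∀ x ∈ P, x * z = z * x → ∀ a ∈ Q, a * s = s * a →
      a * x * a⁻¹ = x ∨ a * x * a⁻¹ = x * s := by
    intro x hx hxz a ha has
    have hxinvz : x⁻¹ * z = z * x⁻¹ := by
      have := congrArg (fun t => x⁻¹ * t * x⁻¹) hxz
      simpa [mul_assoc] using this.symm
    have he1 : x⁻¹ * (a * x * a⁻¹) ∈ P := P.mul_mem (P.inv_mem hx) (hP.norm a has x hx)
    have he2 : x⁻¹ * (a * x * a⁻¹) ∈ Q := by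
      have h1 : x⁻¹ * a * x⁻¹⁻¹ ∈ Q := h.norm x⁻¹ hxinvz a ha
      have := Q.mul_mem h1 (Q.inv_mem ha)
      simpa [mul_assoc] using this
    rcases clA _ he2 he1 with h1 | h1
    · left
      have := congrArg (fun t => x * t) h1
      simpa [mul_assoc] using this
    · right
      have := congrArg (fun t => x * t) h1
      simpa [mul_assoc] using this
  obtain ⟨q, hqQ, hq⟩ := h.exists_conj hs hss hs1 hsz
  have hqz : q * z = z * q := h.z_central q hqQ
  -- (c)
  have clC : ∀ x ∈ P, x * z * x⁻¹ ≠ s * z := by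
    intro x hx hxz
    apply hzP
    have hxs : x * s * x⁻¹ = s := by
      have := hP.z_central x hx
      rw [this]; simp
    have hqz' : q * z * q⁻¹ = z := by
      rw [hqz]; simp
    -- u = x q
    have hu1 : (x * q) * s * (x * q)⁻¹ = z := by
      calc (x * q) * s * (x * q)⁻¹ = x * (q * s * q⁻¹) * x⁻¹ := by simp [mul_assoc]
        _ = x * (z * s) * x⁻¹ := by rw [hq]
        _ = (x * z * x⁻¹) * (x * s * x⁻¹) := by simp [mul_assoc]
        _ = s * z * s := by rw [hxz, hxs]
        _ = z := by rw [← hzs, mul_assoc, hss, mul_one]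
    have hu2 : (x * q) * z * (x * q)⁻¹ = s * z := by
      calc (x * q) * z * (x * q)⁻¹ = x * (q * z * q⁻¹) * x⁻¹ := by simp [mul_assoc]
        _ = s * z := by rw [hqz', hxz]
    -- c = u g commutes with z
    have hcz : (x * q * g) * z * (x * q * g)⁻¹ = z := by
      calc (x * q * g) * z * (x * q * g)⁻¹ = (x * q) * (g * z * g⁻¹) * (x * q)⁻¹ := by
            simp [mul_assoc]
        _ = z := by rw [hsdef]; exact hu1
    have hcz' : (x * q * g)⁻¹ * z = z * (x * q * g)⁻¹ := by
      have := congrArg (fun t => (x * q * g)⁻¹ * t) hcz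
      simp only [mul_assoc] at this
      simpa [mul_assoc] using this.symm
    have hmem := h.norm _ hcz' (s * z) (Q.mul_mem hs h.z_mem)
    rw [hmemP]
    have e : (x * q * g)⁻¹ * (s * z) * (x * q * g)⁻¹⁻¹ = g⁻¹ * z * g := by
      rw [← hu2]; simp [mul_assoc]
    rw [e] at hmem
    exact hmem
  rcases h.sqrt_or_small hs hss hs1 hsz with ⟨y, hyQ, hys, hyy⟩ | hsmall
  · -- descent
    have hy4 : y * y * (y * y) = 1 := by rw [hyy, h.z_sq]
    have hD := Cfsg.Agent.H92.descent P s y hP.z_mem hss hP.z_central ?_ hP.sq (hP.norm y hys)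
      hys hy4 ?_
    · -- z centralizes P
      have hzc : ∀ x ∈ P, x * z = z * x := by
        intro x hx
        have h1 : y * (y * x * y⁻¹) * y⁻¹ = x := by
          rcases hD x hx with h2 | h2
          · rw [h2, h2]
          · rw [h2]
            calc y * (x * s) * y⁻¹ = (y * x * y⁻¹) * (y * s * y⁻¹) := by simp [mul_assoc]
              _ = x * s * s := by rw [h2, hys]; simp
              _ = x := by rw [mul_assoc, hss, mul_one]
        have h3 : z * x * z⁻¹ = x := by
          rw [← hyy]
          calc y * y * x * (y * y)⁻¹ = y * (y * x * y⁻¹) * y⁻¹ := by simp [mul_assoc]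
            _ = x := h1
        have := congrArg (fun t => t * z) h3
        simpa [mul_assoc] using this.symm
      exact hzP (hP.cent z hzc).1
    · intro a ha b hb
      rcases hP.comm a ha b hb with h1 | h1
      · left
        have := congrArg (fun t => t * b * a) h1
        simpa [mul_assoc] using this
      · right
        have h2 := congrArg (fun t => t * b * a) h1
        simp only [mul_assoc, inv_mul_cancel, mul_one] at h2
        have e1 := hP.z_central a ha
        have e2 := hP.z_central b hb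
        rw [h2]
        calc s * (b * a) = (s * b) * a := (mul_assoc _ _ _).symm
          _ = (b * s) * a := by rw [e2]
          _ = b * (s * a) := mul_assoc _ _ _
          _ = b * (a * s) := by rw [e1]
          _ = b * a * s := (mul_assoc _ _ _).symm
    · intro x hx hx'
      rw [hyy] at hx'
      rcases hx' with h1 | h1
      · have hxz : x * z = z * x := by
          have := congrArg (fun t => t * z) h1
          simpa [mul_assoc] using this.symm
        exact clB x hx hxz y hyQ hys
      · exfalso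
        apply clC x⁻¹ (P.inv_mem hx)
        have h2 : x⁻¹ * z * x = s * z := by
          have := congrArg (fun t => x⁻¹ * t * z) h1
          simpa [mul_assoc] using this
        simpa using h2
  · -- `C_Q(s) = {1, z, s, z s}`
    have hx0P : g * s * g⁻¹ ∈ P := by
      rw [hmemP]; simpa [mul_assoc] using hs
    have hx0sq : (g * s * g⁻¹) * (g * s * g⁻¹) = 1 := by
      calc (g * s * g⁻¹) * (g * s * g⁻¹) = g * (s * s) * g⁻¹ := by simp [mul_assoc]
        _ = 1 := by rw [hss]; simp
    have hx01 : g * s * g⁻¹ ≠ 1 := by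
      intro h1
      apply hs1
      have := congrArg (fun t => g⁻¹ * t * g) h1
      simpa [mul_assoc] using this
    have hx0s : g * s * g⁻¹ ≠ s := by
      intro h1
      apply hsz
      have h2 : g * s * g⁻¹ = g * z * g⁻¹ := h1.trans hsdef.symm
      exact mul_left_cancel (mul_right_cancel h2)
    have hex : ∃ x ∈ P, x ≠ 1 ∧ x ≠ s ∧ (z * x * z⁻¹ = x ∨ z * x * z⁻¹ = x * s) := by
      generalize g * s * g⁻¹ = x0 at hx0P hx0sq hx01 hx0s
      have hx0inv : x0⁻¹ = x0 := inv_eq_of_mul_eq_one_left hx0sq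
      have hx1P : z * x0 * z⁻¹ ∈ P := hP.norm z hzs x0 hx0P
      by_cases hc : z * x0 * z⁻¹ = x0 ∨ z * x0 * z⁻¹ = x0 * s
      · exact ⟨x0, hx0P, hx01, hx0s, hc⟩
      · refine ⟨x0 * (z * x0 * z⁻¹), P.mul_mem hx0P hx1P, ?_, ?_, ?_⟩
        · intro h1
          apply hc; left
          have h2 : z * x0 * z⁻¹ = x0⁻¹ := eq_inv_of_mul_eq_one_right h1
          rw [h2, hx0inv]
        · intro h1
          apply hc; right
          have h2 : z * x0 * z⁻¹ = x0⁻¹ * s := by rw [← h1]; simp
          rw [h2, hx0inv]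
        · have e1 : z * (x0 * (z * x0 * z⁻¹)) * z⁻¹ = (z * x0 * z⁻¹) * x0 := by
            calc z * (x0 * (z * x0 * z⁻¹)) * z⁻¹
                = (z * x0 * z⁻¹) * ((z * z) * x0 * (z * z)⁻¹) := by simp [mul_assoc]
              _ = (z * x0 * z⁻¹) * x0 := by rw [h.z_sq]; simp
          rw [e1]
          rcases hP.comm _ hx1P _ hx0P with h1 | h1
          · left
            have h2 := mul_inv_eq_one.mp h1
            exact mul_inv_eq_iff_eq_mul.mp h2
          · right
            have h2 := mul_inv_eq_iff_eq_mul.mp h1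
            have h3 := mul_inv_eq_iff_eq_mul.mp h2
            rw [h3, mul_assoc]
            exact (hP.z_central _ (P.mul_mem hx0P hx1P)).symm
    obtain ⟨x, hxP, hx1, hxs, hxz⟩ := hex
    rcases hxz with hxz | hxz
    · have hxz' : x * z = z * x := by
        have := congrArg (fun t => t * z) hxz
        simpa [mul_assoc] using this.symm
      have hxsc : x * s = s * x := hP.z_central x hxP
      have hxq : x * q * x⁻¹ ∈ Q := h.norm x hxz' q hqQ
      have hcQ : x * q * x⁻¹ * q⁻¹ ∈ Q := Q.mul_mem hxq (Q.inv_mem hqQ)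
      have hqz' : q⁻¹ * z = z * q⁻¹ := by
        have := congrArg (fun t => q⁻¹ * t * q⁻¹) hqz
        simpa [mul_assoc] using this.symm
      have e1 : q⁻¹ * (z * s) * q = s := by rw [← hq]; simp [mul_assoc]
      have e2 : q⁻¹ * (z * s) * q = z * (q⁻¹ * s * q) := by
        calc q⁻¹ * (z * s) * q = (q⁻¹ * z) * s * q := by simp [mul_assoc]
          _ = (z * q⁻¹) * s * q := by rw [hqz']
          _ = z * (q⁻¹ * s * q) := by simp [mul_assoc]
      have hqs' : q⁻¹ * s * q = z * s := by
        calc q⁻¹ * s * q = z * (z * (q⁻¹ * s * q)) := by rw [← mul_assoc, h.z_sq, one_mul]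
          _ = z * s := by rw [← e2, e1]
      have hx_zs : x⁻¹ * (z * s) * x = z * s := by
        have e3 : (z * s) * x = x * (z * s) := by
          rw [mul_assoc, ← hxsc, ← mul_assoc, ← hxz', mul_assoc]
        rw [mul_assoc, e3]; simp
      have hq_zs : q * (z * s) * q⁻¹ = s := by
        calc q * (z * s) * q⁻¹ = (q * z) * s * q⁻¹ := by simp [mul_assoc]
          _ = z * (q * s * q⁻¹) := by rw [hqz]; simp [mul_assoc]
          _ = s := by rw [hq, ← mul_assoc, h.z_sq, one_mul]
      have hcs : (x * q * x⁻¹ * q⁻¹) * s = s * (x * q * x⁻¹ * q⁻¹) := by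
        have e : (x * q * x⁻¹ * q⁻¹) * s * (x * q * x⁻¹ * q⁻¹)⁻¹ = s := by
          calc (x * q * x⁻¹ * q⁻¹) * s * (x * q * x⁻¹ * q⁻¹)⁻¹
              = x * (q * (x⁻¹ * (q⁻¹ * s * q) * x) * q⁻¹) * x⁻¹ := by simp [mul_assoc]
            _ = x * s * x⁻¹ := by rw [hqs', hx_zs, hq_zs]
            _ = s := by rw [hxsc]; simp
        exact mul_inv_eq_iff_eq_mul.mp e
      have hxA : ∀ a ∈ Q, a * s = s * a → a * x = x * a := by
        intro a ha has
        rcases hsmall a ha has with h2 | h2 | h2 | h2
        · rw [h2]; simp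
        · rw [h2]; exact hxz'.symm
        · rw [h2]; exact hxsc.symm
        · rw [h2, mul_assoc, ← hxsc, ← mul_assoc, ← hxz', mul_assoc]
      have hq' : q * s = z * s * q := mul_inv_eq_iff_eq_mul.mp hq
      have hsq' : s * q = z * q * s := by
        calc s * q = z * z * (s * q) := by rw [h.z_sq, one_mul]
          _ = z * (z * s * q) := by simp [mul_assoc]
          _ = z * (q * s) := by rw [← hq']
          _ = z * q * s := by rw [mul_assoc]
      have hqq_x : x * (q * q) * x⁻¹ = q * q := by
        rcases h.sq q hqQ with h3 | h3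
        · rw [h3]; simp
        · rw [h3, hxz']; simp
      have hsqsq : (s * q) * (s * q) = z * (q * q) := by
        calc (s * q) * (s * q) = s * (q * s) * q := by simp [mul_assoc]
          _ = s * (z * s * q) * q := by rw [hq']
          _ = (s * z * s) * (q * q) := by simp [mul_assoc]
          _ = z * (q * q) := by rw [← hzs, mul_assoc z s s, hss, mul_one]
      have hconjsq : ∀ w : G, x * q * x⁻¹ = w → w * w = q * q := by
        intro w hw
        rw [← hw]
        calc x * q * x⁻¹ * (x * q * x⁻¹) = x * (q * q) * x⁻¹ := by simp [mul_assoc]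
          _ = q * q := hqq_x
      rcases hsmall _ hcQ hcs with h1 | h1 | h1 | h1
      · have h2 : x * q * x⁻¹ = q := mul_inv_eq_one.mp h1
        have hxq' : x * q = q * x := mul_inv_eq_iff_eq_mul.mp h2
        have hcen := h.central_of_comm hs hqQ hq hxq'.symm hxA
        rcases clA x (h.cent x hcen).1 hxP with h3 | h3
        · exact hx1 h3
        · exact hxs h3
      · have h2 : x * q * x⁻¹ = z * q := mul_inv_eq_iff_eq_mul.mp h1
        have hxq2 : x * q = z * q * x := mul_inv_eq_iff_eq_mul.mp h2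
        have ht : q * (s * x) = (s * x) * q := by
          calc q * (s * x) = z * (z * (q * s)) * x := by
                rw [← mul_assoc z z, h.z_sq, one_mul, mul_assoc]
            _ = z * (z * q * s) * x := by rw [mul_assoc z q s]
            _ = z * (s * q) * x := by rw [hsq']
            _ = s * (z * q * x) := by rw [← mul_assoc z s q, hzs]; simp [mul_assoc]
            _ = s * (x * q) := by rw [hxq2]
            _ = (s * x) * q := by rw [mul_assoc]
        have htA : ∀ a ∈ Q, a * s = s * a → a * (s * x) = (s * x) * a := by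
          intro a ha has
          rw [← mul_assoc, has, mul_assoc, hxA a ha has, mul_assoc]
        have hcen := h.central_of_comm hs hqQ hq ht htA
        rcases clA (s * x) (h.cent (s * x) hcen).1 (P.mul_mem hP.z_mem hxP) with h3 | h3
        · apply hxs
          have := eq_inv_of_mul_eq_one_right h3
          rw [this, hsinv]
        · apply hx1
          simpa using h3
      · have h2 : x * q * x⁻¹ = s * q := mul_inv_eq_iff_eq_mul.mp h1
        have h3 := hconjsq _ h2
        rw [hsqsq] at h3
        apply h.z_ne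
        simpa using h3
      · have h2 : x * q * x⁻¹ = z * s * q := mul_inv_eq_iff_eq_mul.mp h1
        have h3 := hconjsq _ h2
        have e4 : (z * s * q) * (z * s * q) = z * (q * q) := by
          have hc := h.z_central (s * q) (Q.mul_mem hs hqQ)
          calc (z * s * q) * (z * s * q) = z * ((s * q) * z) * (s * q) := by simp [mul_assoc]
            _ = z * (z * (s * q)) * (s * q) := by rw [hc]
            _ = (s * q) * (s * q) := by rw [← mul_assoc z z, h.z_sq, one_mul]
            _ = z * (q * q) := hsqsq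
        rw [e4] at h3
        apply h.z_ne
        simpa using h3
    · apply clC x⁻¹ (P.inv_mem hxP)
      have h2 : x⁻¹ * z * x = s * z := by
        have := congrArg (fun t => x⁻¹ * t * z) hxz
        simpa [mul_assoc] using this
      simpa using h2

/-- If a conjugate `s = g z g⁻¹ ≠ z` of `z` lies in `Q`, then `z` lies in `P = g Q g⁻¹` and
`⟨Q, P⟩` induces the full automorphism group on the four-group `⟨z, s⟩`. -/
theorem s3_action (h : SPair Q z) (g : G) (hs : g * z * g⁻¹ ∈ Q) (hsz : g * z * g⁻¹ ≠ z) :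
    z ∈ Q.map (MulAut.conj g).toMonoidHom ∧
      ∀ u ∈ Subgroup.closure ({z, g * z * g⁻¹} : Set G),
        ∀ v ∈ Subgroup.closure ({z, g * z * g⁻¹} : Set G),
        u ≠ 1 → v ≠ 1 → u ≠ v →
          ∃ x ∈ Q ⊔ Q.map (MulAut.conj g).toMonoidHom,
            x * z * x⁻¹ = u ∧ x * (g * z * g⁻¹) * x⁻¹ = v := by
  have hzP := h.mem_conj g hs hsz
  refine ⟨hzP, ?_⟩
  have hP : SPair (Q.map (MulAut.conj g).toMonoidHom) (g * z * g⁻¹) := h.conj g
  generalize g * z * g⁻¹ = s at hs hsz hP ⊢
  generalize Q.map (MulAut.conj g).toMonoidHom = P at hP hzP ⊢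
  have hss : s * s = 1 := hP.z_sq
  have hs1 : s ≠ 1 := hP.z_ne
  have hzs : z * s = s * z := (h.z_central s hs).symm
  obtain ⟨t, htQ, ht⟩ := h.exists_conj hs hss hs1 hsz
  obtain ⟨r, hrP, hr⟩ := hP.exists_conj hzP h.z_sq h.z_ne (Ne.symm hsz)
  have htz : t * z * t⁻¹ = z := by rw [h.z_central t htQ]; simp
  have hrs : r * s * r⁻¹ = s := by rw [hP.z_central r hrP]; simp
  have hV : ∀ v, v ∈ Subgroup.closure ({z, s} : Set G) ↔
      v = 1 ∨ v = z ∨ v = s ∨ v = z * s := by
    intro v
    have e : Subgroup.closure ({z, s} : Set G) = Subgroup.zpowers z ⊔ Subgroup.zpowers s := by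
      rw [Subgroup.zpowers_eq_closure, Subgroup.zpowers_eq_closure, ← Subgroup.closure_union]
      rfl
    rw [e]
    exact Cfsg.Agent.H92.four_group_mem _ _ z s (LES.mem_zpowers_invol h.z_sq)
      (LES.mem_zpowers_invol hss) h.z_sq hss hzs v
  have htQP : t ∈ Q ⊔ P := (le_sup_left : Q ≤ Q ⊔ P) htQ
  have hrQP : r ∈ Q ⊔ P := (le_sup_right : P ≤ Q ⊔ P) hrP
  have e1 : z * (z * s) = s := by rw [← mul_assoc, h.z_sq, one_mul]
  have e2 : s * z * s = z := by rw [← hzs, mul_assoc, hss, mul_one]
  have ht_zs : t * (z * s) * t⁻¹ = s := by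
    rw [Cfsg.Agent.H92.conj_mul_mul_aux, htz, ht, e1]
  have hr_zs : r * (z * s) * r⁻¹ = z := by
    rw [Cfsg.Agent.H92.conj_mul_mul_aux, hr, hrs, e2]
  intro u hu v hv hu1 hv1 huv
  rcases (hV u).mp hu with hu' | hu' | hu' | hu'
  · exact absurd hu' hu1
  · rcases (hV v).mp hv with hv' | hv' | hv' | hv'
    · exact absurd hv' hv1
    · exact absurd (hu'.trans hv'.symm) huv
    · rw [hu', hv']
      exact ⟨1, one_mem _, by simp, by simp⟩
    · rw [hu', hv']
      exact ⟨t, htQP, htz, ht⟩
  · rcases (hV v).mp hv with hv' | hv' | hv' | hv'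
    · exact absurd hv' hv1
    · rw [hu', hv']
      refine ⟨t * r * t, mul_mem (mul_mem htQP hrQP) htQP, ?_, ?_⟩
      · rw [Cfsg.Agent.H92.conj_mul_aux, htz, Cfsg.Agent.H92.conj_mul_aux, hr, ← hzs, ht_zs]
      · rw [Cfsg.Agent.H92.conj_mul_aux, ht, Cfsg.Agent.H92.conj_mul_aux, hr_zs, htz]
    · exact absurd (hu'.trans hv'.symm) huv
    · rw [hu', hv']
      refine ⟨t * r, mul_mem htQP hrQP, ?_, ?_⟩
      · rw [Cfsg.Agent.H92.conj_mul_aux, hr, ← hzs, ht_zs]
      · rw [Cfsg.Agent.H92.conj_mul_aux, hrs, ht]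
  · rcases (hV v).mp hv with hv' | hv' | hv' | hv'
    · exact absurd hv' hv1
    · rw [hu', hv']
      refine ⟨r * t, mul_mem hrQP htQP, ?_, ?_⟩
      · rw [Cfsg.Agent.H92.conj_mul_aux, htz, hr, hzs]
      · rw [Cfsg.Agent.H92.conj_mul_aux, ht, hr_zs]
    · rw [hu', hv']
      exact ⟨r, hrQP, by rw [hr, hzs], hrs⟩
    · exact absurd (hu'.trans hv'.symm) huv

end SPair

end Cfsg.Agent.H28.Symp
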