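import Mathlib
import Cfsg.Prelude.Def_ClassificationK
import Cfsg.Agent.H28.Symp
import Cfsg.Agent.H28.Bender
import Cfsg.Agent.H36.CentInvolution
import Cfsg.Agent.H3.Critical

set_option autoImplicit false
open Cfsg

/-!
A finite 2-group of symplectic type in which every element has order dividing 4: squares and
commutators lie in `{1, z}` for the central involution `z`.  Consequence: the generalized Fitting
subgroup of an involution centralizer, when of this kind, is a symplectic pair.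
-/

namespace Cfsg.Agent.H28.Symp

/-- In a finite `p`-group, a normal subgroup `K` not contained in the normal subgroup `N` has an
element outside `N` which is central modulo `N`. -/
theorem exists_central_mod {T : Type*} [Group T] [Finite T] {p : ℕ} [Fact p.Prime]
    (hT : IsPGroup p T) (N K : Subgroup T) [N.Normal] [hKn : K.Normal] (hKN : ¬ K ≤ N) :
    ∃ x ∈ K, x ∉ N ∧ ∀ l : T, l * x * l⁻¹ * x⁻¹ ∈ N := by
  have hQp : IsPGroup p (T ⧸ N) := hT.to_quotient N
  have hmapn : (K.map (QuotientGroup.mk' N)).Normal :=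
    Subgroup.Normal.map hKn _ (QuotientGroup.mk'_surjective N)
  have hne : K.map (QuotientGroup.mk' N) ≠ ⊥ := by
    intro hb
    apply hKN
    intro k hk
    have h1 : QuotientGroup.mk' N k ∈ K.map (QuotientGroup.mk' N) :=
      Subgroup.mem_map_of_mem _ hk
    rw [hb, Subgroup.mem_bot] at h1
    exact (QuotientGroup.eq_one_iff k).mp h1
  obtain ⟨c, hcK, hcc, hc1⟩ :=
    Cfsg.Agent.H3.normal_inf_center_ne_bot hQp (K.map (QuotientGroup.mk' N)) hne
  obtain ⟨x, hxK, rfl⟩ := hcK
  refine ⟨x, hxK, ?_, ?_⟩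
  · intro hxN
    apply hc1
    exact (QuotientGroup.eq_one_iff x).mpr hxN
  · intro l
    have h1 : (l : T ⧸ N) * (x : T ⧸ N) = (x : T ⧸ N) * (l : T ⧸ N) :=
      Subgroup.mem_center_iff.mp hcc (QuotientGroup.mk' N l)
    rw [← QuotientGroup.eq_one_iff]
    simp only [QuotientGroup.mk_mul, QuotientGroup.mk_inv]
    rw [h1]; simp

/-- In a finite 2-group of symplectic type in which every element has order dividing 4, every
square is `1` or the central involution. -/
theorem sq_of_symplectic {T : Type*} [Group T] [Finite T] (hT : Cfsg.IsOfSymplecticType T)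
    (h4 : ∀ x : T, x ^ 4 = 1) (zT : T) (hzT : orderOf zT = 2) (hzc : zT ∈ Subgroup.center T) :
    ∀ x : T, x * x = 1 ∨ x * x = zT := by
  have : Fact (Nat.Prime 2) := ⟨Nat.prime_two⟩
  have hT2 : IsPGroup 2 T := hT.1
  have hzz : zT * zT = 1 := by
    have := pow_orderOf_eq_one zT
    rwa [hzT, pow_two] at this
  have hzcomm : ∀ x : T, x * zT = zT * x := fun x => Subgroup.mem_center_iff.mp hzc x
  have hsqsq : ∀ x : T, (x * x) * (x * x) = 1 := by
    intro x
    rw [← h4 x]
    simp [pow_succ, mul_assoc]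
  -- K
  let K : Subgroup T := Subgroup.closure {y | ∃ x : T, y = x * x}
  have hKchar : K.Characteristic := by
    rw [Subgroup.characteristic_iff_le_comap]
    intro ϕ
    rw [Subgroup.closure_le]
    rintro _ ⟨x, rfl⟩
    rw [SetLike.mem_coe, Subgroup.mem_comap]
    apply Subgroup.subset_closure
    exact ⟨ϕ x, map_mul ϕ x x⟩
  have hKn : K.Normal := Subgroup.normal_of_characteristic K
  have hsqK : ∀ x : T, x * x ∈ K := fun x => Subgroup.subset_closure ⟨x, rfl⟩
  let ZK : Subgroup T := K ⊓ Subgroup.centralizer (K : Set T)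
  have hZKchar : ZK.Characteristic := Subgroup.characteristic_inf
  have hZKcomm : IsMulCommutative ↥ZK :=
    ⟨⟨fun a b => Subtype.ext (Subgroup.mem_centralizer_iff.mp b.2.2 a a.2.1)⟩⟩
  have hZKn : ZK.Normal := Subgroup.normal_of_characteristic ZK
  have hZKmem : ∀ x : T, x ∈ ZK ↔ x ∈ K ∧ ∀ k ∈ K, k * x = x * k := by
    intro x
    rw [Subgroup.mem_inf, Subgroup.mem_centralizer_iff]
    rfl
  -- involutions of ZK
  have step1 : ∀ w ∈ ZK, w * w = 1 → w = 1 ∨ w = zT := by
    intro w hw hww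
    by_cases hw1 : w = 1
    · exact Or.inl hw1
    · right
      have hne : ZK ≠ ⊥ := by
        intro hb
        rw [hb, Subgroup.mem_bot] at hw
        exact hw1 hw
      have hord : orderOf w = 2 := orderOf_eq_prime (by rw [pow_two]; exact hww) hw1
      exact (Cfsg.Agent.H36.symplectic_char_abelian_involution hT zT hzT hzc ZK hZKchar
        hZKcomm hne).2 w hw hord
  -- squares centralize elements which are central modulo `{1, zT}`
  have SQ : ∀ n : T, (∀ l : T, l * n * l⁻¹ * n⁻¹ = 1 ∨ l * n * l⁻¹ * n⁻¹ = zT) →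
      ∀ k ∈ K, k * n = n * k := by
    intro n hn
    have hle : K ≤ Subgroup.centralizer ({n} : Set T) := by
      rw [Subgroup.closure_le]
      rintro _ ⟨l, rfl⟩
      rw [SetLike.mem_coe, Subgroup.mem_centralizer_singleton_iff]
      rcases hn l with h1 | h1
      · have h2 : l * n = n * l := mul_inv_eq_iff_eq_mul.mp (mul_inv_eq_one.mp h1)
        rw [mul_assoc, h2, ← mul_assoc, h2, mul_assoc]
      · have h2 : l * n = zT * n * l := mul_inv_eq_iff_eq_mul.mp (mul_inv_eq_iff_eq_mul.mp h1)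
        calc l * l * n = l * (l * n) := mul_assoc _ _ _
          _ = l * (zT * n * l) := by rw [h2]
          _ = zT * (l * n) * l := by
              rw [← mul_assoc l, ← mul_assoc l, hzcomm l]; simp [mul_assoc]
          _ = zT * (zT * n * l) * l := by rw [h2]
          _ = n * (l * l) := by
              rw [← mul_assoc zT, ← mul_assoc zT, hzz, one_mul, mul_assoc]
    intro k hk
    exact Subgroup.mem_centralizer_singleton_iff.mp (hle hk)
  by_contra hcon
  push Not at hcon
  obtain ⟨x₁, hx₁a, hx₁b⟩ := hcon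
  have hx₁K : x₁ * x₁ ∈ K := hsqK x₁
  have hKZK : ¬ K ≤ ZK := by
    intro hle
    rcases step1 _ (hle hx₁K) (hsqsq x₁) with h | h
    · exact hx₁a h
    · exact hx₁b h
  have hZ0n : (Subgroup.zpowers zT).Normal := by
    constructor
    intro n hn l
    rw [LES.mem_zpowers_invol hzz] at hn ⊢
    rcases hn with rfl | rfl
    · left; simp
    · right; rw [hzcomm l]; simp
  have hKZ0 : ¬ K ≤ Subgroup.zpowers zT := by
    intro hle
    rcases (LES.mem_zpowers_invol hzz _).mp (hle hx₁K) with h | h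
    · exact hx₁a h
    · exact hx₁b h
  -- an element `n` of `Z(K)` with `n² = zT`
  obtain ⟨n, hnK, hnZ0, hn⟩ := exists_central_mod hT2 (Subgroup.zpowers zT) K hKZ0
  have hnc : ∀ k ∈ K, k * n = n * k :=
    SQ n (fun l => (LES.mem_zpowers_invol hzz _).mp (hn l))
  have hnZK : n ∈ ZK := (hZKmem n).mpr ⟨hnK, hnc⟩
  have hnn : n * n = zT := by
    have h1 : n * n ∈ ZK := Subgroup.mul_mem _ hnZK hnZK
    rcases step1 _ h1 (hsqsq n) with h | h
    · exfalso
      apply hnZ0
      rw [LES.mem_zpowers_invol hzz]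
      exact step1 n hnZK h
    · exact h
  -- an element of `K` outside `Z(K)`, central modulo `Z(K)`
  obtain ⟨x, hxK, hxZK, hx⟩ := exists_central_mod hT2 ZK K hKZK
  obtain ⟨x', hx'K, hx'ZK, hx', hx'sq⟩ : ∃ x' ∈ K, x' ∉ ZK ∧
      (∀ l : T, l * x' * l⁻¹ * x'⁻¹ ∈ ZK) ∧ x' * x' ∈ ZK := by
    by_cases hxx : x * x ∈ ZK
    · exact ⟨x, hxK, hxZK, hx, hxx⟩
    · refine ⟨x * x, Subgroup.mul_mem _ hxK hxK, hxx, ?_, ?_⟩
      · intro l
        have e : l * (x * x) * l⁻¹ * (x * x)⁻¹ =
            (l * x * l⁻¹ * x⁻¹) * (x * (l * x * l⁻¹ * x⁻¹) * x⁻¹) := by simp [mul_assoc]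
        rw [e]
        exact Subgroup.mul_mem _ (hx l) (hZKn.conj_mem _ (hx l) x)
      · rw [hsqsq x]; exact Subgroup.one_mem _
  -- an involution of `K` outside `Z(K)`, central modulo `Z(K)`
  obtain ⟨e, heK, heZK, he, hee⟩ : ∃ e ∈ K, e ∉ ZK ∧
      (∀ l : T, l * e * l⁻¹ * e⁻¹ ∈ ZK) ∧ e * e = 1 := by
    rcases step1 _ hx'sq (hsqsq x') with h | h
    · exact ⟨x', hx'K, hx'ZK, hx', h⟩
    · refine ⟨x' * n⁻¹, Subgroup.mul_mem _ hx'K (Subgroup.inv_mem _ hnK), ?_, ?_, ?_⟩
      · intro hmem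
        apply hx'ZK
        have := Subgroup.mul_mem _ hmem hnZK
        simpa [mul_assoc] using this
      · intro l
        have e1 : l * (x' * n⁻¹) * l⁻¹ * (x' * n⁻¹)⁻¹ =
            (l * x' * l⁻¹ * x'⁻¹) * (x' * (l * n⁻¹ * l⁻¹ * n) * x'⁻¹) := by simp [mul_assoc]
        rw [e1]
        refine Subgroup.mul_mem _ (hx' l) (hZKn.conj_mem _ ?_ x')
        exact Subgroup.mul_mem _ (hZKn.conj_mem _ (Subgroup.inv_mem _ hnZK) l) hnZK
      · have h1 : x' * n = n * x' := hnc x' hx'K
        have h2 : n⁻¹ * x' = x' * n⁻¹ := by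
          have := congrArg (fun t => n⁻¹ * t * n⁻¹) h1
          simpa [mul_assoc] using this
        calc x' * n⁻¹ * (x' * n⁻¹) = x' * (n⁻¹ * x') * n⁻¹ := by simp [mul_assoc]
          _ = x' * (x' * n⁻¹) * n⁻¹ := by rw [h2]
          _ = (x' * x') * (n * n)⁻¹ := by simp [mul_assoc]
          _ = 1 := by rw [h, hnn]; simp
  have heinv : e⁻¹ = e := inv_eq_of_mul_eq_one_left hee
  have hecomm : ∀ l : T, l * e * l⁻¹ * e⁻¹ = 1 ∨ l * e * l⁻¹ * e⁻¹ = zT := by
    intro l
    apply step1 _ (he l)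
    have hw : (l * e * l⁻¹ * e⁻¹) * e = e * (l * e * l⁻¹ * e⁻¹) :=
      (((hZKmem _).mp (he l)).2 e heK).symm
    have haa : (l * e * l⁻¹) * (l * e * l⁻¹) = 1 := by
      calc (l * e * l⁻¹) * (l * e * l⁻¹) = l * (e * e) * l⁻¹ := by simp [mul_assoc]
        _ = 1 := by rw [hee]; simp
    rw [heinv] at hw ⊢
    rw [mul_assoc (l * e * l⁻¹) e e, hee, mul_one] at hw
    have hae : (l * e * l⁻¹) * e = e * (l * e * l⁻¹) := by
      calc (l * e * l⁻¹) * e = e * (l * e * l⁻¹ * e) * e := by rw [← hw]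
        _ = e * (l * e * l⁻¹) * (e * e) := by simp [mul_assoc]
        _ = e * (l * e * l⁻¹) := by rw [hee, mul_one]
    calc (l * e * l⁻¹ * e) * (l * e * l⁻¹ * e)
        = (l * e * l⁻¹) * (e * (l * e * l⁻¹)) * e := by simp [mul_assoc]
      _ = (l * e * l⁻¹) * ((l * e * l⁻¹) * e) * e := by rw [hae]
      _ = ((l * e * l⁻¹) * (l * e * l⁻¹)) * (e * e) := by simp [mul_assoc]
      _ = 1 := by rw [haa, hee, one_mul]
  exact heZK ((hZKmem e).mpr ⟨heK, SQ e hecomm⟩)

/-- If all squares lie in `{1, z}` for a central involution `z`, so do all commutators. -/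
theorem comm_of_sq {T : Type*} [Group T] (zT : T) (hzz : zT * zT = 1)
    (hzc : ∀ x : T, x * zT = zT * x) (hsq : ∀ x : T, x * x = 1 ∨ x * x = zT) (x y : T) :
    x * y * x⁻¹ * y⁻¹ = 1 ∨ x * y * x⁻¹ * y⁻¹ = zT := by
  have e : x * y * x⁻¹ * y⁻¹ = ((x * y) * (x * y)) * (y⁻¹ * (x * x)⁻¹ * y⁻¹) := by
    simp [mul_assoc]
  have hm : ∀ x : T, x * x ∈ Subgroup.zpowers zT :=
    fun x => (LES.mem_zpowers_invol hzz _).mpr (hsq x)
  rw [← LES.mem_zpowers_invol hzz, e]
  refine Subgroup.mul_mem _ (hm _) ?_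
  have e2 : y⁻¹ * (x * x)⁻¹ * y⁻¹ = (x * x)⁻¹ * (y * y)⁻¹ := by
    rcases hsq x with h | h
    · rw [h]; simp
    · rw [h]
      have h3 : y⁻¹ * zT⁻¹ = zT⁻¹ * y⁻¹ := by
        rw [← mul_inv_rev, ← mul_inv_rev, hzc y]
      rw [h3]; simp [mul_assoc]
  rw [e2]
  exact Subgroup.mul_mem _ (Subgroup.inv_mem _ (hm x)) (Subgroup.inv_mem _ (hm y))

/-- The generalized Fitting subgroup of the centralizer of an involution `z`, when it is a 2-group
of symplectic type and of exponent dividing 4, is a symplectic pair. -/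
theorem spair_of_symplectic {G : Type*} [Group G] [Finite G] (z : G) (hz : orderOf z = 2)
    (hQ : Cfsg.IsOfSymplecticType
      ↥(Cfsg.generalizedFittingSubgroup ↥(Subgroup.centralizer ({z} : Set G))))
    (h4 : ∀ q ∈ (Cfsg.generalizedFittingSubgroup ↥(Subgroup.centralizer ({z} : Set G))).map
      (Subgroup.centralizer ({z} : Set G)).subtype, q ^ 4 = 1) :
    SPair ((Cfsg.generalizedFittingSubgroup ↥(Subgroup.centralizer ({z} : Set G))).map
      (Subgroup.centralizer ({z} : Set G)).subtype) z := by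
  have hz1 : z ≠ 1 := by
    intro h1
    rw [h1, orderOf_one] at hz
    omega
  have hzz : z * z = 1 := by
    have := pow_orderOf_eq_one z
    rwa [hz, pow_two] at this
  have h4' : ∀ x : ↥(Cfsg.generalizedFittingSubgroup ↥(Subgroup.centralizer ({z} : Set G))),
      x ^ 4 = 1 := by
    intro x
    have h1 := h4 ((x : ↥(Subgroup.centralizer ({z} : Set G))) : G) ⟨x.1, x.2, rfl⟩
    apply Subtype.ext
    apply Subtype.ext
    simpa using h1
  have hzTo : orderOf (Cfsg.Agent.H36.zInGenFitting z) = 2 := by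
    rw [Cfsg.Agent.H36.zInGenFitting_orderOf]; exact hz
  have hzTc := Cfsg.Agent.H36.zInGenFitting_central z
  have hsq := sq_of_symplectic hQ h4' (Cfsg.Agent.H36.zInGenFitting z) hzTo hzTc
  have hzTz : Cfsg.Agent.H36.zInGenFitting z * Cfsg.Agent.H36.zInGenFitting z = 1 := by
    have := pow_orderOf_eq_one (Cfsg.Agent.H36.zInGenFitting z)
    rwa [hzTo, pow_two] at this
  have hcomm := comm_of_sq (Cfsg.Agent.H36.zInGenFitting z) hzTz
    (fun x => Subgroup.mem_center_iff.mp hzTc x) hsq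
  have hcen := Cfsg.Agent.H28.centralizer_genFitting_le
    (G := ↥(Subgroup.centralizer ({z} : Set G)))
  have hFn : (Cfsg.generalizedFittingSubgroup ↥(Subgroup.centralizer ({z} : Set G))).Normal :=
    Cfsg.Agent.H28.genFitting_normal
  have hzmem : z ∈ (Cfsg.generalizedFittingSubgroup ↥(Subgroup.centralizer ({z} : Set G))).map
      (Subgroup.centralizer ({z} : Set G)).subtype :=
    ⟨_, (Cfsg.Agent.H36.zInGenFitting z).2, rfl⟩
  refine ⟨hzmem, hz1, hzz, ?_, ?_, ?_, ?_, ?_⟩
  · rintro _ ⟨q, _, rfl⟩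
    exact Subgroup.mem_centralizer_singleton_iff.mp q.2
  · rintro _ ⟨x, hx, rfl⟩ _ ⟨y, hy, rfl⟩
    rcases hcomm ⟨x, hx⟩ ⟨y, hy⟩ with h1 | h1
    · left
      exact congrArg (fun t : ↥(Cfsg.generalizedFittingSubgroup
        ↥(Subgroup.centralizer ({z} : Set G))) => ((t : ↥(Subgroup.centralizer ({z} : Set G))) : G)) h1
    · right
      exact congrArg (fun t : ↥(Cfsg.generalizedFittingSubgroup
        ↥(Subgroup.centralizer ({z} : Set G))) => ((t : ↥(Subgroup.centralizer ({z} : Set G))) : G)) h1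
  · rintro _ ⟨x, hx, rfl⟩
    rcases hsq ⟨x, hx⟩ with h1 | h1
    · left
      exact congrArg (fun t : ↥(Cfsg.generalizedFittingSubgroup
        ↥(Subgroup.centralizer ({z} : Set G))) => ((t : ↥(Subgroup.centralizer ({z} : Set G))) : G)) h1
    · right
      exact congrArg (fun t : ↥(Cfsg.generalizedFittingSubgroup
        ↥(Subgroup.centralizer ({z} : Set G))) => ((t : ↥(Subgroup.centralizer ({z} : Set G))) : G)) h1
  · intro c hc
    have hcz : c * z = z * c := (hc z hzmem).symm
    have hcC : c ∈ Subgroup.centralizer ({z} : Set G) :=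
      Subgroup.mem_centralizer_singleton_iff.mpr hcz
    have hcF : (⟨c, hcC⟩ : ↥(Subgroup.centralizer ({z} : Set G))) ∈
        Cfsg.generalizedFittingSubgroup ↥(Subgroup.centralizer ({z} : Set G)) := by
      apply hcen
      rw [Subgroup.mem_centralizer_iff]
      intro q hq
      apply Subtype.ext
      exact hc q ⟨q, hq, rfl⟩
    refine ⟨⟨⟨c, hcC⟩, hcF, rfl⟩, ?_⟩
    intro hcc
    by_cases hc1 : c = 1
    · exact Or.inl hc1
    · right
      have hord : orderOf (⟨⟨c, hcC⟩, hcF⟩ : ↥(Cfsg.generalizedFittingSubgroup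
          ↥(Subgroup.centralizer ({z} : Set G)))) = 2 := by
        rw [Subgroup.orderOf_mk, Subgroup.orderOf_mk]
        exact orderOf_eq_prime (by rw [pow_two]; exact hcc) hc1
      have hcenT : (⟨⟨c, hcC⟩, hcF⟩ : ↥(Cfsg.generalizedFittingSubgroup
          ↥(Subgroup.centralizer ({z} : Set G)))) ∈ Subgroup.center _ := by
        rw [Subgroup.mem_center_iff]
        intro q
        apply Subtype.ext
        apply Subtype.ext
        exact hc q ⟨q.1, q.2, rfl⟩
      have hne : Subgroup.center ↥(Cfsg.generalizedFittingSubgroup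
          ↥(Subgroup.centralizer ({z} : Set G))) ≠ ⊥ := by
        intro hb
        rw [hb, Subgroup.mem_bot] at hcenT
        apply hc1
        exact congrArg (fun t : ↥(Cfsg.generalizedFittingSubgroup
          ↥(Subgroup.centralizer ({z} : Set G))) =>
            ((t : ↥(Subgroup.centralizer ({z} : Set G))) : G)) hcenT
      have h5 := (Cfsg.Agent.H36.symplectic_char_abelian_involution hQ
        (Cfsg.Agent.H36.zInGenFitting z) hzTo hzTc (Subgroup.center _) inferInstance
        inferInstance hne).2 _ hcenT hord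
      exact congrArg (fun t : ↥(Cfsg.generalizedFittingSubgroup
        ↥(Subgroup.centralizer ({z} : Set G))) =>
          ((t : ↥(Subgroup.centralizer ({z} : Set G))) : G)) h5
  · rintro c hc _ ⟨q, hq, rfl⟩
    have hcC : c ∈ Subgroup.centralizer ({z} : Set G) :=
      Subgroup.mem_centralizer_singleton_iff.mpr hc
    exact ⟨⟨c, hcC⟩ * q * ⟨c, hcC⟩⁻¹, hFn.conj_mem q hq ⟨c, hcC⟩, rfl⟩

end Cfsg.Agent.H28.Symp
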