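import Mathlib
import Cfsg.Agent.H3.Rank4
import Cfsg.Agent.H3.Narrow
import Cfsg.Agent.H3.Critical
import Cfsg.Agent.H13.Basic
import Cfsg.Prelude.Def_CaseTheorems
import Cfsg.Prelude.Def_Balance

/-!
# `3`-groups of rank at least `4` are `2`-connected (helper28)
-/

set_option autoImplicit false

namespace Cfsg.Agent.H28

/-- `|S| ≤ |ker f| * |f(S)|`. -/
theorem card_le_card_ker_mul_card_map {A : Type*} [Group A] [Finite A] (f : A →* A)
    (S : Subgroup A) : Nat.card S ≤ Nat.card f.ker * Nat.card (S.map f) := by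
  set g : S →* A := f.comp S.subtype with hg
  have h1 : Nat.card g.ker * Nat.card g.range = Nat.card S := by
    rw [← Subgroup.index_ker]; exact Subgroup.card_mul_index g.ker
  have h2 : g.range = S.map f := by
    ext y
    constructor
    · rintro ⟨s, rfl⟩
      exact ⟨s.1, s.2, rfl⟩
    · rintro ⟨s, hs, rfl⟩
      exact ⟨⟨s, hs⟩, rfl⟩
  have h3 : Nat.card g.ker ≤ Nat.card f.ker := by
    apply Nat.card_le_card_of_injective
      (fun k : g.ker => (⟨((k : S) : A), MonoidHom.mem_ker.mp k.2⟩ : f.ker))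
    intro a b hab
    have h4 : (((a : S) : A)) = (((b : S) : A)) := congrArg (fun t : f.ker => (t : A)) hab
    exact Subtype.ext (Subtype.ext h4)
  rw [← h1, h2]
  exact Nat.mul_le_mul_right _ h3

/-- If `f ∘ f ∘ f` is trivial then `|A| ≤ |ker f| ^ 3`. -/
theorem card_le_card_ker_pow_three {A : Type*} [Group A] [Finite A] (f : A →* A)
    (hf : ∀ v, f (f (f v)) = 1) : Nat.card A ≤ Nat.card f.ker ^ 3 := by
  have h1 := card_le_card_ker_mul_card_map f ⊤
  have h2 := card_le_card_ker_mul_card_map f ((⊤ : Subgroup A).map f)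
  have h3 := card_le_card_ker_mul_card_map f (((⊤ : Subgroup A).map f).map f)
  have h4 : (((⊤ : Subgroup A).map f).map f).map f = ⊥ := by
    rw [eq_bot_iff]
    rintro _ ⟨_, ⟨_, ⟨v, -, rfl⟩, rfl⟩, rfl⟩
    rw [Subgroup.mem_bot]; exact hf v
  rw [h4, Subgroup.card_bot, mul_one] at h3
  rw [Subgroup.card_top] at h1
  calc Nat.card A ≤ Nat.card f.ker * Nat.card ((⊤ : Subgroup A).map f) := h1
    _ ≤ Nat.card f.ker * (Nat.card f.ker * Nat.card (((⊤ : Subgroup A).map f).map f)) :=
        Nat.mul_le_mul_left _ h2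
    _ ≤ Nat.card f.ker * (Nat.card f.ker * Nat.card f.ker) :=
        Nat.mul_le_mul_left _ (Nat.mul_le_mul_left _ h3)
    _ = Nat.card f.ker ^ 3 := by ring

/-- A commutative-group identity: `(c - 1)^3 v` written out. -/
theorem commGroup_cube_identity {G : Type*} [CommGroup G] (v b d : G) :
    v / d / (d / b) / (d / b / (b / v)) = b ^ 3 / d ^ 3 := by
  apply Additive.ofMul.injective
  simp only [ofMul_div, ofMul_pow]
  abel

/-- An element of order dividing `3` of a `3`-group centralizes a subgroup of order at least `9` of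
any normal elementary abelian subgroup of order `81`. -/
theorem nine_le_card_inf_centralizer {P : Type*} [Group P] [Finite P]
    (A : Subgroup P) (hAn : A.Normal) (hAcomm : ∀ a ∈ A, ∀ b ∈ A, a * b = b * a)
    (hAe : ∀ a ∈ A, a ^ 3 = 1) (hAc : Nat.card A = 3 ^ 4) (x : P) (hx : x ^ 3 = 1) :
    3 ^ 2 ≤ Nat.card (A ⊓ Subgroup.centralizer {x} : Subgroup P) := by
  have := hAn
  letI : CommGroup A :=
    { (inferInstance : Group A) with mul_comm := fun a b => Subtype.ext (hAcomm a a.2 b b.2) }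
  let c : A →* A := (MulAut.conjNormal x : MulAut A).toMonoidHom
  have hc : ∀ v : A, ((c v : A) : P) = x * v * x⁻¹ := fun v => rfl
  let f : A →* A := c / MonoidHom.id A
  have hf : ∀ v : A, f v = c v / v := fun v => rfl
  have hc3 : ∀ v : A, c (c (c v)) = v := by
    intro v
    apply Subtype.ext
    rw [hc, hc, hc]
    have h1 : x * (x * (x * (v : P) * x⁻¹) * x⁻¹) * x⁻¹ = (x * x * x) * v * (x * x * x)⁻¹ := by
      group
    have hx' : x * x * x = 1 := by rw [← hx, pow_succ, pow_succ, pow_one]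
    rw [h1, hx', one_mul, inv_one, mul_one]
  have hpow : ∀ w : A, w ^ 3 = 1 := fun w => Subtype.ext (by simpa using hAe w w.2)
  have hf3 : ∀ v, f (f (f v)) = 1 := by
    intro v
    have e1 : f v = c v / v := rfl
    have e2 : f (c v) = c (c v) / c v := rfl
    have e3 : f (c (c v)) = v / c (c v) := by rw [hf, hc3]
    have e4 : f (f v) = (c (c v) / c v) / (c v / v) := by rw [e1, map_div, e2, e1]
    rw [e4, map_div, map_div, map_div, e3, e2, e1, commGroup_cube_identity, hpow, hpow, div_one]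
  have hker : Nat.card f.ker ≤ Nat.card (A ⊓ Subgroup.centralizer {x} : Subgroup P) := by
    have hmem : ∀ k : f.ker, ((k : A) : P) ∈ (A ⊓ Subgroup.centralizer {x} : Subgroup P) := by
      intro k
      refine Subgroup.mem_inf.mpr ⟨(k : A).2, ?_⟩
      rw [Subgroup.mem_centralizer_singleton_iff]
      have h1 : f (k : A) = 1 := MonoidHom.mem_ker.mp k.2
      rw [hf, div_eq_one] at h1
      have h2 : x * ((k : A) : P) * x⁻¹ = ((k : A) : P) := by rw [← hc, h1]
      calc ((k : A) : P) * x = x * ((k : A) : P) * x⁻¹ * x := by rw [h2]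
        _ = x * ((k : A) : P) := by group
    apply Nat.card_le_card_of_injective (fun k : f.ker => (⟨((k : A) : P), hmem k⟩ :
      (A ⊓ Subgroup.centralizer {x} : Subgroup P)))
    intro k₁ k₂ h12
    have h4 : (((k₁ : A) : P)) = (((k₂ : A) : P)) :=
      congrArg (fun t : (A ⊓ Subgroup.centralizer {x} : Subgroup P) => (t : P)) h12
    exact Subtype.ext (Subtype.ext h4)
  have h81 := card_le_card_ker_pow_three f hf3
  rw [hAc] at h81
  have hdvd : Nat.card f.ker ∣ 3 ^ 4 := by
    rw [← hAc]; exact Subgroup.card_subgroup_dvd_card f.ker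
  refine le_trans ?_ hker
  by_contra hlt
  push Not at hlt
  have hk : Nat.card f.ker < 9 := by norm_num at hlt; exact hlt
  interval_cases (Nat.card f.ker) <;>
    first
    | (exfalso; norm_num at h81; done)
    | (exfalso; norm_num at hdvd; done)

/-- A finite `3`-group of `3`-rank at least `4` is `2`-connected for the prime `3`. -/
theorem isKConnected_three_two {P : Type*} [Group P] [Finite P] (hP : IsPGroup 3 P)
    (hrk : ¬ Cfsg.PRankLE 3 3 P) : Cfsg.IsKConnected 3 2 P := by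
  haveI : Fact (Nat.Prime 3) := ⟨Nat.prime_three⟩
  unfold Cfsg.PRankLE at hrk
  push Not at hrk
  obtain ⟨F, hFc, hFe, hFcard⟩ := hrk
  have hFcomm : ∀ a ∈ F, ∀ b ∈ F, a * b = b * a := fun a ha b hb =>
    congrArg Subtype.val (hFc.1.1 ⟨a, ha⟩ ⟨b, hb⟩)
  obtain ⟨e, he⟩ := IsPGroup.iff_card.mp (hP.to_subgroup F)
  have he4 : 4 ≤ e := by
    rw [he] at hFcard
    have := (Nat.pow_lt_pow_iff_right (by norm_num : 1 < 3)).mp hFcard
    omega
  obtain ⟨E', hE'⟩ := Sylow.exists_subgroup_card_pow_prime 3 (G := F) (n := 4)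
    (by rw [he]; exact pow_dvd_pow 3 he4)
  set E : Subgroup P := E'.map F.subtype with hE
  have hEcard : Nat.card E = 3 ^ 4 := by
    rw [hE, Subgroup.card_map_of_injective F.subtype_injective]; exact hE'
  have hEle : E ≤ F := by
    rintro _ ⟨a, -, rfl⟩
    exact a.2
  obtain ⟨A, hAn, hAcomm, hAe, hAcard⟩ := Cfsg.Agent.H3.exists_normal_rank4 (by norm_num) hP E
    (fun a ha b hb => hFcomm a (hEle ha) b (hEle hb)) (fun a ha => hFe a (hEle ha)) hEcard
  have hA : Cfsg.IsElementaryAbelian 3 A := Cfsg.Agent.H13.ea_iff.mpr ⟨hAcomm, hAe⟩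
  have hA9 : 3 ^ 2 ≤ Nat.card A := by rw [hAcard]; norm_num
  have := hAn
  have hAbot : A ≠ ⊥ := by
    intro h
    rw [h, Subgroup.card_bot] at hAcard
    norm_num at hAcard
  obtain ⟨a, haA, hac, ha1⟩ := Cfsg.Agent.H3.normal_exists_central_order_p hP A hAbot
  have hacen : a ∈ Subgroup.center P := hac.1
  have ha3 : a ^ 3 = 1 := hac.2
  have hoa : orderOf a = 3 := orderOf_eq_prime ha3 ha1
  -- every vertex is joined to `A`
  have key : ∀ X : Subgroup P, Cfsg.IsElementaryAbelian 3 X → 3 ^ 2 ≤ Nat.card X →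
      Relation.ReflTransGen (fun A B : Subgroup P => Cfsg.IsElementaryAbelian 3 A ∧
        3 ^ 2 ≤ Nat.card ↥A ∧ Cfsg.IsElementaryAbelian 3 B ∧
        3 ^ 2 ≤ Nat.card ↥B ∧ ∀ a ∈ A, ∀ b ∈ B, a * b = b * a) X A := by
    intro X hX hXc
    have hXcomm := (Cfsg.Agent.H13.ea_iff.mp hX).1
    have hex : ∃ x ∈ X, x ∉ Subgroup.zpowers a := by
      by_contra hcon
      push Not at hcon
      have := Subgroup.card_le_of_le (show X ≤ Subgroup.zpowers a from hcon)
      rw [Nat.card_zpowers, hoa] at this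
      norm_num at hXc
      omega
    obtain ⟨x, hxX, hxa⟩ := hex
    have hx3 : x ^ 3 = 1 := hX.2 x hxX
    set B : Subgroup P := Subgroup.zpowers a ⊔ Subgroup.zpowers x with hB
    have hBea : Cfsg.IsElementaryAbelian 3 B := by
      rw [Cfsg.Agent.H13.ea_iff]
      refine Cfsg.Agent.H3.elemAb_sup_zpowers (Subgroup.zpowers a) ?_ ?_ x hx3 ?_
      · intro u hu v hv
        obtain ⟨i, rfl⟩ := Subgroup.mem_zpowers_iff.mp hu
        obtain ⟨j, rfl⟩ := Subgroup.mem_zpowers_iff.mp hv
        exact ((Commute.refl a).zpow_zpow i j).eq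
      · intro u hu
        obtain ⟨i, rfl⟩ := Subgroup.mem_zpowers_iff.mp hu
        rw [← zpow_natCast, ← zpow_mul, mul_comm, zpow_mul, zpow_natCast, ha3, one_zpow]
      · intro u hu
        obtain ⟨i, rfl⟩ := Subgroup.mem_zpowers_iff.mp hu
        exact (Subgroup.mem_center_iff.mp (Subgroup.zpow_mem _ hacen i) x).symm
    have hBc : 3 ^ 2 ≤ Nat.card B := by
      obtain ⟨k, hk⟩ := IsPGroup.iff_card.mp (hP.to_subgroup B)
      have hgt : 3 < Nat.card B := by
        by_contra hle2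
        push Not at hle2
        have := Subgroup.eq_of_le_of_card_ge (le_sup_left : Subgroup.zpowers a ≤
          Subgroup.zpowers a ⊔ Subgroup.zpowers x) (by rw [Nat.card_zpowers, hoa]; exact hle2)
        apply hxa
        rw [this]
        exact (le_sup_right : Subgroup.zpowers x ≤ _) (Subgroup.mem_zpowers x)
      have hk2 : 2 ≤ k := by
        by_contra hlt
        push Not at hlt
        have : 3 ^ k ≤ 3 ^ 1 := Nat.pow_le_pow_right (by norm_num) (by omega)
        omega
      rw [hk]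
      exact Nat.pow_le_pow_right (by norm_num) hk2
    set C : Subgroup P := A ⊓ Subgroup.centralizer {x} with hC
    have hCc : 3 ^ 2 ≤ Nat.card C :=
      nine_le_card_inf_centralizer A hAn hAcomm hAe hAcard x hx3
    have hCea : Cfsg.IsElementaryAbelian 3 C := Cfsg.Agent.H13.ea_mono inf_le_left hA
    have hBX : B ≤ Subgroup.centralizer (X : Set P) := by
      refine sup_le ?_ ?_
      · rw [Subgroup.zpowers_le]
        exact Subgroup.center_le_centralizer _ hacen
      · rw [Subgroup.zpowers_le, Subgroup.mem_centralizer_iff]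
        intro h hh
        exact hXcomm h hh x hxX
    have hBC : B ≤ Subgroup.centralizer (C : Set P) := by
      refine sup_le ?_ ?_
      · rw [Subgroup.zpowers_le]
        exact Subgroup.center_le_centralizer _ hacen
      · rw [Subgroup.zpowers_le, Subgroup.mem_centralizer_iff]
        intro h hh
        exact Subgroup.mem_centralizer_singleton_iff.mp hh.2
    refine Relation.ReflTransGen.head (b := B) ⟨hX, hXc, hBea, hBc, ?_⟩
      (Relation.ReflTransGen.head (b := C) ⟨hBea, hBc, hCea, hCc, ?_⟩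
        (Relation.ReflTransGen.head (b := A) ⟨hCea, hCc, hA, hA9, ?_⟩
          Relation.ReflTransGen.refl))
    · intro u hu b hb
      exact Subgroup.mem_centralizer_iff.mp (hBX hb) u hu
    · intro b hb u hu
      exact (Subgroup.mem_centralizer_iff.mp (hBC hb) u hu).symm
    · intro u hu b hb
      exact hAcomm u hu.1 b hb
  intro E₁ E₂ h1 h1c h2 h2c
  have hsymm : ∀ A₁ B₁ : Subgroup P, (Cfsg.IsElementaryAbelian 3 A₁ ∧
        3 ^ 2 ≤ Nat.card ↥A₁ ∧ Cfsg.IsElementaryAbelian 3 B₁ ∧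
        3 ^ 2 ≤ Nat.card ↥B₁ ∧ ∀ a ∈ A₁, ∀ b ∈ B₁, a * b = b * a) →
      (Cfsg.IsElementaryAbelian 3 B₁ ∧
        3 ^ 2 ≤ Nat.card ↥B₁ ∧ Cfsg.IsElementaryAbelian 3 A₁ ∧
        3 ^ 2 ≤ Nat.card ↥A₁ ∧ ∀ a ∈ B₁, ∀ b ∈ A₁, a * b = b * a) := by
    rintro A₁ B₁ ⟨hh1, hh2, hh3, hh4, hh5⟩
    exact ⟨hh3, hh4, hh1, hh2, fun a ha b hb => (hh5 b hb a ha).symm⟩
  have hrev : ∀ X Y : Subgroup P, Relation.ReflTransGen (fun A B : Subgroup P =>
        Cfsg.IsElementaryAbelian 3 A ∧
        3 ^ 2 ≤ Nat.card ↥A ∧ Cfsg.IsElementaryAbelian 3 B ∧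
        3 ^ 2 ≤ Nat.card ↥B ∧ ∀ a ∈ A, ∀ b ∈ B, a * b = b * a) X Y →
      Relation.ReflTransGen (fun A B : Subgroup P => Cfsg.IsElementaryAbelian 3 A ∧
        3 ^ 2 ≤ Nat.card ↥A ∧ Cfsg.IsElementaryAbelian 3 B ∧
        3 ^ 2 ≤ Nat.card ↥B ∧ ∀ a ∈ A, ∀ b ∈ B, a * b = b * a) Y X := by
    intro X Y h
    induction h with
    | refl => exact Relation.ReflTransGen.refl
    | tail _ hbc ih => exact Relation.ReflTransGen.head (hsymm _ _ hbc) ih
  exact (key E₁ h1 h1c).trans (hrev _ _ (key E₂ h2 h2c))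

end Cfsg.Agent.H28
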