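import Mathlib
import Cfsg.Agent.H77.TmDefs2
import Cfsg.Agent.H99.ElSTR

/-!
# S5987-BLOCKMINUS (helper28, for helper77)

For `i = ord_r(q)` even, a nondegenerate quadratic space of dimension `i` over `F_q` with a
nontrivial isometry `T` of order `r` has no totally singular subspace of dimension `i / 2`.

Proof: `T` has no nonzero fixed vectors, so `⟨T⟩` acts freely on the nonzero singular vectors and
`r` divides their number.  If `L` is totally singular of dimension `h = i / 2` then `L^⊥ = L` and
counting along `V = L ⊕ M` gives `(q^h - 1)(q^(h-1) + 1)` nonzero singular vectors, which is prime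
to `r`.
-/

set_option autoImplicit false
open scoped MatrixGroups
open scoped Matrix

namespace Cfsg.Agent.H28.Tm

open Cfsg.Agent.H77.Tm Cfsg.Agent.H42.Ti Module

universe u v

section count

variable {F : Type u} [Field F] [Fintype F]

/-- The fibres of a nonzero linear functional over a finite field. -/
theorem card_fiber_mul {L : Type v} [AddCommGroup L] [Module F L] (f : L →ₗ[F] F) (hf : f ≠ 0)
    (c : F) : Nat.card {l : L // f l = c} * Fintype.card F = Nat.card L := by
  obtain ⟨l₀, hl₀⟩ : ∃ l₀, f l₀ ≠ 0 := by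
    by_contra hcon
    apply hf
    ext x
    by_contra hx
    exact hcon ⟨x, hx⟩
  obtain ⟨l₁, hl₁⟩ : ∃ l₁, f l₁ = 1 :=
    ⟨(f l₀)⁻¹ • l₀, by rw [map_smul, smul_eq_mul, inv_mul_cancel₀ hl₀]⟩
  have e : {l : L // f l = c} × F ≃ L :=
    { toFun := fun x => x.1.1 + x.2 • l₁
      invFun := fun y => (⟨y - (f y - c) • l₁, by
        rw [map_sub, map_smul, hl₁, smul_eq_mul, mul_one]; ring⟩, f y - c)
      left_inv := by
        rintro ⟨⟨l, hl⟩, t⟩
        have h1 : f (l + t • l₁) - c = t := by
          rw [map_add, map_smul, hl₁, hl, smul_eq_mul, mul_one]; ring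
        refine Prod.ext (Subtype.ext ?_) ?_
        · show l + t • l₁ - (f (l + t • l₁) - c) • l₁ = l
          rw [h1]; abel
        · exact h1
      right_inv := by
        intro y
        show y - (f y - c) • l₁ + (f y - c) • l₁ = y
        abel }
  rw [← Nat.card_congr e, Nat.card_prod, Nat.card_eq_fintype_card (α := F)]

variable {V : Type v} [AddCommGroup V] [Module F V] [FiniteDimensional F V]

theorem natCard_sub (W : Submodule F V) : Nat.card W = Fintype.card F ^ finrank F W := by
  rw [Module.natCard_eq_pow_finrank (K := F), Nat.card_eq_fintype_card]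

/-- The number of singular vectors of a quadratic space of dimension `2 h` with a totally singular
subspace `L = L^⊥` of dimension `h`. -/
theorem card_sing_of_half (Q : QuadraticForm F V) (L : Submodule F V) (hL : TS Q L) (h : ℕ)
    (hh : 1 ≤ h) (hV : finrank F V = 2 * h) (hLd : finrank F L = h)
    (hperp : ∀ x : V, (∀ l ∈ L, QuadraticMap.polar ⇑Q l x = 0) → x ∈ L) :
    Nat.card {v : V // Q v = 0} =
      Fintype.card F ^ h + (Fintype.card F ^ h - 1) * Fintype.card F ^ (h - 1) := by
  classical
  have hfin : Finite V := Module.finite_of_finite F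
  obtain ⟨M, hM⟩ := Submodule.exists_isCompl L
  have hMd : finrank F M = h := by
    have := Submodule.finrank_add_eq_of_isCompl hM
    omega
  have hfM : Fintype M := Fintype.ofFinite M
  have hq : 0 < Fintype.card F := Fintype.card_pos
  -- reduce to pairs
  have h1 : Nat.card {v : V // Q v = 0} =
      Nat.card {x : M × L // Q ((x.1 : V) + (x.2 : V)) = 0} := by
    apply Nat.card_congr
    refine (Equiv.subtypeEquiv (Submodule.prodEquivOfIsCompl M L hM.symm).toEquiv ?_).symm
    intro x
    rw [LinearEquiv.coe_toEquiv, Submodule.coe_prodEquivOfIsCompl']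
  have h2 : Nat.card {x : M × L // Q ((x.1 : V) + (x.2 : V)) = 0} =
      ∑ m : M, Nat.card {l : L // Q ((m : V) + (l : V)) = 0} := by
    rw [Nat.card_congr (Equiv.subtypeProdEquivSigmaSubtype
      (fun (m : M) (l : L) => Q ((m : V) + (l : V)) = 0)), Nat.card_sigma]
  have h3 : Nat.card {l : L // Q (((0 : M) : V) + (l : V)) = 0} = Fintype.card F ^ h := by
    rw [← hLd, ← natCard_sub L]
    apply Nat.card_congr
    refine Equiv.subtypeUnivEquiv ?_
    intro l
    rw [Submodule.coe_zero, zero_add]
    exact hL _ l.2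
  have h4 : ∀ m : M, m ≠ 0 →
      Nat.card {l : L // Q ((m : V) + (l : V)) = 0} = Fintype.card F ^ (h - 1) := by
    intro m hm
    obtain ⟨f, hf⟩ : ∃ f : L →ₗ[F] F, ∀ l : L, f l = QuadraticMap.polar ⇑Q (l : V) (m : V) :=
      ⟨((QuadraticMap.polarBilin Q).flip (m : V)).comp L.subtype, fun l => rfl⟩
    have hfne : f ≠ 0 := by
      intro h0
      have hmL : (m : V) ∈ L := by
        apply hperp
        intro l hl
        have := hf ⟨l, hl⟩
        rw [h0] at this
        exact this.symm
      have : (m : V) ∈ L ⊓ M := ⟨hmL, m.2⟩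
      rw [hM.inf_eq_bot, Submodule.mem_bot] at this
      exact hm (Subtype.ext this)
    have h5 := card_fiber_mul f hfne (-Q (m : V))
    rw [natCard_sub L, hLd] at h5
    have h6 : Nat.card {l : L // Q ((m : V) + (l : V)) = 0} =
        Nat.card {l : L // f l = -Q (m : V)} := by
      apply Nat.card_congr
      refine Equiv.subtypeEquivRight ?_
      intro l
      rw [hf]
      have h7 : Q ((m : V) + (l : V)) =
          Q (m : V) + QuadraticMap.polar ⇑Q (l : V) (m : V) := by
        unfold QuadraticMap.polar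
        rw [hL _ l.2, add_comm (l : V) (m : V)]
        ring
      rw [h7]
      constructor
      · intro h8; linear_combination h8
      · intro h8; linear_combination h8
    rw [h6]
    have h8 : Fintype.card F ^ h = Fintype.card F ^ (h - 1) * Fintype.card F := by
      rw [← pow_succ, Nat.sub_add_cancel hh]
    rw [h8] at h5
    exact Nat.eq_of_mul_eq_mul_right hq h5
  rw [h1, h2, ← Finset.add_sum_erase Finset.univ _ (Finset.mem_univ (0 : M)), h3]
  congr 1
  rw [Finset.sum_congr rfl (fun m hm => h4 m (Finset.ne_of_mem_erase hm)), Finset.sum_const,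
    Finset.card_erase_of_mem (Finset.mem_univ _), Finset.card_univ, smul_eq_mul,
    ← Nat.card_eq_fintype_card, natCard_sub M, hMd]

end count

/-- S5987-BLOCKMINUS (no hypothesis needed). -/
theorem blockMinus' : StBlockMinus.{u, v} := by
  intro F _ _ V _ _ _ r Q T hctx heven hdim hT1 L hL
  classical
  by_contra hcon
  have hr := hctx.prime
  have : Fact r.Prime := ⟨hr⟩
  obtain ⟨i, hi⟩ : ∃ i : ℕ, i = orderOf (Fintype.card F : ZMod r) := ⟨_, rfl⟩
  have hii : ii F r = i := by rw [hi]; rfl
  rw [hii] at heven hdim hcon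
  have hcon' : i ≤ 2 * finrank F L := by omega
  have hipos : 0 < i := by rw [hi]; exact Cfsg.Agent.H99.El.orderOf_card_pos r hr hctx.cast_ne
  obtain ⟨h, hh⟩ := heven
  have hh1 : 1 ≤ h := by omega
  have hq : 0 < Fintype.card F := Fintype.card_pos
  -- `T` has no nonzero fixed vectors
  have hker : LinearMap.ker (T - 1) = ⊥ := by
    obtain ⟨a, ha⟩ := Cfsg.Agent.H99.El.finrank_invariant_mod T r hr hctx.cast_ne hctx.pow ⊤
      (fun v _ => Submodule.mem_top)
    rw [finrank_top, top_inf_eq, ← hi, hdim] at ha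
    rcases Nat.eq_zero_or_pos a with h0 | hpos
    · exfalso
      rw [h0, zero_mul, add_zero] at ha
      have h1 : LinearMap.ker (T - 1) = ⊤ :=
        Submodule.eq_top_of_finrank_eq (by rw [← ha, hdim])
      apply hT1
      have h2 : T - 1 = 0 := LinearMap.ker_eq_top.mp h1
      exact sub_eq_zero.mp h2
    · have h1 : i ≤ a * i := Nat.le_mul_of_pos_left i hpos
      have h2 : finrank F (LinearMap.ker (T - 1)) = 0 := by omega
      exact Submodule.finrank_eq_zero.mp h2
  -- `L^⊥ = L`
  obtain ⟨B, hB⟩ : ∃ B : LinearMap.BilinForm F V, B = QuadraticMap.polarBilin Q := ⟨_, rfl⟩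
  have hBa : ∀ x y, B x y = QuadraticMap.polar ⇑Q x y := by
    intro x y; rw [hB]; rfl
  have hBnd : B.Nondegenerate := by
    refine ⟨fun x hx => hctx.nondeg x (fun y => by rw [← hBa]; exact hx y),
      fun y hy => hctx.nondeg y (fun x => by rw [QuadraticMap.polar_comm, ← hBa]; exact hy x)⟩
  have hLle : L ≤ B.orthogonal L := by
    intro x hx
    rw [LinearMap.BilinForm.mem_orthogonal_iff]
    intro n hn
    show B n x = 0
    rw [hBa]
    unfold QuadraticMap.polar
    rw [hL _ (L.add_mem hn hx), hL n hn, hL x hx]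
    simp
  have hfo := LinearMap.BilinForm.finrank_orthogonal hBnd L
  have hle := Submodule.finrank_mono hLle
  have hLd : finrank F L = h := by omega
  have horth : L = B.orthogonal L := by
    apply Submodule.eq_of_le_of_finrank_eq hLle
    omega
  have hperp : ∀ x : V, (∀ l ∈ L, QuadraticMap.polar ⇑Q l x = 0) → x ∈ L := by
    intro x hx
    rw [horth, LinearMap.BilinForm.mem_orthogonal_iff]
    intro n hn
    show B n x = 0
    rw [hBa]
    exact hx n hn
  have hcount := card_sing_of_half Q L hL h hh1 (by omega) hLd hperp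
  -- the free action on the nonzero singular vectors
  have hfin : Finite V := Module.finite_of_finite F
  have hfV : Fintype V := Fintype.ofFinite V
  have hTr : ∀ v : V, (T ^ r) v = v := fun v => by rw [hctx.pow]; rfl
  have hT0 : ∀ v : V, T v = 0 → v = 0 := by
    intro v hv
    have h1 := hTr v
    rw [← Nat.sub_add_cancel hr.one_lt.le, pow_succ, Module.End.mul_apply, hv, map_zero] at h1
    exact h1.symm
  obtain ⟨f, hf⟩ : ∃ f : {v : V // Q v = 0 ∧ v ≠ 0} → {v : V // Q v = 0 ∧ v ≠ 0},
      ∀ v, (f v).1 = T v.1 :=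
    ⟨fun v => ⟨T v.1, by rw [hctx.isom]; exact v.2.1, fun h0 => v.2.2 (hT0 _ h0)⟩, fun v => rfl⟩
  have hfinj : Function.Injective f := by
    intro x y hxy
    have h1 : T x.1 = T y.1 := by rw [← hf, ← hf, hxy]
    have h2 : T (x.1 - y.1) = 0 := by rw [map_sub, h1, sub_self]
    exact Subtype.ext (sub_eq_zero.mp (hT0 _ h2))
  obtain ⟨σ, hσ⟩ : ∃ σ : Equiv.Perm {v : V // Q v = 0 ∧ v ≠ 0}, ∀ v, σ v = f v :=
    ⟨Equiv.ofBijective f hfinj.bijective_of_finite, fun v => rfl⟩
  have hσpow : ∀ n : ℕ, ∀ v : {v : V // Q v = 0 ∧ v ≠ 0}, ((σ ^ n) v).1 = (T ^ n) v.1 := by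
    intro n
    induction n with
    | zero => intro v; simp
    | succ n ih =>
      intro v
      rw [pow_succ', Equiv.Perm.mul_apply, pow_succ', Module.End.mul_apply, ← ih v, hσ, hf]
  have hσr : σ ^ r ^ 1 = 1 := by
    rw [pow_one]
    ext v
    rw [hσpow, hTr]
    rfl
  have hdvd : r ∣ Fintype.card {v : V // Q v = 0 ∧ v ≠ 0} := by
    by_contra hnd
    obtain ⟨a, ha⟩ := Equiv.Perm.exists_fixed_point_of_prime hnd hσr
    have h1 : T a.1 = a.1 := by rw [← hf, ← hσ, ha]
    have h2 : a.1 ∈ LinearMap.ker (T - 1) := (Cfsg.Agent.H99.El.mem_ker_sub_one T a.1).mpr h1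
    rw [hker, Submodule.mem_bot] at h2
    exact a.2.2 h2
  have hcard : Fintype.card {v : V // Q v = 0 ∧ v ≠ 0} + 1 = Nat.card {v : V // Q v = 0} := by
    rw [Nat.card_eq_fintype_card, Fintype.card_subtype, Fintype.card_subtype,
      ← Finset.filter_filter, Finset.filter_ne',
      Finset.card_erase_of_mem (by simp)]
    have : 0 < (Finset.univ.filter (fun v : V => Q v = 0)).card :=
      Finset.card_pos.mpr ⟨0, by simp⟩
    omega
  -- arithmetic
  obtain ⟨N, hN⟩ : ∃ N : ℕ, Fintype.card F ^ h = N + 1 :=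
    ⟨Fintype.card F ^ h - 1, by have := Nat.one_le_pow h _ hq; omega⟩
  have hprod : Fintype.card {v : V // Q v = 0 ∧ v ≠ 0} = N * (Fintype.card F ^ (h - 1) + 1) := by
    rw [hcount, hN, Nat.add_sub_cancel] at hcard
    linarith
  rw [hprod] at hdvd
  rcases (Nat.Prime.dvd_mul hr).mp hdvd with h1 | h1
  · have h2 : (Fintype.card F : ZMod r) ^ h = 1 := by
      have h3 := (ZMod.natCast_eq_zero_iff N r).mpr h1
      have h4 : ((Fintype.card F ^ h : ℕ) : ZMod r) = ((N + 1 : ℕ) : ZMod r) := by rw [hN]
      rw [Nat.cast_pow, Nat.cast_add, h3, zero_add, Nat.cast_one] at h4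
      exact h4
    have h5 := orderOf_dvd_of_pow_eq_one h2
    rw [← hi] at h5
    have := Nat.le_of_dvd (by omega) h5
    omega
  · by_cases hh2 : h = 1
    · rw [hh2] at h1
      have h2 : r ∣ 2 := by simpa using h1
      exact hctx.ne_two ((Nat.prime_dvd_prime_iff_eq hr Nat.prime_two).mp h2)
    · have h2 : (Fintype.card F : ZMod r) ^ (h - 1) = -1 := by
        have h3 := (ZMod.natCast_eq_zero_iff _ r).mpr h1
        rw [Nat.cast_add, Nat.cast_pow, Nat.cast_one] at h3
        exact eq_neg_of_add_eq_zero_left h3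
      have h4 : (Fintype.card F : ZMod r) ^ (2 * (h - 1)) = 1 := by
        rw [mul_comm, pow_mul, h2]
        simp
      have h5 := orderOf_dvd_of_pow_eq_one h4
      rw [← hi] at h5
      have := Nat.le_of_dvd (by omega) h5
      omega

/-- S5987-BLOCKMINUS in the announced form. -/
theorem blockMinus (_hOrd : StOrd) : StBlockMinus.{u, v} := blockMinus'

example (hOrd : Cfsg.Agent.H77.Tm.StOrd) : Cfsg.Agent.H77.Tm.StBlockMinus.{u, v} :=
  blockMinus hOrd

end Cfsg.Agent.H28.Tm

#print axioms Cfsg.Agent.H28.Tm.blockMinus
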