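import Mathlib
import Cfsg.Agent.H77.TmDefs2
import Cfsg.Agent.H28.TmExOdd

/-!
# S5987-ODDMEM (helper28, for helper77): isometries of odd order lie in `Ω`
(all characteristics, dimension at least five).
-/

set_option autoImplicit false
open scoped MatrixGroups
open scoped Matrix

namespace Cfsg.Agent.H28.Tm

open Cfsg.Agent.H77.Tm Module

universe u

/-- S5987-ODDMEM. -/
theorem oddMemAll : StOddMemAll.{u} := by
  intro F _ _ ι _ _ Q hQ h5 g r hg hr hgr
  have h5' : 5 ≤ finrank F (ι → F) := by
    rw [Module.finrank_fintype_fun_eq_card]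
    exact h5
  exact oddMemAll' Q hQ h5' g r hg hr hgr

example : Cfsg.Agent.H77.Tm.StOddMemAll.{u} := oddMemAll

end Cfsg.Agent.H28.Tm

#print axioms Cfsg.Agent.H28.Tm.oddMemAll
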