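import Mathlib
import Cfsg.Agent.H77.TmDefs2
import Cfsg.Agent.H99.ElSTR

/-!
# S5987-TYPEU (helper28, for helper77)

For `i = ord_r(q)` even, the non-fixed part `U = range (T - 1)` of an isometry `T` of odd prime
order `r` of a quadratic space, `dim U = i A`, has a totally singular subspace of half dimension
iff `A` is even.

`U` is the orthogonal sum of `A` invariant nondegenerate blocks of dimension `i` (QTRICK + DECOMP),
each of minus type (BLOCKMINUS); then induction on the number of blocks with MINUSSUM and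
COMPLPLUS.
-/

set_option autoImplicit false
open scoped MatrixGroups
open scoped Matrix

namespace Cfsg.Agent.H28.Tm

open Cfsg.Agent.H45 Cfsg.Agent.H42.Spd Cfsg.Agent.H42.Ti Cfsg.Agent.H77.Tm Module

universe u v

section aux

variable {F : Type u} [Field F] {V : Type v} [AddCommGroup V] [Module F V]

/-- A subspace has subspaces of every smaller dimension. -/
theorem tu_exists_le_finrank_eq [FiniteDimensional F V] (U : Submodule F V) (n : ℕ)
    (hn : n ≤ finrank F U) : ∃ U₁ : Submodule F V, U₁ ≤ U ∧ finrank F U₁ = n := by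
  obtain ⟨b, -⟩ : ∃ b : Basis (Fin (finrank F U)) F U, b = Module.finBasis F U := ⟨_, rfl⟩
  refine ⟨Submodule.span F (Set.range (fun i : Fin n => (b (Fin.castLE hn i) : V))), ?_, ?_⟩
  · rw [Submodule.span_le]
    rintro _ ⟨i, rfl⟩
    exact (b _).2
  · have h1 : LinearIndependent F (fun i => (b i : V)) :=
      b.linearIndependent.map' U.subtype (Submodule.ker_subtype U)
    have hli : LinearIndependent F (fun i : Fin n => (b (Fin.castLE hn i) : V)) :=
      h1.comp _ (Fin.castLE_injective hn)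
    rw [finrank_span_eq_card hli, Fintype.card_fin]

theorem tu_iSup_fin_last (t : ℕ) (E : Fin (t + 1) → Submodule F V) :
    (⨆ j, E j) = (⨆ j : Fin t, E j.castSucc) ⊔ E (Fin.last t) := by
  apply le_antisymm
  · apply iSup_le
    intro j
    refine Fin.lastCases ?_ (fun j' => ?_) j
    · exact le_sup_right
    · exact le_trans (le_iSup (fun j : Fin t => E j.castSucc) j') le_sup_left
  · apply sup_le
    · exact iSup_le (fun j => le_iSup E j.castSucc)
    · exact le_iSup E (Fin.last t)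

theorem tu_pol (Q : QuadraticForm F V) (x y : V) :
    pol Q x y = QuadraticMap.polar ⇑Q x y := rfl

/-- The orthogonal sum of `t` nondegenerate minus-type spaces of dimension `2 h` has type
`(-1) ^ t`. -/
theorem typeU_aux [Fintype F] [FiniteDimensional F V] (hMS : StMinusSum.{u, v})
    (hCP : StComplPlus.{u, v}) (Q : QuadraticForm F V) (h : ℕ) :
    ∀ (t : ℕ) (E : Fin t → Submodule F V),
      (∀ j, E j ⊓ perp (pol Q) (E j) = ⊥) → (∀ j, finrank F (E j) = 2 * h) →
      (∀ j, ∀ L : Submodule F V, L ≤ E j → TS Q L → finrank F L < h) →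
      (∀ j j', j ≠ j' → E j' ≤ perp (pol Q) (E j)) →
      ((⨆ j, E j) ⊓ perp (pol Q) (⨆ j, E j) = ⊥) ∧ finrank F ↥(⨆ j, E j) = 2 * (h * t) ∧
      (Even t → ∃ L : Submodule F V, L ≤ ⨆ j, E j ∧ TS Q L ∧ finrank F L = h * t) ∧
      (Odd t → ∀ L : Submodule F V, L ≤ ⨆ j, E j → TS Q L → finrank F L < h * t) := by
  intro t
  induction t with
  | zero =>
    intro E _ _ _ _
    have h0 : (⨆ j, E j) = ⊥ := by
      rw [iSup_eq_bot]
      intro j
      exact j.elim0
    rw [h0]
    refine ⟨bot_inf_eq _, by simp, fun _ => ⟨⊥, le_refl _, ?_, by simp⟩, fun hodd => ?_⟩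
    · intro u hu
      rw [Submodule.mem_bot] at hu
      rw [hu, map_zero]
    · exact absurd hodd (by decide)
  | succ t ih =>
    intro E hnd hdim hminus horth
    obtain ⟨S, hS⟩ : ∃ S : Submodule F V, S = ⨆ j : Fin t, E j.castSucc := ⟨_, rfl⟩
    obtain ⟨C, hC⟩ : ∃ C : Submodule F V, C = E (Fin.last t) := ⟨_, rfl⟩
    have hsup : (⨆ j, E j) = S ⊔ C := by
      rw [hS, hC]
      exact tu_iSup_fin_last t E
    obtain ⟨iha, ihb, ihc, ihd⟩ := ih (fun j => E j.castSucc) (fun j => hnd _)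
      (fun j => hdim _) (fun j => hminus _)
      (fun j j' hjj' => horth _ _ (fun h => hjj' (Fin.castSucc_injective _ h)))
    rw [← hS] at iha ihb ihc ihd
    have hCnd : C ⊓ perp (pol Q) C = ⊥ := by rw [hC]; exact hnd _
    have hCdim : finrank F C = 2 * h := by rw [hC]; exact hdim _
    have hCminus : ∀ L : Submodule F V, L ≤ C → TS Q L → finrank F L < h := by
      rw [hC]; exact hminus _
    have hSC : ∀ s ∈ S, ∀ c ∈ C, QuadraticMap.polar ⇑Q c s = 0 := by
      have h1 : S ≤ perp (pol Q) C := by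
        rw [hS, hC]
        apply iSup_le
        intro j
        exact horth (Fin.last t) j.castSucc (Fin.castSucc_lt_last j).ne'
      intro s hs c hc
      exact (mem_perp (pol Q) C s).mp (h1 hs) c hc
    have hCS : ∀ c ∈ C, ∀ s ∈ S, QuadraticMap.polar ⇑Q s c = 0 := by
      intro c hc s hs
      rw [QuadraticMap.polar_comm]
      exact hSC s hs c hc
    have hdisj : S ⊓ C = ⊥ := by
      rw [eq_bot_iff]
      intro x hx
      rw [← hCnd]
      exact ⟨hx.2, (mem_perp (pol Q) C x).mpr (fun c hc => hSC x hx.1 c hc)⟩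
    have hnd' : (S ⊔ C) ⊓ perp (pol Q) (S ⊔ C) = ⊥ := by
      rw [eq_bot_iff]
      rintro x ⟨hx1, hx2⟩
      have hx2' := (mem_perp (pol Q) (S ⊔ C) x).mp hx2
      obtain ⟨s, hs, c, hc, rfl⟩ := Submodule.mem_sup.mp hx1
      have hs0 : s = 0 := by
        have h2 : s ∈ S ⊓ perp (pol Q) S := by
          refine ⟨hs, (mem_perp (pol Q) S s).mpr (fun s' hs' => ?_)⟩
          have h1 := hx2' s' (Submodule.mem_sup_left hs')
          rw [map_add, tu_pol Q s' c, hCS c hc s' hs', add_zero] at h1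
          exact h1
        rw [iha] at h2
        exact (Submodule.mem_bot F).mp h2
      have hc0 : c = 0 := by
        have h2 : c ∈ C ⊓ perp (pol Q) C := by
          refine ⟨hc, (mem_perp (pol Q) C c).mpr (fun c' hc' => ?_)⟩
          have h1 := hx2' c' (Submodule.mem_sup_right hc')
          rw [map_add, tu_pol Q c' s, hSC s hs c' hc', zero_add] at h1
          exact h1
        rw [hCnd] at h2
        exact (Submodule.mem_bot F).mp h2
      rw [hs0, hc0, add_zero]
      exact Submodule.zero_mem _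
    have hdim' : finrank F ↥(S ⊔ C) = 2 * (h * (t + 1)) := by
      have h1 := Submodule.finrank_sup_add_finrank_inf_eq S C
      rw [hdisj, finrank_bot] at h1
      have h2 : h * (t + 1) = h * t + h := by ring
      omega
    rw [hsup]
    refine ⟨hnd', hdim', ?_, ?_⟩
    · intro hev
      have hodd : Odd t := Nat.not_even_iff_odd.mp (Nat.even_add_one.mp hev)
      obtain ⟨M, hM1, hM2, hM3⟩ := hMS F V Q S C (h * t) h iha hCnd
        (fun x hx y hy => hCS y hy x hx) ihb hCdim (ihd hodd) hCminus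
      exact ⟨M, hM1, hM2, by rw [hM3]; ring⟩
    · intro hodd M hM hMts
      have hev : Even t := Nat.not_odd_iff_even.mp (Nat.odd_add_one.mp hodd)
      by_contra hcon
      have hge : h * (t + 1) ≤ finrank F M := by omega
      obtain ⟨M₀, hM₀le, hM₀d⟩ := tu_exists_le_finrank_eq M _ hge
      obtain ⟨L₀, hL₀1, hL₀2, hL₀3⟩ := ihc hev
      obtain ⟨N, hN1, hN2, hN3⟩ := hCP F V Q C S L₀ M₀ (fun c hc u hu => hSC u hu c hc) iha
        hL₀1 hL₀2 (by rw [hL₀3, ihb]) (by rw [sup_comm]; exact hM₀le.trans hM)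
        (fun u hu => hMts u (hM₀le hu)) (by rw [sup_comm, hdim', hM₀d])
      have := hCminus N hN1 hN2
      omega

end aux

/-- S5987-TYPEU. -/
theorem typeU (hT : StQTrick.{u, v}) (hDec : StDecomp.{u, v}) (hBM : StBlockMinus.{u, v})
    (hMS : StMinusSum.{u, v}) (hCP : StComplPlus.{u, v}) : StTypeU.{u, v} := by
  intro F _ _ V _ _ _ r Q T hctx heven A hdimU
  classical
  obtain ⟨V', _, _, _, Af, T', ι, hctx', hinj, hcomm, hrange, hker, -, -, horth⟩ :=
    hT F V r Q T hctx
  have hr := hctx.prime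
  obtain ⟨i, hi⟩ : ∃ i : ℕ, i = ii F r := ⟨_, rfl⟩
  rw [← hi] at heven hdimU
  have hipos : 0 < i := by
    rw [hi]
    exact Cfsg.Agent.H99.El.orderOf_card_pos r hr hctx.cast_ne
  have hev' : Even (orderOf (Fintype.card F : ZMod r)) := by
    rw [hi] at heven
    exact heven
  have hcc : cc F r = i := by
    unfold cc
    rw [if_pos hev', hi]
    rfl
  obtain ⟨h, hh⟩ := heven
  -- the blocks in `V'`
  have hNd : Nd Af T' ⊤ := by
    refine ⟨(Module.End.mem_invtSubmodule_iff_forall_mem_of_mem T').mpr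
      (fun x _ => Submodule.mem_top), ?_⟩
    rw [eq_bot_iff]
    rintro x ⟨-, hx⟩
    have hx' := (mem_perp Af ⊤ x).mp hx
    have : x = 0 := hctx'.good.nondeg' x (fun u => hx' u Submodule.mem_top)
    rw [this]
    exact Submodule.zero_mem _
  have hfinV' : finrank F ↥(⊤ : Submodule F V') = i * A := by
    rw [finrank_top, ← LinearMap.finrank_range_of_inj hinj, hrange, hdimU]
  obtain ⟨D, hD1, hD2, hD3⟩ := hDec F V' r Af T' hctx' i A ⊤ hNd ⟨h, hh⟩ hfinV'
    (by rw [hcc, Nat.mod_self, Nat.mul_zero]; exact Nat.zero_le _)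
  have hDinv : ∀ j, ∀ x ∈ D j, T' x ∈ D j := fun j =>
    (Module.End.mem_invtSubmodule_iff_forall_mem_of_mem T').mp (hD1 j).2.1.1
  -- the blocks in `V`
  obtain ⟨E, hE⟩ : ∃ E : Fin A → Submodule F V, ∀ j, E j = (D j).map ι :=
    ⟨fun j => (D j).map ι, fun j => rfl⟩
  have hEdim : ∀ j, finrank F (E j) = 2 * h := by
    intro j
    rw [hE, ← (Submodule.equivMapOfInjective ι hinj (D j)).finrank_eq, (hD1 j).2.2]
    omega
  have hEorth : ∀ j j', j ≠ j' → E j' ≤ perp (pol Q) (E j) := by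
    intro j j' hjj' y hy
    rw [mem_perp]
    intro u hu
    rw [hE] at hy hu
    obtain ⟨x, hx, rfl⟩ := hy
    obtain ⟨w, hw, rfl⟩ := hu
    exact ((horth (D j) (hD1 j).2.1.1 x).mp
      (fun w hw => (mem_perp Af (D j) x).mp (hD2 j j' hjj' hx) w hw)) w hw
  have hEnd : ∀ j, E j ⊓ perp (pol Q) (E j) = ⊥ := by
    intro j
    rw [eq_bot_iff]
    rintro y ⟨hy1, hy2⟩
    have hy2' := (mem_perp (pol Q) (E j) y).mp hy2
    rw [SetLike.mem_coe, hE] at hy1
    obtain ⟨x, hx, rfl⟩ := hy1
    have h1 : ∀ w ∈ D j, Af w x = 0 := by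
      apply (horth (D j) (hD1 j).2.1.1 x).mpr
      intro w hw
      exact hy2' (ι w) (by rw [hE]; exact Submodule.mem_map_of_mem hw)
    have h2 : x ∈ D j ⊓ perp Af (D j) := ⟨hx, (mem_perp Af (D j) x).mpr h1⟩
    rw [(hD1 j).2.1.2, Submodule.mem_bot] at h2
    rw [h2, map_zero]
    exact Submodule.zero_mem _
  have hEinv : ∀ j, ∀ y ∈ E j, T y ∈ E j := by
    intro j y hy
    rw [hE] at hy ⊢
    obtain ⟨x, hx, rfl⟩ := hy
    rw [← hcomm]
    exact Submodule.mem_map_of_mem (hDinv j x hx)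
  have hEminus : ∀ j, ∀ L : Submodule F V, L ≤ E j → TS Q L → finrank F L < h := by
    intro j L hLE hLts
    obtain ⟨Q₁, hQ₁⟩ : ∃ Q₁ : QuadraticForm F ↥(E j), ∀ x : ↥(E j), Q₁ x = Q (x : V) :=
      ⟨Q.comp (E j).subtype, fun x => rfl⟩
    obtain ⟨T₁, hT₁⟩ : ∃ T₁ : Module.End F ↥(E j),
        ∀ x : ↥(E j), ((T₁ x : ↥(E j)) : V) = T (x : V) :=
      ⟨T.restrict (hEinv j), fun x => rfl⟩
    have hT₁pow : ∀ n : ℕ, ∀ x : ↥(E j), (((T₁ ^ n) x : ↥(E j)) : V) = (T ^ n) (x : V) := by
      intro n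
      induction n with
      | zero => intro x; rfl
      | succ n ih =>
        intro x
        rw [pow_succ', Module.End.mul_apply, hT₁, ih, pow_succ', Module.End.mul_apply]
    have hpol : ∀ x y : ↥(E j),
        QuadraticMap.polar ⇑Q₁ x y = QuadraticMap.polar ⇑Q (x : V) (y : V) := by
      intro x y
      unfold QuadraticMap.polar
      rw [hQ₁, hQ₁, hQ₁]
      rfl
    have hctx₁ : QCtx r Q₁ T₁ := by
      refine ⟨hctx.prime, hctx.ne_two, hctx.cast_ne, ?_, ?_, ?_⟩
      · intro x hx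
        have h1 : (x : V) ∈ E j ⊓ perp (pol Q) (E j) := by
          refine ⟨x.2, (mem_perp (pol Q) (E j) _).mpr ?_⟩
          intro u hu
          have h2 := hx ⟨u, hu⟩
          rw [hpol, QuadraticMap.polar_comm] at h2
          exact h2
        rw [hEnd j, Submodule.mem_bot] at h1
        exact Subtype.ext h1
      · intro x
        rw [hQ₁, hT₁, hctx.isom, hQ₁]
      · apply LinearMap.ext
        intro x
        apply Subtype.ext
        rw [hT₁pow, hctx.pow]
        rfl
    have hfr : finrank F ↥(E j) = ii F r := by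
      rw [hEdim, ← hi, hh]
      ring
    have hT₁ne : T₁ ≠ 1 := by
      intro h1
      have hDne : D j ≠ ⊥ := by
        intro h0
        have h2 := (hD1 j).2.2
        rw [h0, finrank_bot] at h2
        omega
      obtain ⟨x, hx, hx0⟩ := Submodule.exists_mem_ne_zero_of_ne_bot hDne
      have h2 : T (ι x) = ι x := by
        have h3 := hT₁ ⟨ι x, by rw [hE]; exact Submodule.mem_map_of_mem hx⟩
        rw [h1] at h3
        exact h3.symm
      rw [← hcomm] at h2
      have h3 : T' x = x := hinj h2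
      have h4 : x ∈ LinearMap.ker (T' - 1) :=
        (Cfsg.Agent.H99.El.mem_ker_sub_one T' x).mpr h3
      rw [hker, Submodule.mem_bot] at h4
      exact hx0 h4
    have key := hBM F ↥(E j) r Q₁ T₁ hctx₁ (by rw [← hi]; exact ⟨h, hh⟩) hfr hT₁ne
      (L.comap (E j).subtype) (by
        intro x hx
        rw [hQ₁]
        exact hLts _ hx)
    rw [(Submodule.comapSubtypeEquivOfLe hLE).finrank_eq, ← hi] at key
    omega
  have hEsup : (⨆ j, E j) = LinearMap.range (T - 1) := by
    have h1 : (⨆ j, E j) = (⨆ j, D j).map ι := by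
      rw [Submodule.map_iSup]
      exact iSup_congr hE
    rw [h1, hD3, Submodule.map_top, hrange]
  obtain ⟨-, -, hc, hd⟩ := typeU_aux hMS hCP Q h A E hEnd hEdim hEminus hEorth
  rw [hEsup] at hc hd
  have h1 : (h + h) * A = 2 * (h * A) := by ring
  constructor
  · intro hA
    obtain ⟨L, hL1, hL2, hL3⟩ := hc hA
    refine ⟨L, hL1, hL2, ?_⟩
    rw [hL3, hdimU, hh, h1]
  · intro hA L hL1 hL2
    have h2 := hd hA L hL1 hL2
    rw [hdimU, hh, h1]
    omega

example (hT : Cfsg.Agent.H77.Tm.StQTrick.{u, v}) (hDec : Cfsg.Agent.H42.Spd.StDecomp.{u, v})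
    (hBM : Cfsg.Agent.H77.Tm.StBlockMinus.{u, v}) (hMS : Cfsg.Agent.H77.Tm.StMinusSum.{u, v})
    (hCP : Cfsg.Agent.H77.Tm.StComplPlus.{u, v}) : Cfsg.Agent.H77.Tm.StTypeU.{u, v} :=
  typeU hT hDec hBM hMS hCP

end Cfsg.Agent.H28.Tm

#print axioms Cfsg.Agent.H28.Tm.typeU
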