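import Mathlib
import Cfsg.Agent.H74.TsDefs
import Cfsg.Agent.H1.Coprime
import Cfsg.Agent.H2.Coprime

set_option autoImplicit false

/-!
# TS-K1B (S2948 team project, helper74)

`U := [D, J] Q` has index 3 over `Q`: in `X / Q` the 2-group `J` acts coprimely on `D / Q`
(odd order), centralizes `C / Q` and not `D / C`; `K̃ := [D / Q, J]` centralizes `C / Q` (three
subgroups lemma), is abelian (central subgroup `K̃ ∩ C / Q` with quotient of order 3), and
`[K̃, J] = K̃` forces `C_K̃(J) = 1`, so `K̃ ∩ C / Q = 1` and `|K̃| = 3`.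
-/

namespace Cfsg.Agent.H28.Ts

open Subgroup

universe u

lemma normalizer_commutator_self {G : Type*} [Group G] {V A : Subgroup G}
    (hAV : A ≤ Subgroup.normalizer (V : Set G)) :
    A ≤ Subgroup.normalizer ((⁅V, A⁆ : Subgroup G) : Set G) := by
  rw [Subgroup.le_normalizer_iff]
  intro a ha x hx
  have h1 : (MulAut.conj a).toMonoidHom x ∈ (⁅V, A⁆).map (MulAut.conj a).toMonoidHom :=
    Subgroup.mem_map_of_mem _ hx
  rw [Subgroup.map_commutator] at h1
  have hV : V.map (MulAut.conj a).toMonoidHom ≤ V := by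
    rintro _ ⟨v, hv, rfl⟩
    exact (Subgroup.le_normalizer_iff.mp hAV) a ha v hv
  have hA : A.map (MulAut.conj a).toMonoidHom ≤ A := by
    rintro _ ⟨b, hb, rfl⟩
    exact A.mul_mem (A.mul_mem ha hb) (A.inv_mem ha)
  exact Subgroup.commutator_mono hV hA h1

lemma normalizer_sup_of {G : Type*} [Group G] {H K A : Subgroup G}
    (hH : A ≤ Subgroup.normalizer (H : Set G)) (hK : A ≤ Subgroup.normalizer (K : Set G)) :
    A ≤ Subgroup.normalizer ((H ⊔ K : Subgroup G) : Set G) := by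
  rw [Subgroup.le_normalizer_iff]
  intro a ha x hx
  have h1 : (MulAut.conj a).toMonoidHom x ∈ (H ⊔ K).map (MulAut.conj a).toMonoidHom :=
    Subgroup.mem_map_of_mem _ hx
  rw [Subgroup.map_sup] at h1
  have hH' : H.map (MulAut.conj a).toMonoidHom ≤ H := by
    rintro _ ⟨v, hv, rfl⟩
    exact (Subgroup.le_normalizer_iff.mp hH) a ha v hv
  have hK' : K.map (MulAut.conj a).toMonoidHom ≤ K := by
    rintro _ ⟨v, hv, rfl⟩
    exact (Subgroup.le_normalizer_iff.mp hK) a ha v hv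
  exact sup_le_sup hH' hK' h1

theorem k1b : Cfsg.Agent.H74.Ts.StK1B.{u} := by
  intro X _ _ C Q J D hCn hQn hQ2 hQC hodd hCJ hJ2 hCD hidx hJD hDJ
  classical
  have : Fact (Nat.Prime 2) := ⟨Nat.prime_two⟩
  have : Fact (Nat.Prime 3) := ⟨Nat.prime_three⟩
  obtain ⟨π, hπ⟩ : ∃ π : X →* X ⧸ Q, π = QuotientGroup.mk' Q := ⟨_, rfl⟩
  have hker : π.ker = Q := by rw [hπ]; exact QuotientGroup.ker_mk' Q
  have hsurj : Function.Surjective π := by rw [hπ]; exact QuotientGroup.mk'_surjective Q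
  -- the images
  have hJbDb : J.map π ≤ Subgroup.normalizer ((D.map π : Subgroup (X ⧸ Q)) : Set (X ⧸ Q)) :=
    (Subgroup.map_mono hJD).trans (Subgroup.le_normalizer_map π)
  have hDbcard : Nat.card (D.map π) = Q.relIndex C * 3 := by
    rw [← Subgroup.relIndex_ker D π, hker, ← Subgroup.relIndex_mul_relIndex Q C D hQC hCD, hidx]
  have hDbodd : Odd (Nat.card (D.map π)) := by
    rw [hDbcard]; exact Odd.mul hodd (by decide)
  have hJb2 : IsPGroup 2 ↥(J.map π) := hJ2.map π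
  obtain ⟨n, hn⟩ := (IsPGroup.iff_card (p := 2)).mp hJb2
  have hcop : (Nat.card (J.map π)).Coprime (Nat.card (D.map π)) := by
    rw [hn]
    exact Nat.Coprime.pow_left n (Nat.coprime_two_left.mpr hDbodd)
  have hsolv : Group.IsSolvable ↥(J.map π) := by
    haveI := hJb2.isNilpotent
    infer_instance
  have hKK : ⁅⁅D.map π, J.map π⁆, J.map π⁆ = ⁅D.map π, J.map π⁆ :=
    Cfsg.Agent.H1.coprime_commutator_commutator (J.map π) (D.map π) hJbDb hcop (Or.inl hsolv)
  have hCbJb : ⁅C.map π, J.map π⁆ = ⊥ := by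
    rw [← Subgroup.map_commutator, Subgroup.map_eq_bot_iff, hker]
    exact hCJ
  haveI hCbn : (C.map π).Normal := hCn.map π hsurj
  have h3 : ⁅⁅D.map π, J.map π⁆, C.map π⁆ = ⊥ := by
    apply Subgroup.commutator_commutator_eq_bot_of_rotate
    · rw [Subgroup.commutator_comm (J.map π) (C.map π), hCbJb, Subgroup.commutator_bot_left]
    · rw [eq_bot_iff, ← hCbJb]
      exact Subgroup.commutator_mono (Subgroup.commutator_le_left _ _) le_rfl
  have hKtDb : ⁅D.map π, J.map π⁆ ≤ D.map π :=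
    Cfsg.Agent.H2.commutator_le_of_le_normalizer hJbDb
  have hKtCb : ¬ ⁅D.map π, J.map π⁆ ≤ C.map π := by
    rw [← Subgroup.map_commutator, Subgroup.map_le_map_iff, hker, sup_of_le_left hQC]
    exact hDJ
  have hCbDb : (C.map π).relIndex (D.map π) = 3 := by
    rw [← Subgroup.relIndex_comap, Subgroup.comap_map_eq, hker, sup_of_le_left hQC, hidx]
  have hCbKt : (C.map π).relIndex ⁅D.map π, J.map π⁆ = 3 := by
    have hS : ⁅D.map π, J.map π⁆ ⊔ C.map π ≤ D.map π := sup_le hKtDb (Subgroup.map_mono hCD)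
    have h1 := Subgroup.relIndex_mul_relIndex (C.map π) (⁅D.map π, J.map π⁆ ⊔ C.map π) (D.map π)
      le_sup_right hS
    rw [Subgroup.relIndex_sup_right, hCbDb] at h1
    have hdvd : (C.map π).relIndex ⁅D.map π, J.map π⁆ ∣ 3 := Dvd.intro _ h1
    rcases (Nat.dvd_prime Nat.prime_three).mp hdvd with h | h
    · exact absurd (Subgroup.relIndex_eq_one.mp h) hKtCb
    · exact h
  -- `K̃` is abelian
  have hcent : ⁅D.map π, J.map π⁆ ≤ Subgroup.centralizer ((C.map π : Subgroup (X ⧸ Q)) : Set (X ⧸ Q)) :=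
    Subgroup.commutator_eq_bot_iff_le_centralizer.mp h3
  haveI hcyc : IsCyclic (↥⁅D.map π, J.map π⁆ ⧸ (C.map π).subgroupOf ⁅D.map π, J.map π⁆) := by
    apply isCyclic_of_prime_card (p := 3)
    rw [← Subgroup.index_eq_card]
    exact hCbKt
  have hcomm : ∀ a b : ↥⁅D.map π, J.map π⁆, a * b = b * a := by
    have hmc : IsMulCommutative ↥⁅D.map π, J.map π⁆ := by
      apply MonoidHom.isMulCommutative_of_isCyclic_of_ker_le_center
        (QuotientGroup.mk' ((C.map π).subgroupOf ⁅D.map π, J.map π⁆))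
      rw [QuotientGroup.ker_mk']
      intro z hz
      rw [Subgroup.mem_center_iff]
      intro k
      apply Subtype.ext
      rw [Subgroup.coe_mul, Subgroup.coe_mul]
      exact ((Subgroup.mem_centralizer_iff.mp (hcent k.2)) z hz).symm
    exact fun a b => hmc.is_comm.comm a b
  haveI : IsMulCommutative ↥⁅D.map π, J.map π⁆ := ⟨⟨hcomm⟩⟩
  have hJbKt : J.map π ≤ Subgroup.normalizer
      ((⁅D.map π, J.map π⁆ : Subgroup (X ⧸ Q)) : Set (X ⧸ Q)) :=
    normalizer_commutator_self hJbDb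
  have hcop' : (Nat.card (J.map π)).Coprime (Nat.card ↥(⁅D.map π, J.map π⁆ : Subgroup (X ⧸ Q))) :=
    Nat.Coprime.coprime_dvd_right (Subgroup.card_dvd_of_le hKtDb) hcop
  have hdec := (Cfsg.Agent.H2.coprime_abelian_decomp hJbKt hcop').1
  have hinf : C.map π ⊓ ⁅D.map π, J.map π⁆ = ⊥ := by
    rw [eq_bot_iff, ← hdec]
    intro z hz
    refine ⟨⟨hz.2, ?_⟩, ?_⟩
    · exact (Subgroup.commutator_eq_bot_iff_le_centralizer.mp hCbJb) hz.1
    · rw [hKK]; exact hz.2
  have hKtcard : Nat.card ↥(⁅D.map π, J.map π⁆ : Subgroup (X ⧸ Q)) = 3 := by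
    rw [← Subgroup.relIndex_bot_left, ← hinf, Subgroup.inf_relIndex_right, hCbKt]
  -- the subgroup `U`
  have hJcomm : J ≤ Subgroup.normalizer ((⁅D, J⁆ : Subgroup X) : Set X) :=
    normalizer_commutator_self hJD
  have hJQ : J ≤ Subgroup.normalizer (Q : Set X) := by
    rw [Subgroup.normalizer_eq_top]; exact le_top
  have hJU : J ≤ Subgroup.normalizer ((⁅D, J⁆ ⊔ Q : Subgroup X) : Set X) :=
    normalizer_sup_of hJcomm hJQ
  have hUmap : (⁅D, J⁆ ⊔ Q).map π = ⁅D.map π, J.map π⁆ := by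
    rw [Subgroup.map_sup, Subgroup.map_commutator,
      (Subgroup.map_eq_bot_iff Q).mpr (le_of_eq hker.symm), sup_bot_eq]
  refine ⟨⁅D, J⁆ ⊔ Q, le_sup_right, ?_, hJU, ?_, ?_⟩
  · have e : Q.relIndex (⁅D, J⁆ ⊔ Q) = Nat.card ↥((⁅D, J⁆ ⊔ Q).map π) := by
      rw [← Subgroup.relIndex_ker (⁅D, J⁆ ⊔ Q) π, hker]
    rw [e, hUmap, hKtcard]
  · apply le_antisymm
    · exact sup_le (Cfsg.Agent.H2.commutator_le_of_le_normalizer hJU) le_sup_right
    · refine sup_le ?_ le_sup_right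
      have h5 : (⁅D, J⁆).map π ≤ (⁅⁅D, J⁆ ⊔ Q, J⁆).map π := by
        rw [Subgroup.map_commutator, Subgroup.map_commutator, hUmap, hKK]
      rw [Subgroup.map_le_map_iff, hker] at h5
      exact h5
  · intro hUC
    exact hDJ (le_sup_left.trans hUC)

example : Cfsg.Agent.H74.Ts.StK1B.{u} := k1b

end Cfsg.Agent.H28.Ts

#print axioms Cfsg.Agent.H28.Ts.k1b
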