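import Mathlib
import Cfsg.Agent.H77.UfDefs3

/-!
# UF-EXASM (helper28, for helper77 / S2149): the existence half, assembled

`K` = the elements of `SU₃(5)` whose matrix preserves the 105 points; it contains a `D₈`, a
`3^{1+2}` and elements of order 5 and 7, hence `7560 ∣ |K|`; it contains the centre (order 3) and
not the element with matrix `G0`; its image in `PSU₃(5)` is a proper subgroup of order divisible
by 2520.
-/

set_option autoImplicit false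

namespace Cfsg.Agent.H28.Uf

open Matrix Cfsg.Agent.H77.Uf

theorem mat_mul (g h : SU35) : (g * h).1.1 = g.1.1 * h.1.1 := rfl

theorem mat_one : (1 : SU35).1.1 = 1 := rfl

theorem mat_pow (g : SU35) (n : ℕ) : (g ^ n).1.1 = g.1.1 ^ n := by
  induction n with
  | zero =>
    rw [pow_zero, pow_zero]
    rfl
  | succ n ih => rw [pow_succ, pow_succ, mat_mul, ih]

theorem mat_inj {g h : SU35} (e : g.1.1 = h.1.1) : g = h := Subtype.ext (Subtype.ext e)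

/-- **UF-EXASM**. -/
theorem exAsm (hMem : StMem) (hPres : StPresAll) (hNot : StNotPres) (hRel : StRel)
    (hSub : StSubgrp) (hCP : StCenterPres) (h8 : St8.{0}) (h27 : St27.{0})
    (hMC : StMapCard.{0}) (hZ3 : StCenter3) : StExists35 := by
  obtain ⟨⟨r, hr⟩, ⟨s, hs⟩, ⟨x, hx⟩, ⟨y, hy⟩, ⟨a5, ha5⟩, ⟨a7, ha7⟩, ⟨z, hz⟩, ⟨g0, hg0⟩⟩ := hMem
  obtain ⟨pR, pS, pD, pP, pA5, pA7, pZ⟩ := hPres
  obtain ⟨r4, r2, s2, sr, d3, p3, pd, zne, zc, a55, a5ne, a77, a7ne⟩ := hRel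
  obtain ⟨K, hK⟩ := hSub
  have hrK : r ∈ K := (hK r).mpr (by rw [hr]; exact pR)
  have hsK : s ∈ K := (hK s).mpr (by rw [hs]; exact pS)
  have hxK : x ∈ K := (hK x).mpr (by rw [hx]; exact pD)
  have hyK : y ∈ K := (hK y).mpr (by rw [hy]; exact pP)
  have ha5K : a5 ∈ K := (hK a5).mpr (by rw [ha5]; exact pA5)
  have ha7K : a7 ∈ K := (hK a7).mpr (by rw [ha7]; exact pA7)
  have hzK : z ∈ K := (hK z).mpr (by rw [hz]; exact pZ)
  -- the relations in `SU₃(5)`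
  have er4 : r ^ 4 = 1 := mat_inj (by rw [mat_pow, hr, r4]; rfl)
  have er2 : r ^ 2 ≠ 1 := fun h => r2 (by rw [← hr, ← mat_pow, h]; rfl)
  have es2 : s ^ 2 = 1 := mat_inj (by rw [mat_pow, hs, s2]; rfl)
  have esr : s * r * s⁻¹ = r⁻¹ := by
    have h1 : s * r = r ^ 3 * s := mat_inj (by rw [mat_mul, mat_mul, mat_pow, hs, hr, sr])
    have h2 : r ^ 3 = r⁻¹ := by
      rw [eq_inv_iff_mul_eq_one, ← pow_succ, er4]
    rw [h1, mul_inv_cancel_right, h2]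
  have ex3 : x ^ 3 = 1 := mat_inj (by rw [mat_pow, hx, d3]; rfl)
  have ey3 : y ^ 3 = 1 := mat_inj (by rw [mat_pow, hy, p3]; rfl)
  have ezne : z ≠ 1 := fun h => zne (by rw [← hz, h]; rfl)
  have ezc : ∀ g : SU35, z * g = g * z := fun g =>
    mat_inj (by rw [mat_mul, mat_mul, hz]; exact zc _)
  have eyx : y * x * y⁻¹ = x * z := by
    have h1 : y * x = x * z * y :=
      mat_inj (by rw [mat_mul, mat_mul, mat_mul, hy, hx, hz, pd])
    rw [h1, mul_inv_cancel_right]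
  have ea5 : a5 ^ 5 = 1 := mat_inj (by rw [mat_pow, ha5, a55]; rfl)
  have ea5ne : a5 ≠ 1 := fun h => a5ne (by rw [← ha5, h]; rfl)
  have ea7 : a7 ^ 7 = 1 := mat_inj (by rw [mat_pow, ha7, a77]; rfl)
  have ea7ne : a7 ≠ 1 := fun h => a7ne (by rw [← ha7, h]; rfl)
  -- the order of `K`
  have d8 : 8 ∣ Nat.card K :=
    h8 (⟨r, hrK⟩ : K) ⟨s, hsK⟩ (Subtype.ext er4) (fun h => er2 (congrArg Subtype.val h))
      (Subtype.ext es2) (Subtype.ext esr)
  have d27 : 27 ∣ Nat.card K :=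
    h27 (⟨x, hxK⟩ : K) ⟨y, hyK⟩ ⟨z, hzK⟩ (Subtype.ext ex3) (Subtype.ext ey3)
      (fun h => ezne (congrArg Subtype.val h)) (fun g => Subtype.ext (ezc g.1))
      (Subtype.ext eyx)
  have d5 : 5 ∣ Nat.card K := by
    have h1 : orderOf (⟨a5, ha5K⟩ : K) = 5 :=
      orderOf_eq_prime (Subtype.ext ea5) (fun h => ea5ne (congrArg Subtype.val h))
    have h2 := orderOf_dvd_natCard (⟨a5, ha5K⟩ : K)
    rw [h1] at h2
    exact h2
  have d7 : 7 ∣ Nat.card K := by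
    have : Fact (Nat.Prime 7) := ⟨by norm_num⟩
    have h1 : orderOf (⟨a7, ha7K⟩ : K) = 7 :=
      orderOf_eq_prime (Subtype.ext ea7) (fun h => ea7ne (congrArg Subtype.val h))
    have h2 := orderOf_dvd_natCard (⟨a7, ha7K⟩ : K)
    rw [h1] at h2
    exact h2
  have d7560 : 7560 ∣ Nat.card K := by
    have h1 : 8 * 27 ∣ Nat.card K := Nat.Coprime.mul_dvd_of_dvd_of_dvd (by norm_num) d8 d27
    have h2 : 8 * 27 * 5 ∣ Nat.card K := Nat.Coprime.mul_dvd_of_dvd_of_dvd (by norm_num) h1 d5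
    have h3 : 8 * 27 * 5 * 7 ∣ Nat.card K :=
      Nat.Coprime.mul_dvd_of_dvd_of_dvd (by norm_num) h2 d7
    exact h3
  -- the image in `PSU₃(5)`
  have hZK : Subgroup.center SU35 ≤ K := fun g hg => (hK g).mpr (hCP g hg)
  have hKtop : K ≠ ⊤ := by
    intro h
    have h1 : g0 ∈ K := by rw [h]; exact Subgroup.mem_top _
    have h2 := (hK g0).mp h1
    rw [hg0] at h2
    exact hNot h2
  obtain ⟨hcard, hne⟩ := hMC K hZK
  refine ⟨K.map (QuotientGroup.mk' (Subgroup.center SU35)), hne hKtop, ?_⟩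
  rw [hcard, hZ3] at d7560
  exact Nat.dvd_of_mul_dvd_mul_left (by norm_num : 0 < 3) d7560

example (hMem : Cfsg.Agent.H77.Uf.StMem) (hPres : Cfsg.Agent.H77.Uf.StPresAll)
    (hNot : Cfsg.Agent.H77.Uf.StNotPres) (hRel : Cfsg.Agent.H77.Uf.StRel)
    (hSub : Cfsg.Agent.H77.Uf.StSubgrp) (hCP : Cfsg.Agent.H77.Uf.StCenterPres)
    (h8 : Cfsg.Agent.H77.Uf.St8.{0}) (h27 : Cfsg.Agent.H77.Uf.St27.{0})
    (hMC : Cfsg.Agent.H77.Uf.StMapCard.{0}) (hZ3 : Cfsg.Agent.H77.Uf.StCenter3) :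
    Cfsg.Agent.H77.Uf.StExists35 :=
  exAsm hMem hPres hNot hRel hSub hCP h8 h27 hMC hZ3

end Cfsg.Agent.H28.Uf

#print axioms Cfsg.Agent.H28.Uf.exAsm
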