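import Mathlib
import Cfsg.Agent.H42.UtDefs
import Cfsg.Agent.H42.UnBase
import Cfsg.Agent.H40.UnInvNs

/-!
# UT-INVNS (S5953, helper28 for helper42): `T ^ 2 = ν ^ 2` with `ν` of norm `-1`: invariant
totally isotropic subspaces of every dimension `m ≤ dim V / 2` (subspaces of the `ν`-eigenspace).
-/

set_option autoImplicit false

namespace Cfsg.Agent.H28.Ut

open Cfsg.Agent.H45 Cfsg.Agent.H42.Spd Cfsg.Agent.H42.Un Cfsg.Agent.H42.Ti Cfsg.Agent.H42.Ut
  Module Polynomial

universe u v

/-- A subspace has subspaces of every smaller dimension. -/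
theorem exists_le_finrank_eq {F : Type u} [Field F] {V : Type v} [AddCommGroup V] [Module F V]
    [FiniteDimensional F V] (U : Submodule F V) (n : ℕ) (hn : n ≤ finrank F U) :
    ∃ U₁ : Submodule F V, U₁ ≤ U ∧ finrank F U₁ = n := by
  obtain ⟨b, -⟩ : ∃ b : Basis (Fin (finrank F U)) F U, b = Module.finBasis F U := ⟨_, rfl⟩
  refine ⟨Submodule.span F (Set.range (fun i : Fin n => (b (Fin.castLE hn i) : V))), ?_, ?_⟩
  · rw [Submodule.span_le]
    rintro _ ⟨i, rfl⟩
    exact (b _).2
  · have h1 : LinearIndependent F (fun i => (b i : V)) :=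
      b.linearIndependent.map' U.subtype (Submodule.ker_subtype U)
    have hli : LinearIndependent F (fun i : Fin n => (b (Fin.castLE hn i) : V)) :=
      h1.comp _ (Fin.castLE_injective hn)
    rw [finrank_span_eq_card hli, Fintype.card_fin]

theorem utInvNs (hH : StUtHalf.{u,v}) : StUtInvNs.{u,v} := by
  intro F _ _ σ V _ _ _ B T hT h2 ν hν hTT m hm
  have hν0 : ν ≠ 0 := by
    rintro rfl
    rw [zero_mul] at hν
    have h3 : (1 : F) = 0 := by linear_combination hν
    exact one_ne_zero h3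
  have h2ν : (2 * ν : F) ≠ 0 := mul_ne_zero h2 hν0
  obtain ⟨Ep, hEp⟩ : ∃ Ep : Submodule F V,
      Ep = LinearMap.ker (T - ν • (1 : Module.End F V)) := ⟨_, rfl⟩
  obtain ⟨Em, hEm⟩ : ∃ Em : Submodule F V,
      Em = LinearMap.ker (T + ν • (1 : Module.End F V)) := ⟨_, rfl⟩
  have memp : ∀ x, x ∈ Ep ↔ T x = ν • x := by
    intro x
    rw [hEp, LinearMap.mem_ker, LinearMap.sub_apply, LinearMap.smul_apply,
      Module.End.one_apply, sub_eq_zero]
  have memm : ∀ x, x ∈ Em ↔ T x = (-ν) • x := by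
    intro x
    rw [hEm, LinearMap.mem_ker, LinearMap.add_apply, LinearMap.smul_apply,
      Module.End.one_apply, neg_smul, add_eq_zero_iff_eq_neg]
  have hTT' : ∀ x, T (T x) = (ν * ν) • x := by
    intro x
    have h1 : (T * T) x = ((ν * ν) • (1 : Module.End F V)) x := by rw [hTT]
    rw [Module.End.mul_apply, LinearMap.smul_apply, Module.End.one_apply] at h1
    exact h1
  have hsup : Ep ⊔ Em = ⊤ := by
    rw [eq_top_iff]
    intro v _
    have hv : v = (2 * ν)⁻¹ • (T v + ν • v) + (-(2 * ν)⁻¹) • (T v - ν • v) := by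
      rw [neg_smul, ← sub_eq_add_neg, ← smul_sub]
      have h1 : T v + ν • v - (T v - ν • v) = (2 * ν) • v := by
        rw [mul_smul, two_smul]
        abel
      rw [h1, smul_smul, inv_mul_cancel₀ h2ν, one_smul]
    rw [hv]
    apply Submodule.add_mem_sup
    · apply Submodule.smul_mem
      rw [memp, map_add, map_smul, hTT', smul_add, mul_smul]
      abel
    · apply Submodule.smul_mem
      rw [memm, map_sub, map_smul, hTT', neg_smul, smul_sub, mul_smul]
      abel
  have hinf : Ep ⊓ Em = ⊥ := by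
    rw [eq_bot_iff]
    intro x hx
    rw [Submodule.mem_bot]
    have h1 := (memp x).mp hx.1
    have h3 := (memm x).mp hx.2
    have h4 : (2 * ν) • x = 0 := by
      rw [mul_smul, two_smul]
      have h5 : ν • x = -(ν • x) := by rw [← neg_smul, ← h3, h1]
      nth_rewrite 1 [h5]
      exact neg_add_cancel _
    exact (smul_eq_zero.mp h4).resolve_left h2ν
  have hdim : finrank F Ep + finrank F Em = finrank F V := by
    have h1 := Submodule.finrank_sup_add_finrank_inf_eq Ep Em
    rw [hsup, hinf, finrank_top, finrank_bot] at h1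
    omega
  have hEpti : UTI B Ep := fun x hx y hy =>
    Cfsg.Agent.H40.Un.ns_iso B T hT h2 ν hν x y ((memp x).mp hx) ((memp y).mp hy)
  have hEmti : UTI B Em := fun x hx y hy =>
    Cfsg.Agent.H40.Un.ns_iso B T hT h2 (-ν) (by rw [map_neg, neg_mul_neg, hν]) x y
      ((memm x).mp hx) ((memm y).mp hy)
  have htop : (⊤ : Submodule F V) ⊓ perp B ⊤ = ⊥ := hT.und_top.2
  have hp := hH F σ V B T hT ⊤ Ep htop le_top hEpti
  have hm' := hH F σ V B T hT ⊤ Em htop le_top hEmti
  rw [finrank_top] at hp hm'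
  have hmle : m ≤ finrank F Ep := by omega
  obtain ⟨U, hUle, hUd⟩ := exists_le_finrank_eq Ep m hmle
  refine ⟨U, ?_, fun x hx y hy => hEpti x (hUle hx) y (hUle hy), hUd⟩
  rw [Module.End.mem_invtSubmodule]
  intro x hx
  rw [Submodule.mem_comap, (memp x).mp (hUle hx)]
  exact U.smul_mem ν hx

example (hH : StUtHalf.{u,v}) : Cfsg.Agent.H42.Ut.StUtInvNs.{u,v} := utInvNs hH

end Cfsg.Agent.H28.Ut
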