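import Mathlib
import Cfsg.Agent.H42.UtDefs

/-!
# UT-MODALL (S5953, helper28 for helper42): hermitian models with arbitrary multiplicities, for
`i ≡ 2 (mod 4)` (port of helper14's `TiModAll`).
-/

set_option autoImplicit false

namespace Cfsg.Agent.H28.Ut

open Cfsg.Agent.H45 Cfsg.Agent.H42.Spd Cfsg.Agent.H42.Un Cfsg.Agent.H42.Ti Cfsg.Agent.H42.Ut
  Module Polynomial

universe u

/-- `UModelC` only depends on the values of `a` on `Φs`. -/
theorem umodelC_congr {F : Type u} [Field F] {σ : F →+* F} {r n k n' k' : ℕ}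
    {Φs : Finset F[X]}
    {a a' : F[X] → ℕ} (hn : n = n') (hk : k = k') (ha : ∀ φ ∈ Φs, a φ = a' φ)
    (h : UModelC F σ r n k Φs a) : UModelC F σ r n' k' Φs a' := by
  obtain ⟨V, i1, i2, i3, B, g, hg, hgr, hfin, hker, hφ⟩ := h
  exact ⟨V, i1, i2, i3, B, g, hg, hgr, hn ▸ hfin, hk ▸ hker, fun φ hφm => (ha φ hφm) ▸ hφ φ hφm⟩

theorem utModAll (hB : StUtModBlock.{u}) (hS : StUtModStd.{u}) (hA : StUtModAdd.{u}) :
    StUtModAll.{u} := by
  intro F _ _ p _ _ q σ r hF hσq hr hr2 hrp hev Φs hΦ mult m
  classical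
  have key : ∀ (N : ℕ) (mult : F[X] → ℕ), ∑ φ ∈ Φs, mult φ = N →
      UModelC F σ r (m + ii F r * N) m Φs (fun φ => ii F r * mult φ) := by
    intro N
    induction N with
    | zero =>
      intro mult hsum
      have h0 : ∀ φ ∈ Φs, mult φ = 0 := Finset.sum_eq_zero_iff.mp hsum
      refine umodelC_congr (by ring) rfl ?_ (hS F p q σ r hF hσq hr hrp Φs hΦ m)
      intro φ hφ
      rw [h0 φ hφ, mul_zero]
    | succ N ih =>
      intro mult hsum
      have hex : ∃ φ₀ ∈ Φs, mult φ₀ ≠ 0 := by
        by_contra hcon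
        push Not at hcon
        have : ∑ φ ∈ Φs, mult φ = 0 := Finset.sum_eq_zero hcon
        omega
      obtain ⟨φ₀, hφ₀, hm₀⟩ := hex
      have hsum' : ∑ φ ∈ Φs, Function.update mult φ₀ (mult φ₀ - 1) φ = N := by
        have h1 := Finset.sum_update_of_mem hφ₀ mult (mult φ₀ - 1)
        have h2 : ∑ φ ∈ Φs, mult φ = mult φ₀ + ∑ φ ∈ Φs \ {φ₀}, mult φ := by
          rw [← Finset.sum_singleton mult φ₀, ← Finset.sum_union (by simp)]
          congr 1
          ext x
          simp only [Finset.mem_union, Finset.mem_singleton, Finset.mem_sdiff]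
          constructor
          · intro hx
            by_cases hxe : x = φ₀
            · exact Or.inl hxe
            · exact Or.inr ⟨hx, hxe⟩
          · rintro (rfl | ⟨hx, -⟩)
            · exact hφ₀
            · exact hx
        rw [h1]
        omega
      have h1 := ih _ hsum'
      have h2 := hB F p q σ r hF hσq hr hr2 hrp hev Φs hΦ φ₀ hφ₀
      have h3 := hA F p σ r hr hrp Φs _ _ _ _ _ _ h1 h2
      refine umodelC_congr (by ring) (by ring) ?_ h3
      intro φ hφ
      by_cases hφe : φ = φ₀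
      · subst hφe
        simp only [Function.update_self, if_true]
        have : mult φ = (mult φ - 1) + 1 := by omega
        conv_rhs => rw [this]
        ring
      · simp only [Function.update_of_ne hφe, if_neg hφe, add_zero]
  exact key _ mult rfl

example (hB : StUtModBlock.{u}) (hS : StUtModStd.{u}) (hA : StUtModAdd.{u}) :
    Cfsg.Agent.H42.Ut.StUtModAll.{u} := utModAll hB hS hA

end Cfsg.Agent.H28.Ut
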