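import Mathlib
import Cfsg.Agent.H42.UtDefs
import Cfsg.Agent.H42.UnBase

/-!
# UT-MODSTD (S5953, helper28 for helper42): the identity on a standard hermitian space as a model
-/

set_option autoImplicit false

namespace Cfsg.Agent.H28.Ut

open Cfsg.Agent.H45 Cfsg.Agent.H42.Spd Cfsg.Agent.H42.Un Cfsg.Agent.H42.Ti Cfsg.Agent.H42.Ut
  Module Polynomial

universe u

theorem utModStd : StUtModStd.{u} := by
  intro F _ _ p _ _ q σ r hF hσq hr hrp Φs hΦ m
  have hpr : ¬ p ∣ r := by
    intro h
    exact hrp ((Nat.prime_dvd_prime_iff_eq (Fact.out : p.Prime) hr).mp h).symm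
  have hrF : (r : F) ≠ 0 := by
    intro h
    exact hpr ((CharP.cast_eq_zero_iff F p r).mp h)
  have hfin : Module.finrank F (Fin m → F) = m := by
    rw [Module.finrank_fintype_fun_eq_card, Fintype.card_fin]
  refine ⟨Fin m → F, inferInstance, inferInstance, inferInstance, hermB σ m, 1,
    (uiso_std_one hF σ hσq m).good_one, one_pow r, hfin, ?_, ?_⟩
  · rw [sub_self, LinearMap.ker_zero, finrank_top, hfin]
  · intro φ hφ
    obtain ⟨-, -, hdvd⟩ := (hΦ φ).mp hφ
    have hev : φ.eval 1 ≠ 0 := by
      intro h0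
      obtain ⟨c, hc⟩ := hdvd
      have : Fact r.Prime := ⟨hr⟩
      have h1 : (cyclotomic r F).eval 1 = (r : F) := eval_one_cyclotomic_prime
      rw [hc, eval_mul, h0, zero_mul] at h1
      exact hrF h1.symm
    have hker : LinearMap.ker (aeval (1 : Module.End F (Fin m → F)) φ) = ⊥ := by
      have e : aeval (1 : Module.End F (Fin m → F)) φ =
          algebraMap F (Module.End F (Fin m → F)) (φ.eval 1) := by
        rw [← map_one (algebraMap F (Module.End F (Fin m → F))),
          aeval_algebraMap_apply_eq_algebraMap_eval]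
      rw [e, LinearMap.ker_eq_bot']
      intro x hx
      rw [Module.algebraMap_end_apply] at hx
      exact (smul_eq_zero.mp hx).resolve_left hev
    rw [hker, finrank_bot]

example : Cfsg.Agent.H42.Ut.StUtModStd.{u} := utModStd

end Cfsg.Agent.H28.Ut
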