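import Mathlib
import Cfsg.Agent.H42.UtDefs
import Cfsg.Agent.H42.UnBase
import Cfsg.Agent.H27.UnCompl
import Cfsg.Agent.H3.TiCompDvd
import Cfsg.Agent.H3.TiIrrSub

/-!
# UT-PAIR (S5953, helper28 for helper42): a nondegenerate invariant `M` killed by an irreducible
`φ`, of dimension at least `2 deg φ`, contains a hyperbolic pair of rank `deg φ`
(port of helper3's `TiPair`).
-/

set_option autoImplicit false

namespace Cfsg.Agent.H28.Ut

open Cfsg.Agent.H45 Cfsg.Agent.H42.Spd Cfsg.Agent.H42.Un Cfsg.Agent.H42.Ti Cfsg.Agent.H42.Ut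
  Module Polynomial

universe u v

theorem utPair (hH : StUtHypClose.{u,v}) (hA : StUtAnti.{u,v}) : StUtPair.{u,v} := by
  intro F _ _ σ V _ _ _ B T hiso hss φ hirr M hM hMker h2
  have hD := Cfsg.Agent.H3.Ti.tiCompDvd.{u,v}
  have hI := Cfsg.Agent.H3.Ti.tiIrrSub.{u,v}
  have hdpos : 0 < φ.natDegree := hirr.natDegree_pos
  have hdich : ∀ L : Submodule F V, L ∈ T.invtSubmodule → L ≤ LinearMap.ker (aeval T φ) →
      finrank F L = φ.natDegree → UTI B L ∨ UNd B T L := by
    intro L hL hLker hLd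
    obtain ⟨R, hR⟩ : ∃ R : Submodule F V, R = L ⊓ perp B L := ⟨_, rfl⟩
    have hRinv : R ∈ T.invtSubmodule := by
      rw [hR]
      exact (T.invtSubmodule).inf_mem hL (hiso.perp_invt L hL)
    have hRL : R ≤ L := by rw [hR]; exact inf_le_left
    have hdvd := hD F V T φ hirr R hRinv
    have hRk : R ⊓ LinearMap.ker (aeval T φ) = R := inf_eq_left.2 (hRL.trans hLker)
    rw [hRk] at hdvd
    have hle : finrank F R ≤ φ.natDegree := by rw [← hLd]; exact Submodule.finrank_mono hRL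
    obtain ⟨m, hm⟩ := hdvd
    rcases Nat.eq_zero_or_pos m with h0 | hpos
    · right
      refine ⟨hL, ?_⟩
      rw [← hR]
      rw [h0, mul_zero] at hm
      exact Submodule.finrank_eq_zero.1 hm
    · left
      have hRd : finrank F R = φ.natDegree := by
        apply le_antisymm hle
        rw [hm]; exact Nat.le_mul_of_pos_right _ hpos
      have hRL' : R = L := Submodule.eq_of_le_of_finrank_eq hRL (by rw [hRd, hLd])
      intro u hu v hv
      have hv' : v ∈ perp B L := by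
        have hvR : v ∈ R := by rw [hRL']; exact hv
        rw [hR] at hvR; exact hvR.2
      exact hv' u hu
  have hMne : M ≠ ⊥ := by
    rintro rfl
    rw [finrank_bot] at h2
    omega
  obtain ⟨L₁, hL₁M, hL₁inv, hL₁d⟩ := hI F V T φ hirr M hM.1 hMker hMne
  rcases hdich L₁ hL₁inv (hL₁M.trans hMker) hL₁d with hTI | hNd1
  · exact hH F σ V B T hiso φ hirr M L₁ hM hMker hL₁M hL₁inv hTI hL₁d
  · obtain ⟨hM', -, hfin⟩ := Cfsg.Agent.H27.Un.uCompl F σ V B T hiso L₁ M hNd1 hM hL₁M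
    have hM'ne : M ⊓ perp B L₁ ≠ ⊥ := by
      intro h0
      rw [h0, finrank_bot] at hfin
      omega
    have hM'ker : M ⊓ perp B L₁ ≤ LinearMap.ker (aeval T φ) := inf_le_left.trans hMker
    obtain ⟨L₂, hL₂M', hL₂inv, hL₂d⟩ := hI F V T φ hirr _ hM'.1 hM'ker hM'ne
    have hL₂M : L₂ ≤ M := hL₂M'.trans inf_le_left
    rcases hdich L₂ hL₂inv (hL₂M.trans hMker) hL₂d with hTI | hNd2
    · exact hH F σ V B T hiso φ hirr M L₂ hM hMker hL₂M hL₂inv hTI hL₂d
    · obtain ⟨L, hLle, hLinv, hLTI, hLd⟩ := hA F σ V B T hiso hss φ hirr L₁ L₂ hNd1 hNd2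
        (hL₁M.trans hMker) (hL₂M.trans hMker) (hL₂M'.trans inf_le_right) hL₁d hL₂d
      exact hH F σ V B T hiso φ hirr M L hM hMker (hLle.trans (sup_le hL₁M hL₂M)) hLinv hLTI hLd

example (hH : StUtHypClose.{u,v}) (hA : StUtAnti.{u,v}) : Cfsg.Agent.H42.Ut.StUtPair.{u,v} :=
  utPair hH hA

end Cfsg.Agent.H28.Ut
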