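import Mathlib
import Cfsg.Agent.H42.UtDefs
import Cfsg.Agent.H42.UnBase

/-!
# UT-WITT (S5953, helper28 for helper42): a nondegenerate subspace contains totally isotropic
subspaces of every dimension `j ≤ dim K / 2` (peeling hyperbolic planes, for the isometry `1`).
-/

set_option autoImplicit false

namespace Cfsg.Agent.H28.Ut

open Cfsg.Agent.H45 Cfsg.Agent.H42.Spd Cfsg.Agent.H42.Un Cfsg.Agent.H42.Ti Cfsg.Agent.H42.Ut
  Module Polynomial

universe u v

theorem utWitt (hPeel : StUtPeel.{u,v}) (hPair : StUtPair.{u,v}) : StUtWitt.{u,v} := by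
  intro F _ _ σ V _ _ _ B T hT K hK j hj
  have h1 : UIso B (1 : Module.End F V) := hT.one
  have hinv : ∀ W : Submodule F V, W ∈ (1 : Module.End F V).invtSubmodule := by
    intro W
    rw [Module.End.mem_invtSubmodule]
    intro x hx
    exact hx
  have hKnd : UNd B (1 : Module.End F V) K := ⟨hinv K, hK⟩
  have hirr : Irreducible (X - C (1 : F)) := irreducible_X_sub_C 1
  have hdeg : (X - C (1 : F)).natDegree = 1 := natDegree_X_sub_C 1
  have hker : LinearMap.ker (aeval (1 : Module.End F V) (X - C (1 : F))) = ⊤ := by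
    have e : aeval (1 : Module.End F V) (X - C (1 : F)) = 0 := by
      rw [map_sub, aeval_X, aeval_C, map_one, sub_self]
    rw [e, LinearMap.ker_zero]
  have hpair : ∀ W : Submodule F V, W ≤ K → UNd B (1 : Module.End F V) W →
      1 < Module.finrank F W → UHypPair B (1 : Module.End F V) 1 W := by
    intro W _ hW hlt
    have h2 := hPair F σ V B 1 h1 Module.End.isSemisimple_id (X - C (1 : F)) hirr W hW
      (by rw [hker]; exact le_top) (by rw [hdeg]; omega)
    rw [hdeg] at h2
    exact h2
  obtain ⟨U, hUK, -, hUti, hUd⟩ := hPeel F σ V B 1 h1 1 1 K hKnd hpair j (by omega)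
  exact ⟨U, hUK, hUti, by rw [hUd, one_mul]⟩

example (hPeel : StUtPeel.{u,v}) (hPair : StUtPair.{u,v}) : Cfsg.Agent.H42.Ut.StUtWitt.{u,v} :=
  utWitt hPeel hPair

end Cfsg.Agent.H28.Ut
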